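import Cfsg.Agent.Lib.Helper36.StbA
import Cfsg.Agent.Lib.Helper6.BN

/-!
# Distinguished coset representatives in the Chevalley groups (for the Steinberg character)
-/

set_option autoImplicit false

namespace Cfsg.Agent.Lib.Helper36

open Cfsg Cfsg.Lie Cfsg.Agent.Lib.Helper18

universe u

variable {F : Type u} [Field F]

/-- the element `n_l` of a word -/
noncomputable abbrev nW (D : ChevalleyDatum)
    (hD : D ∈ [chevG2, chevB2, chevD4, chevF4, chevE6, chevE7, chevE8]) (l : List (Fin D.rank)) :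
    GL D.Idx F := (l.map (nU (F := F) D hD)).prod

/-- the generators `n_j`, `j ∈ J`, of the parabolic subgroup -/
def jGen (D : ChevalleyDatum) (F : Type u) [Field F] (J : Set ℕ) : Set (GL D.Idx F) :=
  {g | ∃ j ∈ J, j < D.rank ∧ (g : Matrix D.Idx D.Idx F) = D.nMat F (D.simple j) 1}

/-- `l` maps the fundamental roots of `J` to positive roots -/
def DJ (D : ChevalleyDatum) (J : Set ℕ) (l : List (Fin D.rank)) : Prop :=
  ∀ j ∈ J, j < D.rank → D.IsPosRoot (wordF D l (D.simple j))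

theorem parabolic_eq_jGen (D : ChevalleyDatum) (J : Set ℕ) :
    D.parabolicSubgroup F J = D.borelSubgroup F ⊔ Subgroup.closure (jGen D F J) := rfl

theorem nW_append (D : ChevalleyDatum)
    (hD : D ∈ [chevG2, chevB2, chevD4, chevF4, chevE6, chevE7, chevE8]) (l l' : List (Fin D.rank)) :
    nW (F := F) D hD (l ++ l') = nW D hD l * nW D hD l' := by
  unfold nW
  rw [List.map_append, List.prod_append]

theorem nW_mem_monomial (D : ChevalleyDatum)
    (hD : D ∈ [chevG2, chevB2, chevD4, chevF4, chevE6, chevE7, chevE8]) (l : List (Fin D.rank)) :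
    nW (F := F) D hD l ∈ D.monomialSubgroup F := by
  apply Subgroup.list_prod_mem
  intro x hx
  obtain ⟨i, -, rfl⟩ := List.mem_map.mp hx
  unfold ChevalleyDatum.monomialSubgroup
  exact (le_sup_right : _ ≤ D.diagonalSubgroup F ⊔ _)
    (Subgroup.subset_closure ⟨D.simple i.val, simple_lt D hD i.val i.isLt, coe_nU D hD i⟩)

theorem nW_mem_normalizer (D : ChevalleyDatum)
    (hD : D ∈ [chevG2, chevB2, chevD4, chevF4, chevE6, chevE7, chevE8]) (l : List (Fin D.rank)) :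
    nW (F := F) D hD l ∈ Subgroup.normalizer (D.diagonalSubgroup F : Set (GL D.Idx F)) :=
  list_prod_mem_normalizer (D.diagonalSubgroup F) (nU (F := F) D hD) (nU_mem_normalizer D hD) l

theorem nW_mem_group (D : ChevalleyDatum)
    (hD : D ∈ [chevG2, chevB2, chevD4, chevF4, chevE6, chevE7, chevE8]) (l : List (Fin D.rank)) :
    nW (F := F) D hD l ∈ D.group F :=
  monomialSubgroup_le_group D hD (nW_mem_monomial D hD l)

theorem jGen_eq_nU (D : ChevalleyDatum)
    (hD : D ∈ [chevG2, chevB2, chevD4, chevF4, chevE6, chevE7, chevE8]) (J : Set ℕ)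
    (g : GL D.Idx F) (hg : g ∈ jGen D F J) : ∃ a : Fin D.rank, a.val ∈ J ∧ g = nU D hD a := by
  obtain ⟨j, hjJ, hj, e⟩ := hg
  exact ⟨⟨j, hj⟩, hjJ, Units.ext (by rw [e, coe_nU])⟩

theorem nU_mem_jGen (D : ChevalleyDatum)
    (hD : D ∈ [chevG2, chevB2, chevD4, chevF4, chevE6, chevE7, chevE8]) (J : Set ℕ)
    (a : Fin D.rank) (ha : a.val ∈ J) : nU (F := F) D hD a ∈ jGen D F J :=
  ⟨a.val, ha, a.isLt, coe_nU D hD a⟩

theorem jclosure_le_normalizer (D : ChevalleyDatum)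
    (hD : D ∈ [chevG2, chevB2, chevD4, chevF4, chevE6, chevE7, chevE8]) (J : Set ℕ) :
    Subgroup.closure (jGen D F J) ≤
      Subgroup.normalizer (D.diagonalSubgroup F : Set (GL D.Idx F)) := by
  rw [Subgroup.closure_le]
  intro g hg
  obtain ⟨a, -, rfl⟩ := jGen_eq_nU D hD J g hg
  exact nU_mem_normalizer D hD a

/-- an element of `⟨n_j : j ∈ J⟩` is a `J`-word modulo `H` -/
theorem jclosure_word (D : ChevalleyDatum)
    (hD : D ∈ [chevG2, chevB2, chevD4, chevF4, chevE6, chevE7, chevE8]) (J : Set ℕ)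
    (m : GL D.Idx F) (hm : m ∈ Subgroup.closure (jGen D F J)) :
    ∃ h ∈ D.diagonalSubgroup F, ∃ v : List (Fin D.rank), (∀ a ∈ v, a.val ∈ J) ∧
      m = h * nW D hD v := by
  have hle : Subgroup.closure (jGen D F J) ≤ D.diagonalSubgroup F ⊔
      Subgroup.closure (Set.range (fun a : {a : Fin D.rank // a.val ∈ J} => nU (F := F) D hD a.1)) := by
    refine le_trans ?_ le_sup_right
    apply Subgroup.closure_mono
    intro g hg
    obtain ⟨a, ha, rfl⟩ := jGen_eq_nU D hD J g hg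
    exact ⟨⟨a, ha⟩, rfl⟩
  obtain ⟨h, hh, l, e⟩ := exists_word_of_mem_sup (D.diagonalSubgroup F)
    (fun a : {a : Fin D.rank // a.val ∈ J} => nU (F := F) D hD a.1)
    (fun a => nU_mem_normalizer D hD a.1) (fun a => nU_sq_mem D hD a.1) m (hle hm)
  refine ⟨h, hh, l.map Subtype.val, ?_, ?_⟩
  · intro a ha
    obtain ⟨b, -, rfl⟩ := List.mem_map.mp ha
    exact b.2
  · rw [e]
    unfold nW
    rw [List.map_map]
    rfl

/-- positivity of the image of a root only depends on the word modulo `H` -/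
theorem wd_pos (D : ChevalleyDatum)
    (hD : D ∈ [chevG2, chevB2, chevD4, chevF4, chevE6, chevE7, chevE8]) (l l' : List (Fin D.rank))
    (h : (nW (F := F) D hD l)⁻¹ * nW D hD l' ∈ D.diagonalSubgroup F) (s : ℕ) (hs : s < D.nroots)
    (hpos : D.IsPosRoot (wordF D l s)) : D.IsPosRoot (wordF D l' s) := by
  have hS := sgnOK_all D hD
  obtain ⟨ε, hε⟩ := word_smap (F := F) D hD l
  obtain ⟨ε', hε'⟩ := word_smap (F := F) D hD l'
  have hN := nW_mem_normalizer (F := F) D hD l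
  have h1 : nW (F := F) D hD l * ((nW (F := F) D hD l)⁻¹ * nW D hD l')⁻¹ * (nW (F := F) D hD l)⁻¹ ∈
      D.diagonalSubgroup F := conj_mem_of_mem_normalizer _ hN (Subgroup.inv_mem _ h)
  have e : nW (F := F) D hD l =
      (nW (F := F) D hD l * ((nW (F := F) D hD l)⁻¹ * nW D hD l')⁻¹ * (nW (F := F) D hD l)⁻¹) *
        nW D hD l' := by group
  exact pos_of_smap_diag D hD hS _ _ _ h1 e _ _ _ _ hε hε' s hs hpos

theorem wd_neg (D : ChevalleyDatum)
    (hD : D ∈ [chevG2, chevB2, chevD4, chevF4, chevE6, chevE7, chevE8]) (l l' : List (Fin D.rank))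
    (h : (nW (F := F) D hD l)⁻¹ * nW D hD l' ∈ D.diagonalSubgroup F) (s : ℕ) (hs : s < D.nroots)
    (hneg : D.IsNegRoot (wordF D l s)) : D.IsNegRoot (wordF D l' s) := by
  have hS := sgnOK_all D hD
  rcases hS.pos_or_neg _ (wordF_lt D hD l' s hs) with h1 | h1
  · exfalso
    have h2 : (nW (F := F) D hD l')⁻¹ * nW D hD l ∈ D.diagonalSubgroup F := by
      have := Subgroup.inv_mem _ h
      rwa [mul_inv_rev, inv_inv] at this
    exact hS.not_both _ ⟨wd_pos D hD l' l h2 s hs h1, hneg⟩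
  · exact h1

/-- conjugation by `n_l` on a root element -/
theorem nW_conj_xU (D : ChevalleyDatum)
    (hD : D ∈ [chevG2, chevB2, chevD4, chevF4, chevE6, chevE7, chevE8]) (l : List (Fin D.rank))
    (r : ℕ) (hr : r < D.nroots) (t : F) :
    ∃ t' : F, nW D hD l * xU D hD r t * (nW D hD l)⁻¹ = xU D hD (wordF D l r) t' := by
  obtain ⟨ε, hε⟩ := word_smap (F := F) D hD l
  have e1 := hε.conjU hD r hr t
  refine ⟨ε r * t, ?_⟩
  show (l.map (nU (F := F) D hD)).prod * xU D hD r t * ((l.map (nU (F := F) D hD)).prod)⁻¹ = _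
  rw [e1]
  group

/-- the positive roots of `Φ_J` -/
def SubRoot (D : ChevalleyDatum) (J : Set ℕ) (r : ℕ) : Prop := D.IsPosRoot r ∧ D.InRootSub J r

theorem conj_word_mem_unip (D : ChevalleyDatum)
    (hD : D ∈ [chevG2, chevB2, chevD4, chevF4, chevE6, chevE7, chevE8]) (J : Set ℕ)
    (l : List (Fin D.rank)) (hl : DJ D J l) (a : GL D.Idx F)
    (ha : a ∈ rootCl D F (SubRoot D J)) :
    nW D hD l * a * (nW D hD l)⁻¹ ∈ D.posUnipotent F := by
  refine conj_mem_closure _ _ _ ?_ a ha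
  rintro x ⟨r, t, hr, hx⟩
  rw [eq_xU D hD r t x hx]
  obtain ⟨t', e⟩ := nW_conj_xU D hD l r hr.1.1 t
  rw [e]
  exact Subgroup.subset_closure ⟨_, t', word_pos_of_sub D hD J l hl r hr.1 hr.2, coe_xU D hD _ _⟩

theorem radCl_le_unip (D : ChevalleyDatum) (J : Set ℕ) :
    rootCl D F (RadRoot D J) ≤ D.posUnipotent F := by
  apply Subgroup.closure_mono
  rintro x ⟨r, t, hr, hx⟩
  exact ⟨r, t, hr.1, hx⟩

theorem subCl_le_unip (D : ChevalleyDatum) (J : Set ℕ) :
    rootCl D F (SubRoot D J) ≤ D.posUnipotent F := by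
  apply Subgroup.closure_mono
  rintro x ⟨r, t, hr, hx⟩
  exact ⟨r, t, hr.1, hx⟩

/-- `U = U_{Φ_J⁺} U_J` -/
theorem unip_fac (D : ChevalleyDatum)
    (hD : D ∈ [chevG2, chevB2, chevD4, chevF4, chevE6, chevE7, chevE8]) (J : Set ℕ)
    (x : GL D.Idx F) (hx : x ∈ D.posUnipotent F) :
    ∃ a ∈ rootCl D F (SubRoot D J), ∃ c ∈ rootCl D F (RadRoot D J), x = a * c := by
  have hN : rootCl D F (SubRoot D J) ≤
      Subgroup.normalizer (rootCl D F (RadRoot D J) : Set (GL D.Idx F)) :=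
    (subCl_le_unip D J).trans (unip_le_normalizer_rad D hD J)
  have hle : D.posUnipotent F ≤ rootCl D F (RadRoot D J) ⊔ rootCl D F (SubRoot D J) := by
    unfold ChevalleyDatum.posUnipotent
    rw [Subgroup.closure_le]
    rintro g ⟨r, t, hr, hg⟩
    by_cases hJ : D.InRootSub J r
    · exact (le_sup_right : rootCl D F (SubRoot D J) ≤ _)
        (Subgroup.subset_closure ⟨r, t, ⟨hr, hJ⟩, hg⟩)
    · exact (le_sup_left : rootCl D F (RadRoot D J) ≤ _)
        (Subgroup.subset_closure ⟨r, t, ⟨hr, hJ⟩, hg⟩)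
  obtain ⟨c, hc, a, ha, e⟩ := exists_mul_of_mem_sup _ _ hN x (hle hx)
  refine ⟨a, ha, a⁻¹ * c * a⁻¹⁻¹, conj_mem_of_mem_normalizer _ (hN (Subgroup.inv_mem _ ha)) hc, ?_⟩
  rw [e]
  group

/-- `n_l B m ⊆ B n_l m B` for `l ∈ D_J` and `m ∈ ⟨n_j : j ∈ J⟩` -/
theorem dj_mul (D : ChevalleyDatum)
    (hD : D ∈ [chevG2, chevB2, chevD4, chevF4, chevE6, chevE7, chevE8]) (J : Set ℕ)
    (l : List (Fin D.rank)) (hl : DJ D J l) (m : GL D.Idx F)
    (hm : m ∈ Subgroup.closure (jGen D F J)) (y : GL D.Idx F) (hy : y ∈ D.borelSubgroup F) :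
    ∃ y' ∈ D.borelSubgroup F, ∃ y'' ∈ D.borelSubgroup F,
      nW D hD l * y * m = y' * (nW D hD l * m) * y'' := by
  have hUB : D.posUnipotent F ≤ D.borelSubgroup F := le_sup_left
  have hHB : D.diagonalSubgroup F ≤ D.borelSubgroup F := le_sup_right
  obtain ⟨x, hx, h, hh, rfl⟩ := exists_mul_of_mem_sup _ _
    (diagonalSubgroup_le_normalizer_posUnipotent (F := F) D hD) y hy
  obtain ⟨a, ha, c, hc, rfl⟩ := unip_fac D hD J x hx
  have hmP : m ∈ D.parabolicSubgroup F J := by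
    rw [parabolic_eq_jGen]
    exact (le_sup_right : Subgroup.closure (jGen D F J) ≤ _) hm
  have hmN := parabolic_le_normalizer_rad D hD J (Subgroup.inv_mem _ hmP)
  rw [unipotentRadical_eq_rootCl] at hmN
  have h1 : m⁻¹ * c * m⁻¹⁻¹ ∈ rootCl D F (RadRoot D J) := conj_mem_of_mem_normalizer _ hmN hc
  have h2 : m⁻¹ * h * m⁻¹⁻¹ ∈ D.diagonalSubgroup F :=
    conj_mem_of_mem_normalizer _ (jclosure_le_normalizer D hD J (Subgroup.inv_mem _ hm)) hh
  refine ⟨nW D hD l * a * (nW D hD l)⁻¹, hUB (conj_word_mem_unip D hD J l hl a ha),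
    (m⁻¹ * c * m⁻¹⁻¹) * (m⁻¹ * h * m⁻¹⁻¹),
    Subgroup.mul_mem _ (hUB (radCl_le_unip D J h1)) (hHB h2), ?_⟩
  group

end Cfsg.Agent.Lib.Helper36
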