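import Cfsg.Agent.Lib.Helper36.ChevAutH
import Cfsg.Agent.Lib.Helper36.ChevAutE8
import Cfsg.Agent.Lib.Helper18.ChevGraph

set_option autoImplicit false

/-!
# Automorphisms of `E₆(q)`

Every automorphism of `E₆(q)` is the product of an inner, a diagonal, a field and possibly the
graph automorphism.
-/

namespace Cfsg.Agent.Lib.Helper36

open Cfsg Cfsg.Lie Cfsg.Agent.Lib.Helper18

universe u

variable {F : Type u} [Field F]

theorem hE6 : chevE6 ∈ [chevG2, chevB2, chevD4, chevF4, chevE6, chevE7, chevE8] := by simp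

set_option synthInstance.maxHeartbeats 400000 in
set_option synthInstance.maxSize 4096 in
set_option maxRecDepth 100000 in
theorem e6_rigid_aux : ∀ a3 a1 : Fin 6, (a1 ≠ a3 ∧ adjB chevE6 a3 a1 = true) →
    ∀ a2 : Fin 6, (a2 ≠ a3 ∧ a2 ≠ a1 ∧ adjB chevE6 a3 a2 = true) →
    ∀ a4 : Fin 6, (a4 ≠ a3 ∧ a4 ≠ a1 ∧ a4 ≠ a2 ∧ adjB chevE6 a3 a4 = true) →
    ∀ a0 : Fin 6, (a0 ≠ a2 ∧ a0 ≠ a3 ∧ adjB chevE6 a2 a0 = true) →
    ∀ a5 : Fin 6, (a5 ≠ a4 ∧ a5 ≠ a3 ∧ adjB chevE6 a4 a5 = true) →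
    ((a0.val = 0 ∧ a1.val = 1 ∧ a2.val = 2 ∧ a3.val = 3 ∧ a4.val = 4 ∧ a5.val = 5) ∨
      (a0.val = 5 ∧ a1.val = 1 ∧ a2.val = 4 ∧ a3.val = 3 ∧ a4.val = 2 ∧ a5.val = 0)) := by
  decide +kernel

theorem rho_lt : ∀ i : Fin chevE6.rank, gaE6.np.getD i.val 0 < chevE6.rank := by decide

/-- the node permutation of the graph automorphism of `E₆` -/
def rhoE6 (i : Fin chevE6.rank) : Fin chevE6.rank := ⟨gaE6.np.getD i.val 0, rho_lt i⟩

theorem rho_rho : ∀ i : Fin chevE6.rank, rhoE6 (rhoE6 i) = i := by decide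

theorem rho_ne : rhoE6 ⟨0, by decide⟩ ≠ ⟨0, by decide⟩ := by decide

/-- the symmetries of the Dynkin diagram of type E6 -/
theorem e6_rigid (π : Fin chevE6.rank → Fin chevE6.rank) (hinj : Function.Injective π)
    (hadj : ∀ i j : Fin chevE6.rank, i ≠ j → chevE6.cartan i.val (chevE6.simple j.val) ≠ 0 →
      chevE6.cartan (π i).val (chevE6.simple (π j).val) ≠ 0) :
    (∀ i, π i = i) ∨ (∀ i, π i = rhoE6 i) := by
  have hne : ∀ i j : Fin chevE6.rank, i ≠ j → π i ≠ π j := fun i j h e => h (hinj e)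
  have A : ∀ i j : Fin chevE6.rank, i ≠ j → chevE6.cartan i.val (chevE6.simple j.val) ≠ 0 →
      adjB chevE6 (π i).val (π j).val = true := fun i j h1 h2 => decide_eq_true (hadj i j h1 h2)
  have key := e6_rigid_aux (π ⟨3, by decide⟩) (π ⟨1, by decide⟩)
    ⟨hne _ _ (by decide), A ⟨3, by decide⟩ ⟨1, by decide⟩ (by decide) (by decide +kernel)⟩
    (π ⟨2, by decide⟩)
    ⟨hne _ _ (by decide), hne _ _ (by decide),
      A ⟨3, by decide⟩ ⟨2, by decide⟩ (by decide) (by decide +kernel)⟩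
    (π ⟨4, by decide⟩)
    ⟨hne _ _ (by decide), hne _ _ (by decide), hne _ _ (by decide),
      A ⟨3, by decide⟩ ⟨4, by decide⟩ (by decide) (by decide +kernel)⟩
    (π ⟨0, by decide⟩)
    ⟨hne _ _ (by decide), hne _ _ (by decide),
      A ⟨2, by decide⟩ ⟨0, by decide⟩ (by decide) (by decide +kernel)⟩
    (π ⟨5, by decide⟩)
    ⟨hne _ _ (by decide), hne _ _ (by decide),
      A ⟨4, by decide⟩ ⟨5, by decide⟩ (by decide) (by decide +kernel)⟩
  rcases key with ⟨h0, h1, h2, h3, h4, h5⟩ | ⟨h0, h1, h2, h3, h4, h5⟩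
  · left
    intro i
    obtain ⟨k, hk⟩ := i
    have hk' : k < 6 := hk
    interval_cases k
    · exact Fin.ext h0
    · exact Fin.ext h1
    · exact Fin.ext h2
    · exact Fin.ext h3
    · exact Fin.ext h4
    · exact Fin.ext h5
  · right
    intro i
    obtain ⟨k, hk⟩ := i
    have hk' : k < 6 := hk
    interval_cases k
    · exact Fin.ext h0
    · exact Fin.ext h1
    · exact Fin.ext h2
    · exact Fin.ext h3
    · exact Fin.ext h4
    · exact Fin.ext h5

/-- the graph automorphism of `E₆(q)` -/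
def gE6 : MulAut ↥(chevE6.group F) := gaE6.aut chevE6 gaE6_check

theorem gE6_simple (i : Fin chevE6.rank) (t : F) :
    gE6 (xG chevE6 hE6 (chevE6.simple i.val) t) =
      xG chevE6 hE6 (chevE6.simple (rhoE6 i).val) t :=
  Subtype.ext (Units.ext ((gaE6.aut_simple chevE6 gaE6_check
    (xG chevE6 hE6 (chevE6.simple i.val) t) i.val t i.isLt).1 (coe_xU chevE6 hE6 _ _)))

theorem gE6_neg_simple (i : Fin chevE6.rank) (t : F) :
    gE6 (xG chevE6 hE6 (chevE6.neg (chevE6.simple i.val)) t) =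
      xG chevE6 hE6 (chevE6.neg (chevE6.simple (rhoE6 i).val)) t :=
  Subtype.ext (Units.ext ((gaE6.aut_simple chevE6 gaE6_check
    (xG chevE6 hE6 (chevE6.neg (chevE6.simple i.val)) t) i.val t i.isLt).2
      (coe_xU chevE6 hE6 _ _)))

/-- the root permutation of the graph automorphism preserves signs -/
def gaSignChk : Bool :=
  (List.range chevE6.nroots).all fun r =>
    (!decide (chevE6.IsPosRoot r) || decide (chevE6.IsPosRoot (gaE6.rp.getD r 0))) &&
    (!decide (chevE6.IsNegRoot r) || decide (chevE6.IsNegRoot (gaE6.rp.getD r 0)))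

set_option maxRecDepth 100000 in
theorem gaSignChk_eq : gaSignChk = true := by decide +kernel

theorem ga_pos (r : ℕ) (hr : chevE6.IsPosRoot r) : chevE6.IsPosRoot (gaE6.rp.getD r 0) := by
  have h := gaSignChk_eq
  unfold gaSignChk at h
  simp only [List.all_eq_true, List.mem_range, Bool.and_eq_true, Bool.or_eq_true,
    Bool.not_eq_true', decide_eq_false_iff_not, decide_eq_true_eq] at h
  rcases (h r hr.1).1 with h1 | h1
  · exact absurd hr h1
  · exact h1

theorem ga_neg (r : ℕ) (hr : chevE6.IsNegRoot r) : chevE6.IsNegRoot (gaE6.rp.getD r 0) := by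
  have h := gaSignChk_eq
  unfold gaSignChk at h
  simp only [List.all_eq_true, List.mem_range, Bool.and_eq_true, Bool.or_eq_true,
    Bool.not_eq_true', decide_eq_false_iff_not, decide_eq_true_eq] at h
  rcases (h r hr.1).2 with h1 | h1
  · exact absurd hr h1
  · exact h1

theorem gE6_root (r : ℕ) (hr : r < chevE6.nroots) (t : F) :
    gE6 (xG chevE6 hE6 r t) = xG chevE6 hE6 (gaE6.rp.getD r 0) ((gaE6.sg.getD r 1 : ℤ) * t) := by
  apply Subtype.ext
  apply Units.ext
  show ((gaE6.aut chevE6 gaE6_check (xG chevE6 hE6 r t) : GL chevE6.Idx F) :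
    Matrix chevE6.Idx chevE6.Idx F) = _
  rw [GraphAut.coe_aut, coe_xG, coe_xU, gaE6.conj_x chevE6 gaE6_check r hr t, coe_xG, coe_xU]

theorem gE6_stabUV : StabUV chevE6 (gE6 (F := F)) := by
  constructor
  · refine mapsSub_closure chevE6 gE6 {g : GL chevE6.Idx F | ∃ (r : ℕ) (t : F),
      chevE6.IsPosRoot r ∧ (g : Matrix chevE6.Idx chevE6.Idx F) = chevE6.x F r t}
      (posUnipotent_le_group chevE6 hE6) (chevE6.posUnipotent F) ?_
    rintro g ⟨r, t, hr, hx⟩
    have e : (⟨g, posUnipotent_le_group chevE6 hE6 (Subgroup.subset_closure ⟨r, t, hr, hx⟩)⟩ :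
        ↥(chevE6.group F)) = xG chevE6 hE6 r t := Subtype.ext (eq_xU chevE6 hE6 r t g hx)
    rw [e, gE6_root r hr.1]
    exact Subgroup.subset_closure ⟨_, _, ga_pos r hr, coe_xU chevE6 hE6 _ _⟩
  · refine mapsSub_closure chevE6 gE6 {g : GL chevE6.Idx F | ∃ (r : ℕ) (t : F),
      chevE6.IsNegRoot r ∧ (g : Matrix chevE6.Idx chevE6.Idx F) = chevE6.x F r t}
      (negUnipotent_le_group chevE6 hE6) (chevE6.negUnipotent F) ?_
    rintro g ⟨r, t, hr, hx⟩
    have e : (⟨g, negUnipotent_le_group chevE6 hE6 (Subgroup.subset_closure ⟨r, t, hr, hx⟩)⟩ :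
        ↥(chevE6.group F)) = xG chevE6 hE6 r t := Subtype.ext (eq_xU chevE6 hE6 r t g hx)
    rw [e, gE6_root r hr.1]
    exact Subgroup.subset_closure ⟨_, _, ga_neg r hr, coe_xU chevE6 hE6 _ _⟩

theorem gE6_mapsPos (i : Fin chevE6.rank) :
    MapsSub chevE6 (gE6 (F := F)) (chevE6.rootSubgroup F (chevE6.simple i.val))
      (chevE6.rootSubgroup F (chevE6.simple (rhoE6 i).val)) := by
  intro y hy
  obtain ⟨t, ht⟩ := (mem_rootSubgroup_iff chevE6 hE6 _ _).mp hy
  have e : y = xG chevE6 hE6 (chevE6.simple i.val) t := Subtype.ext ht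
  rw [e, gE6_simple]
  exact xG_mem_root chevE6 hE6 _ _

theorem gE6_mapsNeg (i : Fin chevE6.rank) :
    MapsSub chevE6 (gE6 (F := F)) (chevE6.rootSubgroup F (chevE6.neg (chevE6.simple i.val)))
      (chevE6.rootSubgroup F (chevE6.neg (chevE6.simple (rhoE6 i).val))) := by
  intro y hy
  obtain ⟨t, ht⟩ := (mem_rootSubgroup_iff chevE6 hE6 _ _).mp hy
  have e : y = xG chevE6 hE6 (chevE6.neg (chevE6.simple i.val)) t := Subtype.ext ht
  rw [e, gE6_neg_simple]
  exact xG_mem_root chevE6 hE6 _ _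

/-- every automorphism of `E₆(q)` is the product of an inner, a diagonal, a field and possibly
the inverse of the graph automorphism -/
theorem aut_E6 [Fintype F] (p : ℕ) [Fact p.Prime] [CharP F p] (θ : MulAut ↥(chevE6.group F)) :
    ∃ (x : ↥(chevE6.group F)) (d : Fin chevE6.rank → Fˣ) (σ : F ≃+* F) (b : Bool),
      ∀ φ : MulAut ↥(chevE6.group F), FieldRel chevE6 φ σ →
        θ = MulAut.conj x * dAut chevE6 hE6 rcOK_E6 d * φ * (if b = true then gE6⁻¹ else 1) := by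
  obtain ⟨x₁, hx₁⟩ := exists_stabUV chevE6 hE6 p θ
  have hS : StabUV chevE6 (MulAut.conj x₁ * θ) := hx₁
  have hO : SimpOK chevE6 F hE6 := simpOK_of_chk chevE6 hE6 simpleChk_E6
  obtain ⟨π, hinj, hadj, hpos, hneg⟩ := hS.exists_perm hE6 hO
  rcases e6_rigid π hinj hadj with hπ | hπ
  · obtain ⟨d, σ, h2⟩ := hS.eq_diag_field hE6 hO dynOK_E6 rcOK_E6
      (fun i => by have h1 := hpos i; rwa [hπ i] at h1)
      (fun i => by have h1 := hneg i; rwa [hπ i] at h1)
    refine ⟨x₁⁻¹, d, σ, false, fun φ hφ => ?_⟩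
    have h3 := h2 φ hφ
    rw [if_neg (by simp), mul_one, mul_assoc, ← h3, map_inv]
    group
  · have hS2 : StabUV chevE6 (MulAut.conj x₁ * θ * gE6) := hS.mul gE6_stabUV
    obtain ⟨d, σ, h2⟩ := hS2.eq_diag_field hE6 hO dynOK_E6 rcOK_E6
      (fun i => by
        have h1 := hpos (rhoE6 i)
        rw [hπ, rho_rho] at h1
        exact MapsSub.mul h1 (gE6_mapsPos i))
      (fun i => by
        have h1 := hneg (rhoE6 i)
        rw [hπ, rho_rho] at h1
        exact MapsSub.mul h1 (gE6_mapsNeg i))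
    refine ⟨x₁⁻¹, d, σ, true, fun φ hφ => ?_⟩
    have h3 := h2 φ hφ
    rw [if_pos rfl, mul_assoc (MulAut.conj x₁⁻¹), ← h3, map_inv]
    group

end Cfsg.Agent.Lib.Helper36
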