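import Cfsg.Agent.Lib.Helper36.ChevAutE6

set_option autoImplicit false

/-!
# Counting the outer automorphisms of `E₆(q)`
-/

namespace Cfsg.Agent.Lib.Helper36

open Cfsg Cfsg.Lie Cfsg.Agent.Lib.Helper18

universe u

variable {F : Type u} [Field F]

theorem simple_ne_of_ne (D : ChevalleyDatum)
    (hD : D ∈ [chevG2, chevB2, chevD4, chevF4, chevE6, chevE7, chevE8]) (hO : SimpOK D F hD)
    (i k : Fin D.rank) (hne : k ≠ i) (c a : F) (ha : a ≠ 0) :
    xU D hD (D.simple k.val) c ≠ xU D hD (D.simple i.val) a := by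
  intro hc
  have h3 := hO.pos_neg k i hne c 1
  rw [hc] at h3
  exact not_comm_pos_neg D hD i a 1 ha one_ne_zero h3

/-- an inner automorphism stabilising `U` and `V` stabilises the fundamental root subgroups -/
theorem inner_stab_root [Finite F] (D : ChevalleyDatum)
    (hD : D ∈ [chevG2, chevB2, chevD4, chevF4, chevE6, chevE7, chevE8]) (hO : SimpOK D F hD)
    (x : ↥(D.group F)) (hS : StabUV D (MulAut.conj x)) (i k : Fin D.rank)
    (hm : MapsSub D (MulAut.conj x) (D.rootSubgroup F (D.simple i.val))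
      (D.rootSubgroup F (D.simple k.val))) : k = i := by
  have hxH : (x : GL D.Idx F) ∈ D.diagonalSubgroup F :=
    mem_diag_of_stab D hD x.1 x.2
      (fun u hu => hS.1 ⟨u, posUnipotent_le_group D hD hu⟩ hu)
      (fun v hv => hS.2 ⟨v, negUnipotent_le_group D hD hv⟩ hv)
  rw [diagonalSubgroup_eq_range D hD] at hxH
  obtain ⟨c, hc⟩ := hxH
  have hs := simple_lt D hD i.val i.isLt
  obtain ⟨c', hc'⟩ := (mem_rootSubgroup_iff D hD _ _).mp
    (hm _ (xG_mem_root D hD (D.simple i.val) 1))
  have h1 : (x : GL D.Idx F) * xU D hD (D.simple i.val) 1 * (x : GL D.Idx F)⁻¹ =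
      xU D hD (D.simple k.val) c' := hc'
  rw [← hc, torus_conj D hD c _ hs 1] at h1
  by_contra hne
  exact simple_ne_of_ne D hD hO i k hne c' _
    (mul_ne_zero (chiL_ne_zero D _ _ (fun j _ => cx_ne_zero D c j) _) one_ne_zero) h1.symm

theorem fieldRel_mapsRoot {D : ChevalleyDatum}
    (hD : D ∈ [chevG2, chevB2, chevD4, chevF4, chevE6, chevE7, chevE8])
    {φ : MulAut ↥(D.group F)} {σ : F ≃+* F} (h : FieldRel D φ σ) (r : ℕ) (hr : r < D.nroots) :
    MapsSub D φ (D.rootSubgroup F r) (D.rootSubgroup F r) := by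
  intro y hy
  obtain ⟨t, ht⟩ := (mem_rootSubgroup_iff D hD r _).mp hy
  have e : y = xG D hD r t := Subtype.ext ht
  rw [e, fieldRel_xG hD h r hr]
  exact xG_mem_root D hD r _

theorem mulAut_conj_conj {G : Type*} [Group G] (φ : MulAut G) (x : G) :
    φ * MulAut.conj x * φ⁻¹ = MulAut.conj (φ x) := by
  ext y
  simp [MulAut.conj_apply]

theorem card_quot_simpHom [Finite F] (D : ChevalleyDatum)
    (hD : D ∈ [chevG2, chevB2, chevD4, chevF4, chevE6, chevE7, chevE8]) (hR : RcOK D) :
    Nat.card ((Fin D.rank → Fˣ) ⧸ (simpHom (F := F) D).range) =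
      Nat.card (torusHom (F := F) D).ker := by
  have h1 := Subgroup.card_mul_index (simpHom (F := F) D).ker
  rw [Subgroup.index_ker] at h1
  have h2 := Subgroup.card_mul_index (simpHom (F := F) D).range
  have h3 : Nat.card ((Fin D.rank → Fˣ) ⧸ (simpHom (F := F) D).range) =
      (simpHom (F := F) D).range.index := rfl
  rw [h3, ← ker_simpHom D hD hR]
  have hpos : 0 < Nat.card (simpHom (F := F) D).range := Nat.card_pos
  apply Nat.eq_of_mul_eq_mul_left hpos
  rw [h2, mul_comm, h1]

/-- counting the outer automorphisms of `E₆(q)` -/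
theorem card_out_E6 [Fintype F] (p : ℕ) [Fact p.Prime] [CharP F p]
    (Ψ : (F ≃+* F) → MulAut ↥(chevE6.group F)) (hΨ : ∀ σ, FieldRel chevE6 (Ψ σ) σ) :
    Nat.card (Cfsg.Out ↥(chevE6.group F)) =
      2 * Nat.card (torusHom (F := F) chevE6).ker * Nat.card (F ≃+* F) := by
  classical
  have hO : SimpOK chevE6 F hE6 := simpOK_of_chk chevE6 hE6 simpleChk_E6
  have hcard : Nat.card (Cfsg.Out ↥(chevE6.group F)) =
      Nat.card ((((Fin chevE6.rank → Fˣ) ⧸ (simpHom (F := F) chevE6).range) × (F ≃+* F)) ×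
        Bool) := by
    apply Cfsg.Agent.Lib.Helper31.card_out_of_param
      (fun s : (((Fin chevE6.rank → Fˣ) ⧸ (simpHom (F := F) chevE6).range) × (F ≃+* F)) ×
          Bool =>
        dAut chevE6 hE6 rcOK_E6 (Quotient.out s.1.1) * Ψ s.1.2 *
          (if s.2 = true then gE6⁻¹ else 1))
    · intro θ
      obtain ⟨x, d, σ, b, h⟩ := aut_E6 p θ
      have h' := h (Ψ σ) (hΨ σ)
      have hq : (QuotientGroup.mk (Quotient.out (QuotientGroup.mk d :
          (Fin chevE6.rank → Fˣ) ⧸ (simpHom (F := F) chevE6).range)) :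
          (Fin chevE6.rank → Fˣ) ⧸ (simpHom (F := F) chevE6).range) = QuotientGroup.mk d :=
        Quotient.out_eq _
      rw [QuotientGroup.eq] at hq
      obtain ⟨c, hc⟩ := hq
      have hd : d = simpHom chevE6 c * Quotient.out (QuotientGroup.mk d :
          (Fin chevE6.rank → Fˣ) ⧸ (simpHom (F := F) chevE6).range) := by
        rw [hc]
        rw [mul_comm, mul_inv_cancel_left]
      refine ⟨x * ⟨torusHom chevE6 c, torusHom_mem_group chevE6 hE6 c⟩,
        ((QuotientGroup.mk d, σ), b), ?_⟩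
      show θ = MulAut.conj (x * ⟨torusHom chevE6 c, torusHom_mem_group chevE6 hE6 c⟩) *
        (dAut chevE6 hE6 rcOK_E6 (Quotient.out (QuotientGroup.mk d :
          (Fin chevE6.rank → Fˣ) ⧸ (simpHom (F := F) chevE6).range)) * Ψ σ *
          (if b = true then gE6⁻¹ else 1))
      rw [map_mul, ← dAut_simpHom chevE6 hE6 rcOK_E6 c]
      simp only [← mul_assoc]
      rw [mul_assoc (MulAut.conj x) (dAut chevE6 hE6 rcOK_E6 (simpHom chevE6 c)), ← dAut_mul,
        ← hd]
      exact h'
    · rintro ⟨⟨q, σ⟩, b⟩ ⟨⟨q', τ⟩, b'⟩ ⟨x, hx⟩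
      have key : ∀ y : ↥(chevE6.group F),
          MulAut.conj y = (dAut chevE6 hE6 rcOK_E6 (Quotient.out q) * Ψ σ)⁻¹ *
            (dAut chevE6 hE6 rcOK_E6 (Quotient.out q') * Ψ τ) →
          ((q, σ) : ((Fin chevE6.rank → Fˣ) ⧸ (simpHom (F := F) chevE6).range) × (F ≃+* F)) =
            (q', τ) := by
        intro y hy
        obtain ⟨hστ, c, hc⟩ := diag_field_inj chevE6 hE6 rcOK_E6 ⟨0, by decide⟩ _ _ σ τ _ _
          (hΨ σ) (hΨ τ) y hy
        have hqq : q = q' := by
          rw [← Quotient.out_eq q, ← Quotient.out_eq q']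
          apply QuotientGroup.eq.mpr
          exact ⟨c, by rw [hc, inv_mul_cancel_left]⟩
        rw [hqq, hστ]
      have hsl : ∀ i : Fin chevE6.rank, chevE6.simple i.val < chevE6.nroots :=
        fun i => simple_lt chevE6 hE6 i.val i.isLt
      have hA : StabUV chevE6 (dAut chevE6 hE6 rcOK_E6 (Quotient.out q) * Ψ σ) :=
        (dAut_stabUV chevE6 hE6 rcOK_E6 _).mul (fieldRel_stabUV hE6 (hΨ σ))
      have hB : StabUV chevE6 (dAut chevE6 hE6 rcOK_E6 (Quotient.out q') * Ψ τ) :=
        (dAut_stabUV chevE6 hE6 rcOK_E6 _).mul (fieldRel_stabUV hE6 (hΨ τ))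
      have hAr : ∀ i : Fin chevE6.rank,
          MapsSub chevE6 (dAut chevE6 hE6 rcOK_E6 (Quotient.out q) * Ψ σ)
            (chevE6.rootSubgroup F (chevE6.simple i.val))
            (chevE6.rootSubgroup F (chevE6.simple i.val)) :=
        fun i => MapsSub.mul (dAut_mapsRoot chevE6 hE6 rcOK_E6 _ _ (hsl i))
          (fieldRel_mapsRoot hE6 (hΨ σ) _ (hsl i))
      have hBr : ∀ i : Fin chevE6.rank,
          MapsSub chevE6 (dAut chevE6 hE6 rcOK_E6 (Quotient.out q') * Ψ τ)
            (chevE6.rootSubgroup F (chevE6.simple i.val))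
            (chevE6.rootSubgroup F (chevE6.simple i.val)) :=
        fun i => MapsSub.mul (dAut_mapsRoot chevE6 hE6 rcOK_E6 _ _ (hsl i))
          (fieldRel_mapsRoot hE6 (hΨ τ) _ (hsl i))
      have hAi : ∀ i : Fin chevE6.rank,
          MapsSub chevE6 (dAut chevE6 hE6 rcOK_E6 (Quotient.out q) * Ψ σ)⁻¹
            (chevE6.rootSubgroup F (chevE6.simple i.val))
            (chevE6.rootSubgroup F (chevE6.simple i.val)) :=
        fun i => (hAr i).inv (rootSubgroup_le_group chevE6 hE6 _) rfl
      have hγ : MapsSub chevE6 (gE6 (F := F))⁻¹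
          (chevE6.rootSubgroup F (chevE6.simple (⟨0, by decide⟩ : Fin chevE6.rank).val))
          (chevE6.rootSubgroup F
            (chevE6.simple (rhoE6 (⟨0, by decide⟩ : Fin chevE6.rank)).val)) := by
        have h1 := gE6_mapsPos (F := F) (rhoE6 ⟨0, by decide⟩)
        rw [rho_rho] at h1
        exact h1.inv (rootSubgroup_le_group chevE6 hE6 _)
          ((card_rootSubgroup chevE6 hE6 _ (hsl _)).trans
            (card_rootSubgroup chevE6 hE6 _ (hsl _)).symm)
      cases b <;> cases b'
      · have hx' : MulAut.conj x = (dAut chevE6 hE6 rcOK_E6 (Quotient.out q) * Ψ σ *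
            (if false = true then (gE6 (F := F))⁻¹ else 1))⁻¹ *
            (dAut chevE6 hE6 rcOK_E6 (Quotient.out q') * Ψ τ *
              (if false = true then (gE6 (F := F))⁻¹ else 1)) := hx
        rw [if_neg Bool.false_ne_true, mul_one, mul_one] at hx'
        rw [key x hx']
      · exfalso
        have hx' : MulAut.conj x = (dAut chevE6 hE6 rcOK_E6 (Quotient.out q) * Ψ σ *
            (if false = true then (gE6 (F := F))⁻¹ else 1))⁻¹ *
            (dAut chevE6 hE6 rcOK_E6 (Quotient.out q') * Ψ τ *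
              (if true = true then (gE6 (F := F))⁻¹ else 1)) := hx
        rw [if_neg Bool.false_ne_true, if_pos rfl, mul_one, ← mul_assoc] at hx'
        have hS : StabUV chevE6 (MulAut.conj x) := by
          rw [hx']
          exact ((hA.inv hE6).mul hB).mul (gE6_stabUV.inv hE6)
        have hm : MapsSub chevE6 (MulAut.conj x)
            (chevE6.rootSubgroup F (chevE6.simple (⟨0, by decide⟩ : Fin chevE6.rank).val))
            (chevE6.rootSubgroup F
              (chevE6.simple (rhoE6 (⟨0, by decide⟩ : Fin chevE6.rank)).val)) := by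
          rw [hx']
          exact MapsSub.mul (MapsSub.mul (hAi _) (hBr _)) hγ
        exact rho_ne (inner_stab_root chevE6 hE6 hO x hS _ _ hm)
      · exfalso
        have hx' : MulAut.conj x = (dAut chevE6 hE6 rcOK_E6 (Quotient.out q) * Ψ σ *
            (if true = true then (gE6 (F := F))⁻¹ else 1))⁻¹ *
            (dAut chevE6 hE6 rcOK_E6 (Quotient.out q') * Ψ τ *
              (if false = true then (gE6 (F := F))⁻¹ else 1)) := hx
        rw [if_neg Bool.false_ne_true, if_pos rfl, mul_one, mul_inv_rev, inv_inv] at hx'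
        have hS : StabUV chevE6 (MulAut.conj x) := by
          rw [hx']
          exact (gE6_stabUV.mul (hA.inv hE6)).mul hB
        have hm : MapsSub chevE6 (MulAut.conj x)
            (chevE6.rootSubgroup F (chevE6.simple (⟨0, by decide⟩ : Fin chevE6.rank).val))
            (chevE6.rootSubgroup F
              (chevE6.simple (rhoE6 (⟨0, by decide⟩ : Fin chevE6.rank)).val)) := by
          rw [hx']
          exact MapsSub.mul (MapsSub.mul (gE6_mapsPos _) (hAi _)) (hBr _)
        exact rho_ne (inner_stab_root chevE6 hE6 hO x hS _ _ hm)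
      · have hx' : MulAut.conj x = (dAut chevE6 hE6 rcOK_E6 (Quotient.out q) * Ψ σ *
            (if true = true then (gE6 (F := F))⁻¹ else 1))⁻¹ *
            (dAut chevE6 hE6 rcOK_E6 (Quotient.out q') * Ψ τ *
              (if true = true then (gE6 (F := F))⁻¹ else 1)) := hx
        rw [if_pos rfl] at hx'
        have hx2 : MulAut.conj ((gE6 (F := F))⁻¹ x) =
            (dAut chevE6 hE6 rcOK_E6 (Quotient.out q) * Ψ σ)⁻¹ *
              (dAut chevE6 hE6 rcOK_E6 (Quotient.out q') * Ψ τ) := by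
          rw [← mulAut_conj_conj, hx']
          group
        rw [key _ hx2]
  rw [hcard, Nat.card_prod, Nat.card_prod, card_quot_simpHom chevE6 hE6 rcOK_E6]
  have hB : Nat.card Bool = 2 := by rw [Nat.card_eq_fintype_card, Fintype.card_bool]
  rw [hB]
  ring

end Cfsg.Agent.Lib.Helper36
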