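import Cfsg.Agent.Lib.Helper36.ChevAutH
import Cfsg.Agent.Lib.Helper36.ChevAutE8

set_option autoImplicit false

/-!
# Automorphisms of `E₇(q)`

Every automorphism of `E₇(q)` is the product of an inner, a diagonal and a field automorphism.
-/

namespace Cfsg.Agent.Lib.Helper36

open Cfsg Cfsg.Lie Cfsg.Agent.Lib.Helper18

universe u

variable {F : Type u} [Field F]

theorem hE7 : chevE7 ∈ [chevG2, chevB2, chevD4, chevF4, chevE6, chevE7, chevE8] := by simp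

set_option synthInstance.maxHeartbeats 400000 in
set_option synthInstance.maxSize 4096 in
set_option maxRecDepth 100000 in
theorem e7_rigid_aux : ∀ a3 a1 : Fin 7, (a1 ≠ a3 ∧ adjB chevE7 a3 a1 = true) →
    ∀ a2 : Fin 7, (a2 ≠ a3 ∧ a2 ≠ a1 ∧ adjB chevE7 a3 a2 = true) →
    ∀ a4 : Fin 7, (a4 ≠ a3 ∧ a4 ≠ a1 ∧ a4 ≠ a2 ∧ adjB chevE7 a3 a4 = true) →
    ∀ a0 : Fin 7, (a0 ≠ a2 ∧ a0 ≠ a3 ∧ adjB chevE7 a2 a0 = true) →
    ∀ a5 : Fin 7, (a5 ≠ a4 ∧ a5 ≠ a3 ∧ adjB chevE7 a4 a5 = true) →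
    ∀ a6 : Fin 7, (a6 ≠ a5 ∧ a6 ≠ a4 ∧ adjB chevE7 a5 a6 = true) →
    (a0.val = 0 ∧ a1.val = 1 ∧ a2.val = 2 ∧ a3.val = 3 ∧ a4.val = 4 ∧ a5.val = 5 ∧
      a6.val = 6) := by
  decide +kernel

/-- the Dynkin diagram of type E7 has no symmetry -/
theorem e7_rigid (π : Fin chevE7.rank → Fin chevE7.rank) (hinj : Function.Injective π)
    (hadj : ∀ i j : Fin chevE7.rank, i ≠ j → chevE7.cartan i.val (chevE7.simple j.val) ≠ 0 →
      chevE7.cartan (π i).val (chevE7.simple (π j).val) ≠ 0) : ∀ i, π i = i := by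
  have hne : ∀ i j : Fin chevE7.rank, i ≠ j → π i ≠ π j := fun i j h e => h (hinj e)
  have A : ∀ i j : Fin chevE7.rank, i ≠ j → chevE7.cartan i.val (chevE7.simple j.val) ≠ 0 →
      adjB chevE7 (π i).val (π j).val = true := fun i j h1 h2 => decide_eq_true (hadj i j h1 h2)
  have key := e7_rigid_aux (π ⟨3, by decide⟩) (π ⟨1, by decide⟩)
    ⟨hne _ _ (by decide), A ⟨3, by decide⟩ ⟨1, by decide⟩ (by decide) (by decide +kernel)⟩
    (π ⟨2, by decide⟩)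
    ⟨hne _ _ (by decide), hne _ _ (by decide),
      A ⟨3, by decide⟩ ⟨2, by decide⟩ (by decide) (by decide +kernel)⟩
    (π ⟨4, by decide⟩)
    ⟨hne _ _ (by decide), hne _ _ (by decide), hne _ _ (by decide),
      A ⟨3, by decide⟩ ⟨4, by decide⟩ (by decide) (by decide +kernel)⟩
    (π ⟨0, by decide⟩)
    ⟨hne _ _ (by decide), hne _ _ (by decide),
      A ⟨2, by decide⟩ ⟨0, by decide⟩ (by decide) (by decide +kernel)⟩
    (π ⟨5, by decide⟩)
    ⟨hne _ _ (by decide), hne _ _ (by decide),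
      A ⟨4, by decide⟩ ⟨5, by decide⟩ (by decide) (by decide +kernel)⟩
    (π ⟨6, by decide⟩)
    ⟨hne _ _ (by decide), hne _ _ (by decide),
      A ⟨5, by decide⟩ ⟨6, by decide⟩ (by decide) (by decide +kernel)⟩
  obtain ⟨h0, h1, h2, h3, h4, h5, h6⟩ := key
  intro i
  obtain ⟨k, hk⟩ := i
  have hk' : k < 7 := hk
  interval_cases k
  · exact Fin.ext h0
  · exact Fin.ext h1
  · exact Fin.ext h2
  · exact Fin.ext h3
  · exact Fin.ext h4
  · exact Fin.ext h5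
  · exact Fin.ext h6

/-- every automorphism of `E₇(q)` is the product of an inner, a diagonal and a field
automorphism -/
theorem aut_E7 [Fintype F] (p : ℕ) [Fact p.Prime] [CharP F p] (θ : MulAut ↥(chevE7.group F)) :
    ∃ (x : ↥(chevE7.group F)) (d : Fin chevE7.rank → Fˣ) (σ : F ≃+* F),
      ∀ φ : MulAut ↥(chevE7.group F), FieldRel chevE7 φ σ →
        θ = MulAut.conj x * dAut chevE7 hE7 rcOK_E7 d * φ := by
  obtain ⟨x₁, hx₁⟩ := exists_stabUV chevE7 hE7 p θ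
  have hS : StabUV chevE7 (MulAut.conj x₁ * θ) := hx₁
  have hO : SimpOK chevE7 F hE7 := simpOK_of_chk chevE7 hE7 simpleChk_E7
  obtain ⟨π, hinj, hadj, hpos, hneg⟩ := hS.exists_perm hE7 hO
  have hπ := e7_rigid π hinj hadj
  obtain ⟨d, σ, h2⟩ := hS.eq_diag_field hE7 hO dynOK_E7 rcOK_E7
    (fun i => by have h1 := hpos i; rwa [hπ i] at h1)
    (fun i => by have h1 := hneg i; rwa [hπ i] at h1)
  refine ⟨x₁⁻¹, d, σ, fun φ hφ => ?_⟩
  have h3 := h2 φ hφ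
  rw [mul_assoc, ← h3, map_inv]
  group

end Cfsg.Agent.Lib.Helper36
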