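import Cfsg.Agent.Lib.Helper36.ChevGrF4
import Cfsg.Agent.Lib.Helper36.ChevAutD

set_option autoImplicit false

/-!
# The exceptional graph automorphism of `F₄` in characteristic 2

The group `F₄(K)` is simple, hence acts faithfully on the invariant subspace, which gives the
endomorphism `x_r(t) ↦ x_{ρ r}(t ^ λ r)`; it is bijective when `K` is perfect.
-/

namespace Cfsg.Agent.Lib.Helper36

open Cfsg Cfsg.Lie Cfsg.Agent.Lib.Helper18

section

variable {K : Type*} [Field K] [CharP K 2]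

theorem f4_x_entry : xTerms chevF4 ⟨33, by decide⟩ (Sum.inl ⟨0, by decide⟩)
    (Sum.inr ⟨14, by decide⟩) = [(1, 1)] := by decide +kernel

/-- the Chevalley group of type `F₄` acts faithfully on the invariant subspace -/
theorem f4act_ker : (f4X.act (K := K) hF4 f4X_ok).ker = ⊥ := by
  obtain ⟨hsimple, -⟩ := Cfsg.Agent.S1054.result (F := K) chevF4 (by simp)
  rcases (f4X.act (K := K) hF4 f4X_ok).normal_ker.eq_bot_or_eq_top with h | h
  · exact h
  · exfalso
    have hx : (⟨xU chevF4 hF4 33 (1 : K), xU_mem_group chevF4 hF4 33 1⟩ : ↥(chevF4.group K)) ∈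
        (f4X.act (K := K) hF4 f4X_ok).ker := by
      rw [h]
      trivial
    rw [MonoidHom.mem_ker] at hx
    have h3 := congrFun (congrFun hx ⟨Sum.inl ⟨0, by decide⟩, rfl⟩) ⟨Sum.inr ⟨14, by decide⟩, rfl⟩
    rw [GrData.act_apply] at h3
    have h4 : chevF4.x K 33 (1 : K) (Sum.inl ⟨0, by decide⟩) (Sum.inr ⟨14, by decide⟩) = 0 := by
      have h5 : (1 : Matrix {i : chevF4.Idx // f4X.I i = true}
          {i : chevF4.Idx // f4X.I i = true} K) ⟨Sum.inl ⟨0, by decide⟩, rfl⟩
          ⟨Sum.inr ⟨14, by decide⟩, rfl⟩ = 0 := by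
        apply Matrix.one_apply_ne
        intro e
        have e' := congrArg Subtype.val e
        simp at e'
      rw [h5] at h3
      exact h3
    unfold ChevalleyDatum.x at h4
    rw [dif_pos (by decide : 33 < chevF4.nroots), xMat_entry, f4_x_entry] at h4
    simp [evalTerms] at h4

/-- the exceptional graph endomorphism of `F₄(K)` in characteristic 2 -/
noncomputable def f4φ : ↥(chevF4.group K) →* ↥(chevF4.group K) :=
  f4X.φ hF4 f4X_ok f4act_ker

theorem f4φ_x (r : ℕ) (hr : r < 48) (t : K) :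
    f4φ (xG chevF4 hF4 r t) = xG chevF4 hF4 (f4ρ r) (t ^ f4lam r) :=
  f4X.φ_x hF4 f4X_ok f4act_ker r hr t

theorem f4φ_injective : Function.Injective (f4φ (K := K)) := by
  obtain ⟨hsimple, -⟩ := Cfsg.Agent.S1054.result (F := K) chevF4 (by simp)
  rw [← MonoidHom.ker_eq_bot_iff]
  rcases (f4φ (K := K)).normal_ker.eq_bot_or_eq_top with h | h
  · exact h
  · exfalso
    have hx : xG chevF4 hF4 25 (1 : K) ∈ (f4φ (K := K)).ker := by
      rw [h]
      trivial
    rw [MonoidHom.mem_ker, f4φ_x 25 (by decide)] at hx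
    have h1 : xU chevF4 hF4 (f4ρ 25) ((1 : K) ^ f4lam 25) = 1 := congrArg Subtype.val hx
    have h2 := (xU_eq_one_iff chevF4 hF4 _ (by decide) _).mp h1
    rw [one_pow] at h2
    exact one_ne_zero h2

/-- the swap of the nodes of the Dynkin diagram of type `F₄` -/
def swF4 (i : Fin chevF4.rank) : Fin chevF4.rank :=
  ⟨3 - i.val, Nat.lt_of_le_of_lt (Nat.sub_le 3 i.val) (by decide)⟩

theorem sw4_sw4 : ∀ i : Fin chevF4.rank, swF4 (swF4 i) = i := by decide

theorem sw4_ne : swF4 ⟨0, by decide⟩ ≠ ⟨0, by decide⟩ := by decide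

theorem f4ρ_simple : ∀ i : Fin chevF4.rank,
    f4ρ (chevF4.simple i.val) = chevF4.simple (swF4 i).val ∧
    f4ρ (chevF4.neg (chevF4.simple i.val)) = chevF4.neg (chevF4.simple (swF4 i).val) := by
  decide

theorem f4lam_simple : ∀ i : Fin chevF4.rank,
    f4lam (chevF4.simple i.val) = (if i.val < 2 then 2 else 1) ∧
    f4lam (chevF4.neg (chevF4.simple i.val)) = (if i.val < 2 then 2 else 1) := by
  decide

theorem f4φ_simple (i : Fin chevF4.rank) (t : K) :
    f4φ (xG chevF4 hF4 (chevF4.simple i.val) t) =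
      xG chevF4 hF4 (chevF4.simple (swF4 i).val) (t ^ (if i.val < 2 then 2 else 1)) := by
  rw [f4φ_x _ (simple_lt chevF4 hF4 i.val i.isLt), (f4ρ_simple i).1, (f4lam_simple i).1]

theorem f4φ_neg_simple (i : Fin chevF4.rank) (t : K) :
    f4φ (xG chevF4 hF4 (chevF4.neg (chevF4.simple i.val)) t) =
      xG chevF4 hF4 (chevF4.neg (chevF4.simple (swF4 i).val))
        (t ^ (if i.val < 2 then 2 else 1)) := by
  rw [f4φ_x _ (neg_lt chevF4 hF4 _ (simple_lt chevF4 hF4 i.val i.isLt)).1, (f4ρ_simple i).2,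
    (f4lam_simple i).2]

theorem f4φ_surjective (hperf : ∀ x : K, ∃ y : K, y ^ 2 = x) :
    Function.Surjective (f4φ (K := K)) := by
  have hroot : ∀ (j : Fin chevF4.rank) (t : K), ∃ s : K, s ^ (if j.val < 2 then 2 else 1) = t := by
    intro j t
    by_cases hj : j.val < 2
    · rw [if_pos hj]
      exact hperf t
    · rw [if_neg hj]
      exact ⟨t, pow_one t⟩
  have hle : chevF4.group K ≤ (f4φ (K := K)).range.map (chevF4.group K).subtype := by
    apply group_le_of_simple chevF4 hF4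
    intro i hi t g hg
    obtain ⟨s, hs⟩ := hroot (swF4 ⟨i, hi⟩) t
    rcases hg with hg | hg
    · rw [eq_xU chevF4 hF4 _ t g hg]
      refine ⟨xG chevF4 hF4 (chevF4.simple i) t,
        ⟨xG chevF4 hF4 (chevF4.simple (swF4 ⟨i, hi⟩).val) s, ?_⟩, rfl⟩
      rw [f4φ_simple, sw4_sw4, hs]
    · rw [eq_xU chevF4 hF4 _ t g hg]
      refine ⟨xG chevF4 hF4 (chevF4.neg (chevF4.simple i)) t,
        ⟨xG chevF4 hF4 (chevF4.neg (chevF4.simple (swF4 ⟨i, hi⟩).val)) s, ?_⟩, rfl⟩
      rw [f4φ_neg_simple, sw4_sw4, hs]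
  intro y
  obtain ⟨z, ⟨w, hw⟩, hz⟩ := hle y.2
  refine ⟨w, ?_⟩
  rw [hw]
  exact Subtype.ext hz

/-- the exceptional graph automorphism of `F₄(K)`, `K` perfect of characteristic 2 -/
noncomputable def f4Aut (hperf : ∀ x : K, ∃ y : K, y ^ 2 = x) :
    ↥(chevF4.group K) ≃* ↥(chevF4.group K) :=
  MulEquiv.ofBijective (f4φ (K := K)) ⟨f4φ_injective, f4φ_surjective hperf⟩

theorem f4Aut_apply (hperf : ∀ x : K, ∃ y : K, y ^ 2 = x) (g : ↥(chevF4.group K)) :
    f4Aut hperf g = f4φ g := rfl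

/-- finite fields of characteristic 2 are perfect -/
theorem perfect_two_of_finite [Finite K] : ∀ x : K, ∃ y : K, y ^ 2 = x := by
  haveI : ExpChar K 2 := ExpChar.prime Nat.prime_two
  have hinj : Function.Injective (frobenius K 2) := frobenius_inj K 2
  have hsurj := Finite.injective_iff_surjective.mp hinj
  intro x
  obtain ⟨y, hy⟩ := hsurj x
  exact ⟨y, by rw [← hy, frobenius_def]⟩

end

end Cfsg.Agent.Lib.Helper36
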