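import Cfsg.Agent.Lib.Helper36.ChevAutL
import Cfsg.Agent.Lib.Helper36.ChevGrF4b
import Cfsg.Agent.Lib.Helper31.OutCount

set_option autoImplicit false

/-!
# Automorphisms of `F₄(q)`

Every automorphism of `F₄(q)` is the product of an inner and a field automorphism and, in
characteristic 2, possibly the exceptional graph automorphism.
-/

namespace Cfsg.Agent.Lib.Helper36

open Cfsg Cfsg.Lie Cfsg.Agent.Lib.Helper18

universe u

variable {F : Type u} [Field F]

/-- scaling of the fundamental root subgroups by torus elements, for an injective torus -/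
theorem scale_of_torus_inj [Finite F] (D : ChevalleyDatum)
    (hD : D ∈ [chevG2, chevB2, chevD4, chevF4, chevE6, chevE7, chevE8])
    (hT : Function.Injective (torusHom (F := F) D)) (i : Fin D.rank) (u : F) (hu : u ≠ 0) :
    ∃ h ∈ D.diagonalSubgroup F, ∀ t : F,
      h * xU D hD (D.simple i.val) t * h⁻¹ = xU D hD (D.simple i.val) (u * t) := by
  obtain ⟨c, hc⟩ := exists_torus_of_injective D hD hT (fun _ => Units.mk0 u hu)
  refine ⟨torusHom D c, ?_, fun t => ?_⟩
  · rw [diagonalSubgroup_eq_range D hD]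
    exact ⟨c, rfl⟩
  · rw [torus_conj D hD c _ (simple_lt D hD i.val i.isLt) t, hc i]
    rfl

/-- over the field with two elements an automorphism stabilising the fundamental root subgroups
and their negatives is the field automorphism -/
theorem eq_field_two {D : ChevalleyDatum}
    (hD : D ∈ [chevG2, chevB2, chevD4, chevF4, chevE6, chevE7, chevE8])
    (h2 : ∀ t : F, t = 0 ∨ t = 1) {θ : MulAut ↥(D.group F)}
    (hpos : ∀ i : Fin D.rank, MapsSub D θ (D.rootSubgroup F (D.simple i.val))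
      (D.rootSubgroup F (D.simple i.val)))
    (hneg : ∀ i : Fin D.rank, MapsSub D θ (D.rootSubgroup F (D.neg (D.simple i.val)))
      (D.rootSubgroup F (D.neg (D.simple i.val))))
    {σ : F ≃+* F} {φ : MulAut ↥(D.group F)} (hφ : FieldRel D φ σ) : θ = φ := by
  apply aut_ext_simple D hD
  intro i t
  have hsl := simple_lt D hD i.val i.isLt
  have hnl := (neg_lt D hD _ hsl).1
  have key : ∀ (r : ℕ), r < D.nroots →
      MapsSub D θ (D.rootSubgroup F r) (D.rootSubgroup F r) →
      θ (xG D hD r t) = φ (xG D hD r t) := by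
    intro r hr hm
    rw [fieldRel_xG hD hφ r hr]
    rcases h2 t with ht | ht
    · subst ht
      have h0 : xG D hD r (0 : F) = 1 := Subtype.ext (Cfsg.Agent.Lib.Helper18.xU_zero D hD r)
      rw [map_zero, h0, map_one]
    · subst ht
      obtain ⟨a, ha⟩ := hm.exists_param hD (1 : F)
      have ha0 := param_ne_zero hD hr one_ne_zero ha
      rcases h2 a with h | h
      · exact absurd h ha0
      · rw [ha, h, map_one]
  exact ⟨key _ hsl (hpos i), key _ hnl (hneg i)⟩

/-- with an injective torus, an automorphism stabilising `U`, `V` and the fundamental root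
subgroups is the product of an inner and a field automorphism (any finite field) -/
theorem StabUV.eq_conj_field'' [Fintype F] {D : ChevalleyDatum}
    (hD : D ∈ [chevG2, chevB2, chevD4, chevF4, chevE6, chevE7, chevE8])
    (hY : DynOK D)
    (hlink : ∀ i j : Fin D.rank, i ≠ j → D.cartan i.val (D.simple j.val) ≠ 0 →
      LinkOK D i.val j.val ∨ LinkOK D j.val i.val)
    (hT : Function.Injective (torusHom (F := F) D))
    {θ : MulAut ↥(D.group F)} (h : StabUV D θ)
    (hpos : ∀ i : Fin D.rank, MapsSub D θ (D.rootSubgroup F (D.simple i.val))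
      (D.rootSubgroup F (D.simple i.val)))
    (hneg : ∀ i : Fin D.rank, MapsSub D θ (D.rootSubgroup F (D.neg (D.simple i.val)))
      (D.rootSubgroup F (D.neg (D.simple i.val)))) :
    ∃ (x : ↥(D.group F)) (σ : F ≃+* F), ∀ φ : MulAut ↥(D.group F), FieldRel D φ σ →
      θ = MulAut.conj x * φ := by
  by_cases hq : ∃ u₀ : F, u₀ ≠ 0 ∧ u₀ ≠ 1
  · exact h.eq_conj_field' hD hY hlink hq hT hpos hneg
  · have h2 : ∀ t : F, t = 0 ∨ t = 1 := by
      intro t
      by_contra hc
      push_neg at hc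
      exact hq ⟨t, hc.1, hc.2⟩
    refine ⟨1, RingEquiv.refl F, fun φ hφ => ?_⟩
    rw [map_one, one_mul]
    exact eq_field_two hD h2 hpos hneg hφ

theorem dynOK_F4 : DynOK chevF4 :=
  dynOK_of_chk chevF4 0 [(1, 0), (2, 1), (3, 2)] (by decide) (by decide) (by decide)

theorem posNegOK_F4 : PosNegOK chevF4 F hF4 := posNegOK_of_chk chevF4 hF4 (by decide)

theorem nonAdjOK_F4 : NonAdjOK chevF4 F hF4 := nonAdjOK_of_chk chevF4 hF4 (by decide)

theorem link_F4 (i j : Fin chevF4.rank) (hij : i ≠ j)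
    (hc : chevF4.cartan i.val (chevF4.simple j.val) ≠ 0) :
    LinkOK chevF4 i.val j.val ∨ LinkOK chevF4 j.val i.val := by
  have h01 : LinkOK chevF4 0 1 := by decide
  have h12 : LinkOK chevF4 1 2 := by decide
  have h23 : LinkOK chevF4 2 3 := by decide
  have hnon : ∀ a < 4, ∀ b < 4, chevF4.cartan a (chevF4.simple b) ≠ 0 → a ≠ b →
      (a + 1 = b ∨ b + 1 = a) := by decide
  obtain ⟨i, hi⟩ := i
  obtain ⟨j, hj⟩ := j
  have hi' : i < 4 := hi
  have hj' : j < 4 := hj
  have hadj := hnon i hi' j hj' hc (fun e => hij (Fin.ext e))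
  interval_cases i <;> interval_cases j <;>
    first
    | exact absurd rfl hij
    | exact Or.inl h01
    | exact Or.inl h12
    | exact Or.inl h23
    | exact Or.inr h01
    | exact Or.inr h12
    | exact Or.inr h23
    | omega

theorem torus_inj_F4 [Finite F] : Function.Injective (torusHom (F := F) chevF4) :=
  torusHom_injective_of_cert _ hF4 _ kerCertF4_check rfl

/-- non-adjacency in the Dynkin diagram -/
def nadjB (D : ChevalleyDatum) (a b : ℕ) : Bool :=
  decide (D.reflectRoot a (D.simple b) = D.simple b)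

theorem f4_rigid_aux : ∀ a0 a1 a2 a3 : Fin 4, a0 ≠ a1 → a0 ≠ a2 → a0 ≠ a3 → a1 ≠ a2 →
    a1 ≠ a3 → a2 ≠ a3 → nadjB chevF4 a0 a2 = true → nadjB chevF4 a0 a3 = true →
    nadjB chevF4 a1 a3 = true →
    ((a0.val = 0 ∧ a1.val = 1 ∧ a2.val = 2 ∧ a3.val = 3) ∨
      (a0.val = 3 ∧ a1.val = 2 ∧ a2.val = 1 ∧ a3.val = 0)) := by
  decide

/-- the symmetries of the Dynkin diagram of type `F₄` (as a graph) -/
theorem perm_F4 (π : Fin chevF4.rank → Fin chevF4.rank) (hinj : Function.Injective π)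
    (hna : ∀ i j : Fin chevF4.rank, i ≠ j →
      chevF4.reflectRoot i.val (chevF4.simple j.val) = chevF4.simple j.val →
      chevF4.reflectRoot (π i).val (chevF4.simple (π j).val) = chevF4.simple (π j).val) :
    (∀ i, π i = i) ∨ (∀ i, π i = swF4 i) := by
  have hne : ∀ i j : Fin chevF4.rank, i ≠ j → π i ≠ π j := fun i j h e => h (hinj e)
  have A : ∀ i j : Fin chevF4.rank, i ≠ j →
      chevF4.reflectRoot i.val (chevF4.simple j.val) = chevF4.simple j.val →
      nadjB chevF4 (π i).val (π j).val = true := fun i j h1 h2 => decide_eq_true (hna i j h1 h2)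
  have key := f4_rigid_aux (π ⟨0, by decide⟩) (π ⟨1, by decide⟩) (π ⟨2, by decide⟩)
    (π ⟨3, by decide⟩)
    (hne _ _ (by decide)) (hne _ _ (by decide)) (hne _ _ (by decide)) (hne _ _ (by decide))
    (hne _ _ (by decide)) (hne _ _ (by decide))
    (A ⟨0, by decide⟩ ⟨2, by decide⟩ (by decide) (by decide))
    (A ⟨0, by decide⟩ ⟨3, by decide⟩ (by decide) (by decide))
    (A ⟨1, by decide⟩ ⟨3, by decide⟩ (by decide) (by decide))
  rcases key with ⟨h0, h1, h2, h3⟩ | ⟨h0, h1, h2, h3⟩
  · left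
    intro i
    obtain ⟨k, hk⟩ := i
    have hk' : k < 4 := hk
    interval_cases k
    · exact Fin.ext h0
    · exact Fin.ext h1
    · exact Fin.ext h2
    · exact Fin.ext h3
  · right
    intro i
    obtain ⟨k, hk⟩ := i
    have hk' : k < 4 := hk
    interval_cases k
    · exact Fin.ext h0
    · exact Fin.ext h1
    · exact Fin.ext h2
    · exact Fin.ext h3

/-- in odd characteristic no automorphism stabilising `U` and `V` reverses the Dynkin diagram -/
theorem f4_no_swap [Fintype F] (h2 : (2 : F) ≠ 0) (hq : ∃ u₀ : F, u₀ ≠ 0 ∧ u₀ ≠ 1)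
    {θ : MulAut ↥(chevF4.group F)} (h : StabUV chevF4 θ)
    (hpos : ∀ i : Fin chevF4.rank, MapsSub chevF4 θ
      (chevF4.rootSubgroup F (chevF4.simple i.val))
      (chevF4.rootSubgroup F (chevF4.simple (swF4 i).val)))
    (hneg : ∀ i : Fin chevF4.rank, MapsSub chevF4 θ
      (chevF4.rootSubgroup F (chevF4.neg (chevF4.simple i.val)))
      (chevF4.rootSubgroup F (chevF4.neg (chevF4.simple (swF4 i).val)))) : False := by
  obtain ⟨u₀, hu0, hu1⟩ := hq
  obtain ⟨h₀, hh₀, hc0⟩ := scale_of_torus_inj chevF4 hF4 torus_inj_F4 ⟨2, by decide⟩ u₀ hu0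
  have hn1 := h.map_nG hF4 ⟨1, by decide⟩ ⟨2, by decide⟩ (hpos ⟨1, by decide⟩)
    (hneg ⟨1, by decide⟩) ⟨u₀, h₀, hu0, hu1, hh₀, hc0⟩
  have m0 : MapsSub chevF4 θ (chevF4.rootSubgroup F 25) (chevF4.rootSubgroup F 27) :=
    hpos ⟨2, by decide⟩
  have m1 : MapsSub chevF4 θ (chevF4.rootSubgroup F 30) (chevF4.rootSubgroup F 28) :=
    MapsSub.reflect hF4 ⟨1, by decide⟩ ⟨2, by decide⟩ 25 27 (by decide) (by decide) hn1 m0
  obtain ⟨c, hc⟩ := m0.exists_param hF4 (1 : F)
  obtain ⟨c', hc'⟩ := m1.exists_param hF4 (1 : F)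
  have hcn : c ≠ 0 := param_ne_zero hF4 (by decide : 25 < chevF4.nroots) one_ne_zero hc
  have hc'n : c' ≠ 0 := param_ne_zero hF4 (by decide : 30 < chevF4.nroots) one_ne_zero hc'
  have e1 : xG chevF4 hF4 30 (1 : F) * xG chevF4 hF4 25 1 =
      xG chevF4 hF4 25 1 * xG chevF4 hF4 30 1 :=
    Subtype.ext (comm_of_terms_nil chevF4 hF4 25 30 (by decide) (by decide) (by decide)
      (by decide) (by decide) 1 1)
  have e2 := congrArg θ e1
  rw [map_mul, map_mul, hc, hc'] at e2
  have e3 : xU chevF4 hF4 28 c' * xU chevF4 hF4 27 c =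
      xU chevF4 hF4 27 c * xU chevF4 hF4 28 c' := congrArg Subtype.val e2
  have e4 := comm_of_terms_one chevF4 hF4 27 28 30 2 (by decide) (by decide) (by decide)
    (by decide) (by decide) c c'
  rw [e3] at e4
  have e5 : xU chevF4 hF4 30 (((2 : ℤ) : F) * (-c) * c') = 1 := by
    have e6 : xU chevF4 hF4 27 c * xU chevF4 hF4 28 c' * 1 =
        xU chevF4 hF4 27 c * xU chevF4 hF4 28 c' *
          xU chevF4 hF4 30 (((2 : ℤ) : F) * (-c) * c') := by
      rw [mul_one]
      exact e4
    exact (mul_left_cancel e6).symm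
  have e7 := (xU_eq_one_iff chevF4 hF4 30 (by decide) _).mp e5
  rw [Int.cast_ofNat] at e7
  rcases mul_eq_zero.mp e7 with h' | h'
  · rcases mul_eq_zero.mp h' with h'' | h''
    · exact h2 h''
    · exact hcn (neg_eq_zero.mp h'')
  · exact hc'n h'

/-- every automorphism of `F₄(q)`, `q` odd, is the product of an inner and a field
automorphism -/
theorem aut_F4 [Fintype F] (p : ℕ) [Fact p.Prime] [CharP F p] (h2 : (2 : F) ≠ 0)
    (θ : MulAut ↥(chevF4.group F)) :
    ∃ (x : ↥(chevF4.group F)) (σ : F ≃+* F), ∀ φ : MulAut ↥(chevF4.group F),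
      FieldRel chevF4 φ σ → θ = MulAut.conj x * φ := by
  have hq : ∃ u₀ : F, u₀ ≠ 0 ∧ u₀ ≠ 1 := by
    refine ⟨-1, by simp, fun h => h2 ?_⟩
    have e : (2 : F) = 1 - (-1) := by ring
    rw [e, h, sub_self]
  obtain ⟨x₁, hx₁⟩ := exists_stabUV chevF4 hF4 p θ
  have hS : StabUV chevF4 (MulAut.conj x₁ * θ) := hx₁
  obtain ⟨π, hinj, hpos, hneg⟩ := hS.exists_perm' hF4 posNegOK_F4
  have hna := fun i j hij hn =>
    StabUV.perm_nonadj hF4 posNegOK_F4 nonAdjOK_F4 π hinj hpos i j hij hn
  rcases perm_F4 π hinj hna with hπ | hπ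
  · obtain ⟨x₂, σ, h3⟩ := hS.eq_conj_field' hF4 dynOK_F4 link_F4 hq torus_inj_F4
      (fun i => by have h1 := hpos i; rwa [hπ i] at h1)
      (fun i => by have h1 := hneg i; rwa [hπ i] at h1)
    refine ⟨x₁⁻¹ * x₂, σ, fun φ hφ => ?_⟩
    have h4 := h3 φ hφ
    rw [map_mul, map_inv, mul_assoc, ← h4]
    group
  · exact (f4_no_swap h2 hq hS (fun i => by have h1 := hpos i; rwa [hπ i] at h1)
      (fun i => by have h1 := hneg i; rwa [hπ i] at h1)).elim

section two

variable [CharP F 2]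

/-- the exceptional graph automorphism of `F₄(q)` in characteristic 2 -/
noncomputable def gF4 [Finite F] : MulAut ↥(chevF4.group F) :=
  f4Aut (K := F) perfect_two_of_finite

theorem gF4_root [Finite F] (r : ℕ) (hr : r < 48) (t : F) :
    gF4 (xG chevF4 hF4 r t) = xG chevF4 hF4 (f4ρ r) (t ^ f4lam r) :=
  f4φ_x r hr t

theorem f4ρ_sign : ∀ r < 48, (chevF4.IsPosRoot r → chevF4.IsPosRoot (f4ρ r)) ∧
    (chevF4.IsNegRoot r → chevF4.IsNegRoot (f4ρ r)) := by decide

theorem gF4_stabUV [Finite F] : StabUV chevF4 (gF4 (F := F)) := by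
  constructor
  · refine mapsSub_closure chevF4 gF4 {g : GL chevF4.Idx F | ∃ (r : ℕ) (t : F),
      chevF4.IsPosRoot r ∧ (g : Matrix chevF4.Idx chevF4.Idx F) = chevF4.x F r t}
      (posUnipotent_le_group chevF4 hF4) (chevF4.posUnipotent F) ?_
    rintro g ⟨r, t, hr, hx⟩
    have e : (⟨g, posUnipotent_le_group chevF4 hF4 (Subgroup.subset_closure ⟨r, t, hr, hx⟩)⟩ :
        ↥(chevF4.group F)) = xG chevF4 hF4 r t := Subtype.ext (eq_xU chevF4 hF4 r t g hx)
    rw [e, gF4_root r hr.1]
    exact Subgroup.subset_closure ⟨_, _, (f4ρ_sign r hr.1).1 hr, coe_xU chevF4 hF4 _ _⟩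
  · refine mapsSub_closure chevF4 gF4 {g : GL chevF4.Idx F | ∃ (r : ℕ) (t : F),
      chevF4.IsNegRoot r ∧ (g : Matrix chevF4.Idx chevF4.Idx F) = chevF4.x F r t}
      (negUnipotent_le_group chevF4 hF4) (chevF4.negUnipotent F) ?_
    rintro g ⟨r, t, hr, hx⟩
    have e : (⟨g, negUnipotent_le_group chevF4 hF4 (Subgroup.subset_closure ⟨r, t, hr, hx⟩)⟩ :
        ↥(chevF4.group F)) = xG chevF4 hF4 r t := Subtype.ext (eq_xU chevF4 hF4 r t g hx)
    rw [e, gF4_root r hr.1]
    exact Subgroup.subset_closure ⟨_, _, (f4ρ_sign r hr.1).2 hr, coe_xU chevF4 hF4 _ _⟩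

theorem gF4_mapsPos [Finite F] (i : Fin chevF4.rank) :
    MapsSub chevF4 (gF4 (F := F)) (chevF4.rootSubgroup F (chevF4.simple i.val))
      (chevF4.rootSubgroup F (chevF4.simple (swF4 i).val)) := by
  intro y hy
  obtain ⟨t, ht⟩ := (mem_rootSubgroup_iff chevF4 hF4 _ _).mp hy
  have e : y = xG chevF4 hF4 (chevF4.simple i.val) t := Subtype.ext ht
  rw [e, gF4_root _ (simple_lt chevF4 hF4 i.val i.isLt), (f4ρ_simple i).1]
  exact xG_mem_root chevF4 hF4 _ _

theorem gF4_mapsNeg [Finite F] (i : Fin chevF4.rank) :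
    MapsSub chevF4 (gF4 (F := F)) (chevF4.rootSubgroup F (chevF4.neg (chevF4.simple i.val)))
      (chevF4.rootSubgroup F (chevF4.neg (chevF4.simple (swF4 i).val))) := by
  intro y hy
  obtain ⟨t, ht⟩ := (mem_rootSubgroup_iff chevF4 hF4 _ _).mp hy
  have e : y = xG chevF4 hF4 (chevF4.neg (chevF4.simple i.val)) t := Subtype.ext ht
  rw [e, gF4_root _ (neg_lt chevF4 hF4 _ (simple_lt chevF4 hF4 i.val i.isLt)).1,
    (f4ρ_simple i).2]
  exact xG_mem_root chevF4 hF4 _ _

/-- every automorphism of `F₄(q)` in characteristic 2 is the product of an inner and a field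
automorphism and possibly the inverse of the graph automorphism -/
theorem aut_F4_two [Fintype F] (θ : MulAut ↥(chevF4.group F)) :
    ∃ (x : ↥(chevF4.group F)) (σ : F ≃+* F) (b : Bool),
      ∀ φ : MulAut ↥(chevF4.group F), FieldRel chevF4 φ σ →
        θ = MulAut.conj x * φ * (if b = true then (gF4 (F := F))⁻¹ else 1) := by
  haveI : Fact (Nat.Prime 2) := ⟨Nat.prime_two⟩
  obtain ⟨x₁, hx₁⟩ := exists_stabUV chevF4 hF4 2 θ
  have hS : StabUV chevF4 (MulAut.conj x₁ * θ) := hx₁
  obtain ⟨π, hinj, hpos, hneg⟩ := hS.exists_perm' hF4 posNegOK_F4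
  have hna := fun i j hij hn =>
    StabUV.perm_nonadj hF4 posNegOK_F4 nonAdjOK_F4 π hinj hpos i j hij hn
  rcases perm_F4 π hinj hna with hπ | hπ
  · obtain ⟨x₂, σ, h3⟩ := hS.eq_conj_field'' hF4 dynOK_F4 link_F4 torus_inj_F4
      (fun i => by have h1 := hpos i; rwa [hπ i] at h1)
      (fun i => by have h1 := hneg i; rwa [hπ i] at h1)
    refine ⟨x₁⁻¹ * x₂, σ, false, fun φ hφ => ?_⟩
    have h4 := h3 φ hφ
    rw [if_neg Bool.false_ne_true, mul_one, map_mul, map_inv, mul_assoc, ← h4]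
    group
  · have hS2 : StabUV chevF4 (MulAut.conj x₁ * θ * gF4) := hS.mul gF4_stabUV
    obtain ⟨x₂, σ, h3⟩ := hS2.eq_conj_field'' hF4 dynOK_F4 link_F4 torus_inj_F4
      (fun i => by
        have h1 := hpos (swF4 i)
        rw [hπ, sw4_sw4] at h1
        exact MapsSub.mul h1 (gF4_mapsPos i))
      (fun i => by
        have h1 := hneg (swF4 i)
        rw [hπ, sw4_sw4] at h1
        exact MapsSub.mul h1 (gF4_mapsNeg i))
    refine ⟨x₁⁻¹ * x₂, σ, true, fun φ hφ => ?_⟩
    have h4 := h3 φ hφ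
    rw [if_pos rfl, map_mul, map_inv, mul_assoc (MulAut.conj x₁)⁻¹ (MulAut.conj x₂) φ, ← h4]
    group

/-- counting the outer automorphisms of `F₄(q)` in characteristic 2 -/
theorem card_out_F4_two [Fintype F]
    (Ψ : (F ≃+* F) → MulAut ↥(chevF4.group F)) (hΨ : ∀ σ, FieldRel chevF4 (Ψ σ) σ) :
    Nat.card (Cfsg.Out ↥(chevF4.group F)) = 2 * Nat.card (F ≃+* F) := by
  classical
  have hO : PosNegOK chevF4 F hF4 := posNegOK_F4
  have hcard : Nat.card (Cfsg.Out ↥(chevF4.group F)) = Nat.card ((F ≃+* F) × Bool) := by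
    apply Cfsg.Agent.Lib.Helper31.card_out_of_param
      (fun s : (F ≃+* F) × Bool => Ψ s.1 * (if s.2 = true then (gF4 (F := F))⁻¹ else 1))
    · intro θ
      obtain ⟨x, σ, b, h⟩ := aut_F4_two θ
      refine ⟨x, (σ, b), ?_⟩
      show θ = MulAut.conj x * (Ψ σ * (if b = true then (gF4 (F := F))⁻¹ else 1))
      rw [← mul_assoc]
      exact h (Ψ σ) (hΨ σ)
    · rintro ⟨σ, b⟩ ⟨τ, b'⟩ ⟨x, hx⟩
      have key : ∀ y : ↥(chevF4.group F), MulAut.conj y = (Ψ σ)⁻¹ * Ψ τ → σ = τ :=
        fun y hy => field_inj_of_conj hF4 (by decide) (hΨ σ) (hΨ τ) y hy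
      have hsl : ∀ i : Fin chevF4.rank, chevF4.simple i.val < chevF4.nroots :=
        fun i => simple_lt chevF4 hF4 i.val i.isLt
      have hA : StabUV chevF4 (Ψ σ) := fieldRel_stabUV hF4 (hΨ σ)
      have hB : StabUV chevF4 (Ψ τ) := fieldRel_stabUV hF4 (hΨ τ)
      have hAr : ∀ i : Fin chevF4.rank, MapsSub chevF4 (Ψ σ)
          (chevF4.rootSubgroup F (chevF4.simple i.val))
          (chevF4.rootSubgroup F (chevF4.simple i.val)) :=
        fun i => fieldRel_mapsRoot' hF4 (hΨ σ) _ (hsl i)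
      have hBr : ∀ i : Fin chevF4.rank, MapsSub chevF4 (Ψ τ)
          (chevF4.rootSubgroup F (chevF4.simple i.val))
          (chevF4.rootSubgroup F (chevF4.simple i.val)) :=
        fun i => fieldRel_mapsRoot' hF4 (hΨ τ) _ (hsl i)
      have hAi : ∀ i : Fin chevF4.rank, MapsSub chevF4 (Ψ σ)⁻¹
          (chevF4.rootSubgroup F (chevF4.simple i.val))
          (chevF4.rootSubgroup F (chevF4.simple i.val)) :=
        fun i => (hAr i).inv (rootSubgroup_le_group chevF4 hF4 _) rfl
      have hγ : MapsSub chevF4 (gF4 (F := F))⁻¹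
          (chevF4.rootSubgroup F (chevF4.simple (⟨0, by decide⟩ : Fin chevF4.rank).val))
          (chevF4.rootSubgroup F
            (chevF4.simple (swF4 (⟨0, by decide⟩ : Fin chevF4.rank)).val)) := by
        have h1 := gF4_mapsPos (F := F) (swF4 ⟨0, by decide⟩)
        rw [sw4_sw4] at h1
        exact h1.inv (rootSubgroup_le_group chevF4 hF4 _)
          ((card_rootSubgroup chevF4 hF4 _ (hsl _)).trans
            (card_rootSubgroup chevF4 hF4 _ (hsl _)).symm)
      cases b <;> cases b'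
      · have hx' : MulAut.conj x = (Ψ σ * (if false = true then (gF4 (F := F))⁻¹ else 1))⁻¹ *
            (Ψ τ * (if false = true then (gF4 (F := F))⁻¹ else 1)) := hx
        rw [if_neg Bool.false_ne_true, mul_one, mul_one] at hx'
        rw [key x hx']
      · exfalso
        have hx' : MulAut.conj x = (Ψ σ * (if false = true then (gF4 (F := F))⁻¹ else 1))⁻¹ *
            (Ψ τ * (if true = true then (gF4 (F := F))⁻¹ else 1)) := hx
        rw [if_neg Bool.false_ne_true, if_pos rfl, mul_one, ← mul_assoc] at hx'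
        have hS : StabUV chevF4 (MulAut.conj x) := by
          rw [hx']
          exact ((hA.inv hF4).mul hB).mul (gF4_stabUV.inv hF4)
        have hm : MapsSub chevF4 (MulAut.conj x)
            (chevF4.rootSubgroup F (chevF4.simple (⟨0, by decide⟩ : Fin chevF4.rank).val))
            (chevF4.rootSubgroup F
              (chevF4.simple (swF4 (⟨0, by decide⟩ : Fin chevF4.rank)).val)) := by
          rw [hx']
          exact MapsSub.mul (MapsSub.mul (hAi _) (hBr _)) hγ
        exact sw4_ne (inner_stab_root' chevF4 hF4 hO x hS _ _ hm)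
      · exfalso
        have hx' : MulAut.conj x = (Ψ σ * (if true = true then (gF4 (F := F))⁻¹ else 1))⁻¹ *
            (Ψ τ * (if false = true then (gF4 (F := F))⁻¹ else 1)) := hx
        rw [if_neg Bool.false_ne_true, if_pos rfl, mul_one, mul_inv_rev, inv_inv] at hx'
        have hS : StabUV chevF4 (MulAut.conj x) := by
          rw [hx']
          exact (gF4_stabUV.mul (hA.inv hF4)).mul hB
        have hm : MapsSub chevF4 (MulAut.conj x)
            (chevF4.rootSubgroup F (chevF4.simple (⟨0, by decide⟩ : Fin chevF4.rank).val))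
            (chevF4.rootSubgroup F
              (chevF4.simple (swF4 (⟨0, by decide⟩ : Fin chevF4.rank)).val)) := by
          rw [hx']
          exact MapsSub.mul (MapsSub.mul (gF4_mapsPos _) (hAi _)) (hBr _)
        exact sw4_ne (inner_stab_root' chevF4 hF4 hO x hS _ _ hm)
      · have hx' : MulAut.conj x = (Ψ σ * (if true = true then (gF4 (F := F))⁻¹ else 1))⁻¹ *
            (Ψ τ * (if true = true then (gF4 (F := F))⁻¹ else 1)) := hx
        rw [if_pos rfl] at hx'
        have hx2 : MulAut.conj ((gF4 (F := F))⁻¹ x) = (Ψ σ)⁻¹ * Ψ τ := by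
          rw [← mulAut_conj_conj', hx']
          group
        rw [key _ hx2]
  rw [hcard, Nat.card_prod]
  have hB : Nat.card Bool = 2 := by rw [Nat.card_eq_fintype_card, Fintype.card_bool]
  rw [hB, mul_comm]

end two

end Cfsg.Agent.Lib.Helper36
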