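import Cfsg.Agent.Lib.Helper36.ChevAutK
import Cfsg.Agent.Lib.Helper18.ReeSigma
import Cfsg.Agent.Lib.Helper31.OutCount

set_option autoImplicit false

/-!
# Automorphisms of `G₂(q)`

Every automorphism of `G₂(q)`, `q > 2`, is the product of an inner and a field automorphism and,
in characteristic 3, possibly the exceptional graph automorphism.
-/

namespace Cfsg.Agent.Lib.Helper36

open Cfsg Cfsg.Lie Cfsg.Agent.Lib.Helper18

universe u

variable {F : Type u} [Field F]

theorem dynOK_G2 : DynOK chevG2 :=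
  dynOK_of_chk chevG2 0 [(1, 0)] (by decide) (by decide) (by decide)

theorem posNegOK_G2 : PosNegOK chevG2 F g2mem := posNegOK_of_chk chevG2 g2mem (by decide)

theorem link_G2 (i j : Fin chevG2.rank) (hij : i ≠ j)
    (_ : chevG2.cartan i.val (chevG2.simple j.val) ≠ 0) :
    LinkOK chevG2 i.val j.val ∨ LinkOK chevG2 j.val i.val := by
  have h01 : LinkOK chevG2 0 1 := by decide
  obtain ⟨i, hi⟩ := i
  obtain ⟨j, hj⟩ := j
  have hi' : i < 2 := hi
  have hj' : j < 2 := hj
  interval_cases i <;> interval_cases j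
  · exact absurd rfl hij
  · exact Or.inl h01
  · exact Or.inr h01
  · exact absurd rfl hij

theorem torus_inj_G2 [Finite F] : Function.Injective (torusHom (F := F) chevG2) :=
  torusHom_injective_of_cert _ g2mem _ kerCertG2_check rfl

/-- the swap of the two nodes -/
def swG2 (i : Fin chevG2.rank) : Fin chevG2.rank :=
  ⟨1 - i.val, Nat.lt_of_le_of_lt (Nat.sub_le 1 i.val) (by decide)⟩

theorem sw_sw : ∀ i : Fin chevG2.rank, swG2 (swG2 i) = i := by decide

theorem sw_ne : swG2 ⟨0, by decide⟩ ≠ ⟨0, by decide⟩ := by decide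

theorem perm_G2 (π : Fin chevG2.rank → Fin chevG2.rank) (hinj : Function.Injective π) :
    (∀ i, π i = i) ∨ (∀ i, π i = swG2 i) := by
  have key : ∀ a b : Fin chevG2.rank, a ≠ b →
      (a = ⟨0, by decide⟩ ∧ b = ⟨1, by decide⟩) ∨ (a = ⟨1, by decide⟩ ∧ b = ⟨0, by decide⟩) := by
    decide
  have hne : π ⟨0, by decide⟩ ≠ π ⟨1, by decide⟩ := fun e => absurd (hinj e) (by decide)
  rcases key _ _ hne with ⟨h0, h1⟩ | ⟨h0, h1⟩
  · left
    intro i
    obtain ⟨k, hk⟩ := i
    have hk' : k < 2 := hk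
    interval_cases k
    · exact h0
    · exact h1
  · right
    intro i
    obtain ⟨k, hk⟩ := i
    have hk' : k < 2 := hk
    interval_cases k
    · exact h0
    · exact h1

/-- scaling of the fundamental root subgroups by torus elements -/
theorem scale_G2 [Finite F] (i : Fin chevG2.rank) (u : F) (hu : u ≠ 0) :
    ∃ h ∈ chevG2.diagonalSubgroup F, ∀ t : F,
      h * xU chevG2 g2mem (chevG2.simple i.val) t * h⁻¹ =
        xU chevG2 g2mem (chevG2.simple i.val) (u * t) := by
  obtain ⟨c, hc⟩ := exists_torus_of_injective chevG2 g2mem torus_inj_G2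
    (fun _ => Units.mk0 u hu)
  refine ⟨torusHom chevG2 c, ?_, fun t => ?_⟩
  · rw [diagonalSubgroup_eq_range chevG2 g2mem]
    exact ⟨c, rfl⟩
  · rw [torus_conj chevG2 g2mem c _ (simple_lt chevG2 g2mem i.val i.isLt) t, hc i]
    rfl

/-- in characteristic other than 3 no automorphism stabilising `U` and `V` exchanges the two
fundamental root subgroups -/
theorem g2_no_swap [Fintype F] (h3 : (3 : F) ≠ 0) (hq : ∃ u₀ : F, u₀ ≠ 0 ∧ u₀ ≠ 1)
    {θ : MulAut ↥(chevG2.group F)} (h : StabUV chevG2 θ)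
    (hpos : ∀ i : Fin chevG2.rank, MapsSub chevG2 θ
      (chevG2.rootSubgroup F (chevG2.simple i.val))
      (chevG2.rootSubgroup F (chevG2.simple (swG2 i).val)))
    (hneg : ∀ i : Fin chevG2.rank, MapsSub chevG2 θ
      (chevG2.rootSubgroup F (chevG2.neg (chevG2.simple i.val)))
      (chevG2.rootSubgroup F (chevG2.neg (chevG2.simple (swG2 i).val)))) : False := by
  have hsc : ∀ k : Fin chevG2.rank, ∃ (u₀ : F) (h₀ : GL chevG2.Idx F), u₀ ≠ 0 ∧ u₀ ≠ 1 ∧
      h₀ ∈ chevG2.diagonalSubgroup F ∧ ∀ t : F,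
        h₀ * xU chevG2 g2mem (chevG2.simple k.val) t * h₀⁻¹ =
          xU chevG2 g2mem (chevG2.simple k.val) (u₀ * t) := by
    intro k
    obtain ⟨u₀, hu0, hu1⟩ := hq
    obtain ⟨h₀, hh₀, hc⟩ := scale_G2 k u₀ hu0
    exact ⟨u₀, h₀, hu0, hu1, hh₀, hc⟩
  have hn0 := h.map_nG g2mem ⟨0, by decide⟩ ⟨1, by decide⟩ (hpos ⟨0, by decide⟩)
    (hneg ⟨0, by decide⟩) (hsc ⟨1, by decide⟩)
  have hn1 := h.map_nG g2mem ⟨1, by decide⟩ ⟨0, by decide⟩ (hpos ⟨1, by decide⟩)
    (hneg ⟨1, by decide⟩) (hsc ⟨0, by decide⟩)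
  have m0 : MapsSub chevG2 θ (chevG2.rootSubgroup F 6) (chevG2.rootSubgroup F 7) :=
    hpos ⟨1, by decide⟩
  have m1 : MapsSub chevG2 θ (chevG2.rootSubgroup F 10) (chevG2.rootSubgroup F 8) :=
    MapsSub.reflect g2mem ⟨0, by decide⟩ ⟨1, by decide⟩ 6 7 (by decide) (by decide) hn0 m0
  have m2 : MapsSub chevG2 θ (chevG2.rootSubgroup F 11) (chevG2.rootSubgroup F 9) :=
    MapsSub.reflect g2mem ⟨1, by decide⟩ ⟨0, by decide⟩ 10 8 (by decide) (by decide) hn1 m1
  obtain ⟨c, hc⟩ := m0.exists_param g2mem (1 : F)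
  obtain ⟨c', hc'⟩ := m2.exists_param g2mem (1 : F)
  have hc0 : c ≠ 0 := param_ne_zero g2mem (by decide : 6 < chevG2.nroots) one_ne_zero hc
  have hc'0 : c' ≠ 0 := param_ne_zero g2mem (by decide : 11 < chevG2.nroots) one_ne_zero hc'
  have e1 : xG chevG2 g2mem 11 (1 : F) * xG chevG2 g2mem 6 1 =
      xG chevG2 g2mem 6 1 * xG chevG2 g2mem 11 1 :=
    Subtype.ext (comm_of_terms_nil chevG2 g2mem 6 11 (by decide) (by decide) (by decide)
      (by decide) (by decide) 1 1)
  have e2 := congrArg θ e1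
  rw [map_mul, map_mul, hc, hc'] at e2
  have e3 : xU chevG2 g2mem 9 c' * xU chevG2 g2mem 7 c =
      xU chevG2 g2mem 7 c * xU chevG2 g2mem 9 c' := congrArg Subtype.val e2
  have e4 := comm_of_terms_one chevG2 g2mem 7 9 10 3 (by decide) (by decide) (by decide)
    (by decide) (by decide) c c'
  rw [e3] at e4
  have e5 : xU chevG2 g2mem 10 (((3 : ℤ) : F) * (-c) * c') = 1 := by
    have e6 : xU chevG2 g2mem 7 c * xU chevG2 g2mem 9 c' * 1 =
        xU chevG2 g2mem 7 c * xU chevG2 g2mem 9 c' *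
          xU chevG2 g2mem 10 (((3 : ℤ) : F) * (-c) * c') := by
      rw [mul_one]
      exact e4
    exact (mul_left_cancel e6).symm
  have e7 := (xU_eq_one_iff chevG2 g2mem 10 (by decide) _).mp e5
  rw [Int.cast_ofNat] at e7
  rcases mul_eq_zero.mp e7 with h' | h'
  · rcases mul_eq_zero.mp h' with h'' | h''
    · exact h3 h''
    · exact hc0 (neg_eq_zero.mp h'')
  · exact hc'0 h'

/-- every automorphism of `G₂(q)`, `q > 2` prime to 3, is the product of an inner and a field
automorphism -/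
theorem aut_G2 [Fintype F] (p : ℕ) [Fact p.Prime] [CharP F p] (h3 : (3 : F) ≠ 0)
    (hq : ∃ u₀ : F, u₀ ≠ 0 ∧ u₀ ≠ 1) (θ : MulAut ↥(chevG2.group F)) :
    ∃ (x : ↥(chevG2.group F)) (σ : F ≃+* F), ∀ φ : MulAut ↥(chevG2.group F),
      FieldRel chevG2 φ σ → θ = MulAut.conj x * φ := by
  obtain ⟨x₁, hx₁⟩ := exists_stabUV chevG2 g2mem p θ
  have hS : StabUV chevG2 (MulAut.conj x₁ * θ) := hx₁
  obtain ⟨π, hinj, hpos, hneg⟩ := hS.exists_perm' g2mem posNegOK_G2
  rcases perm_G2 π hinj with hπ | hπ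
  · obtain ⟨x₂, σ, h2⟩ := hS.eq_conj_field' g2mem dynOK_G2 link_G2 hq torus_inj_G2
      (fun i => by have h1 := hpos i; rwa [hπ i] at h1)
      (fun i => by have h1 := hneg i; rwa [hπ i] at h1)
    refine ⟨x₁⁻¹ * x₂, σ, fun φ hφ => ?_⟩
    have h4 := h2 φ hφ
    rw [map_mul, map_inv, mul_assoc, ← h4]
    group
  · exact (g2_no_swap h3 hq hS (fun i => by have h1 := hpos i; rwa [hπ i] at h1)
      (fun i => by have h1 := hneg i; rwa [hπ i] at h1)).elim

section three

variable [CharP F 3]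

theorem exists_ne_G2 : ∃ a : F, a ≠ 0 ∧ a ≠ 1 := by
  have h2 : (2 : F) ≠ 0 := by
    intro h
    have h' : ((2 : ℕ) : F) = 0 := by exact_mod_cast h
    rw [CharP.cast_eq_zero_iff F 3] at h'
    omega
  refine ⟨-1, by simp, fun h => h2 ?_⟩
  have e : (2 : F) = 1 - (-1) := by ring
  rw [e, h, sub_self]

theorem g2φ_injective : Function.Injective (g2φ (K := F)) := by
  obtain ⟨hsimple, -⟩ := Cfsg.Agent.S1055.result (exists_ne_G2 (F := F))
  rw [← MonoidHom.ker_eq_bot_iff]
  rcases (g2φ (K := F)).normal_ker.eq_bot_or_eq_top with h | h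
  · exact h
  · exfalso
    have hx : g2x 6 (1 : F) ∈ (g2φ (K := F)).ker := by
      rw [h]
      trivial
    rw [MonoidHom.mem_ker, g2φ_x 6 (by decide)] at hx
    have h1 : xU chevG2 g2mem (g2ρ 6) ((1 : F) ^ g2lam 6) = 1 := congrArg Subtype.val hx
    have h2 := (xU_eq_one_iff chevG2 g2mem _ (by decide) _).mp h1
    rw [one_pow] at h2
    exact one_ne_zero h2

/-- the exceptional graph automorphism of `G₂(q)` in characteristic 3 -/
noncomputable def gG2 [Finite F] : MulAut ↥(chevG2.group F) :=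
  MulEquiv.ofBijective (g2φ (K := F))
    ⟨g2φ_injective, Finite.injective_iff_surjective.mp g2φ_injective⟩

theorem gG2_root [Finite F] (r : ℕ) (hr : r < 12) (t : F) :
    gG2 (xG chevG2 g2mem r t) = xG chevG2 g2mem (g2ρ r) (t ^ g2lam r) :=
  g2φ_x r hr t

theorem g2ρ_sign : ∀ r < 12, (chevG2.IsPosRoot r → chevG2.IsPosRoot (g2ρ r)) ∧
    (chevG2.IsNegRoot r → chevG2.IsNegRoot (g2ρ r)) := by decide

theorem g2ρ_simple : ∀ i : Fin chevG2.rank,
    g2ρ (chevG2.simple i.val) = chevG2.simple (swG2 i).val ∧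
    g2ρ (chevG2.neg (chevG2.simple i.val)) = chevG2.neg (chevG2.simple (swG2 i).val) := by
  decide

theorem gG2_stabUV [Finite F] : StabUV chevG2 (gG2 (F := F)) := by
  constructor
  · refine mapsSub_closure chevG2 gG2 {g : GL chevG2.Idx F | ∃ (r : ℕ) (t : F),
      chevG2.IsPosRoot r ∧ (g : Matrix chevG2.Idx chevG2.Idx F) = chevG2.x F r t}
      (posUnipotent_le_group chevG2 g2mem) (chevG2.posUnipotent F) ?_
    rintro g ⟨r, t, hr, hx⟩
    have e : (⟨g, posUnipotent_le_group chevG2 g2mem (Subgroup.subset_closure ⟨r, t, hr, hx⟩)⟩ :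
        ↥(chevG2.group F)) = xG chevG2 g2mem r t := Subtype.ext (eq_xU chevG2 g2mem r t g hx)
    rw [e, gG2_root r hr.1]
    exact Subgroup.subset_closure ⟨_, _, (g2ρ_sign r hr.1).1 hr, coe_xU chevG2 g2mem _ _⟩
  · refine mapsSub_closure chevG2 gG2 {g : GL chevG2.Idx F | ∃ (r : ℕ) (t : F),
      chevG2.IsNegRoot r ∧ (g : Matrix chevG2.Idx chevG2.Idx F) = chevG2.x F r t}
      (negUnipotent_le_group chevG2 g2mem) (chevG2.negUnipotent F) ?_
    rintro g ⟨r, t, hr, hx⟩
    have e : (⟨g, negUnipotent_le_group chevG2 g2mem (Subgroup.subset_closure ⟨r, t, hr, hx⟩)⟩ :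
        ↥(chevG2.group F)) = xG chevG2 g2mem r t := Subtype.ext (eq_xU chevG2 g2mem r t g hx)
    rw [e, gG2_root r hr.1]
    exact Subgroup.subset_closure ⟨_, _, (g2ρ_sign r hr.1).2 hr, coe_xU chevG2 g2mem _ _⟩

theorem gG2_mapsPos [Finite F] (i : Fin chevG2.rank) :
    MapsSub chevG2 (gG2 (F := F)) (chevG2.rootSubgroup F (chevG2.simple i.val))
      (chevG2.rootSubgroup F (chevG2.simple (swG2 i).val)) := by
  intro y hy
  obtain ⟨t, ht⟩ := (mem_rootSubgroup_iff chevG2 g2mem _ _).mp hy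
  have e : y = xG chevG2 g2mem (chevG2.simple i.val) t := Subtype.ext ht
  rw [e, gG2_root _ (simple_lt chevG2 g2mem i.val i.isLt), (g2ρ_simple i).1]
  exact xG_mem_root chevG2 g2mem _ _

theorem gG2_mapsNeg [Finite F] (i : Fin chevG2.rank) :
    MapsSub chevG2 (gG2 (F := F)) (chevG2.rootSubgroup F (chevG2.neg (chevG2.simple i.val)))
      (chevG2.rootSubgroup F (chevG2.neg (chevG2.simple (swG2 i).val))) := by
  intro y hy
  obtain ⟨t, ht⟩ := (mem_rootSubgroup_iff chevG2 g2mem _ _).mp hy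
  have e : y = xG chevG2 g2mem (chevG2.neg (chevG2.simple i.val)) t := Subtype.ext ht
  rw [e, gG2_root _ (neg_lt chevG2 g2mem _ (simple_lt chevG2 g2mem i.val i.isLt)).1,
    (g2ρ_simple i).2]
  exact xG_mem_root chevG2 g2mem _ _

/-- every automorphism of `G₂(q)` in characteristic 3 is the product of an inner and a field
automorphism and possibly the inverse of the graph automorphism -/
theorem aut_G2_three [Fintype F] (θ : MulAut ↥(chevG2.group F)) :
    ∃ (x : ↥(chevG2.group F)) (σ : F ≃+* F) (b : Bool),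
      ∀ φ : MulAut ↥(chevG2.group F), FieldRel chevG2 φ σ →
        θ = MulAut.conj x * φ * (if b = true then (gG2 (F := F))⁻¹ else 1) := by
  haveI : Fact (Nat.Prime 3) := ⟨Nat.prime_three⟩
  have hq := exists_ne_G2 (F := F)
  obtain ⟨x₁, hx₁⟩ := exists_stabUV chevG2 g2mem 3 θ
  have hS : StabUV chevG2 (MulAut.conj x₁ * θ) := hx₁
  obtain ⟨π, hinj, hpos, hneg⟩ := hS.exists_perm' g2mem posNegOK_G2
  rcases perm_G2 π hinj with hπ | hπ
  · obtain ⟨x₂, σ, h2⟩ := hS.eq_conj_field' g2mem dynOK_G2 link_G2 hq torus_inj_G2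
      (fun i => by have h1 := hpos i; rwa [hπ i] at h1)
      (fun i => by have h1 := hneg i; rwa [hπ i] at h1)
    refine ⟨x₁⁻¹ * x₂, σ, false, fun φ hφ => ?_⟩
    have h4 := h2 φ hφ
    rw [if_neg Bool.false_ne_true, mul_one, map_mul, map_inv, mul_assoc, ← h4]
    group
  · have hS2 : StabUV chevG2 (MulAut.conj x₁ * θ * gG2) := hS.mul gG2_stabUV
    obtain ⟨x₂, σ, h2⟩ := hS2.eq_conj_field' g2mem dynOK_G2 link_G2 hq torus_inj_G2
      (fun i => by
        have h1 := hpos (swG2 i)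
        rw [hπ, sw_sw] at h1
        exact MapsSub.mul h1 (gG2_mapsPos i))
      (fun i => by
        have h1 := hneg (swG2 i)
        rw [hπ, sw_sw] at h1
        exact MapsSub.mul h1 (gG2_mapsNeg i))
    refine ⟨x₁⁻¹ * x₂, σ, true, fun φ hφ => ?_⟩
    have h4 := h2 φ hφ
    rw [if_pos rfl, map_mul, map_inv, mul_assoc (MulAut.conj x₁)⁻¹ (MulAut.conj x₂) φ, ← h4]
    group

/-- counting the outer automorphisms of `G₂(q)` in characteristic 3 -/
theorem card_out_G2_three [Fintype F]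
    (Ψ : (F ≃+* F) → MulAut ↥(chevG2.group F)) (hΨ : ∀ σ, FieldRel chevG2 (Ψ σ) σ) :
    Nat.card (Cfsg.Out ↥(chevG2.group F)) = 2 * Nat.card (F ≃+* F) := by
  classical
  have hO : PosNegOK chevG2 F g2mem := posNegOK_G2
  have hcard : Nat.card (Cfsg.Out ↥(chevG2.group F)) = Nat.card ((F ≃+* F) × Bool) := by
    apply Cfsg.Agent.Lib.Helper31.card_out_of_param
      (fun s : (F ≃+* F) × Bool => Ψ s.1 * (if s.2 = true then (gG2 (F := F))⁻¹ else 1))
    · intro θ
      obtain ⟨x, σ, b, h⟩ := aut_G2_three θ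
      refine ⟨x, (σ, b), ?_⟩
      show θ = MulAut.conj x * (Ψ σ * (if b = true then (gG2 (F := F))⁻¹ else 1))
      rw [← mul_assoc]
      exact h (Ψ σ) (hΨ σ)
    · rintro ⟨σ, b⟩ ⟨τ, b'⟩ ⟨x, hx⟩
      have key : ∀ y : ↥(chevG2.group F), MulAut.conj y = (Ψ σ)⁻¹ * Ψ τ → σ = τ :=
        fun y hy => field_inj_of_conj g2mem (by decide) (hΨ σ) (hΨ τ) y hy
      have hsl : ∀ i : Fin chevG2.rank, chevG2.simple i.val < chevG2.nroots :=
        fun i => simple_lt chevG2 g2mem i.val i.isLt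
      have hA : StabUV chevG2 (Ψ σ) := fieldRel_stabUV g2mem (hΨ σ)
      have hB : StabUV chevG2 (Ψ τ) := fieldRel_stabUV g2mem (hΨ τ)
      have hAr : ∀ i : Fin chevG2.rank, MapsSub chevG2 (Ψ σ)
          (chevG2.rootSubgroup F (chevG2.simple i.val))
          (chevG2.rootSubgroup F (chevG2.simple i.val)) :=
        fun i => fieldRel_mapsRoot' g2mem (hΨ σ) _ (hsl i)
      have hBr : ∀ i : Fin chevG2.rank, MapsSub chevG2 (Ψ τ)
          (chevG2.rootSubgroup F (chevG2.simple i.val))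
          (chevG2.rootSubgroup F (chevG2.simple i.val)) :=
        fun i => fieldRel_mapsRoot' g2mem (hΨ τ) _ (hsl i)
      have hAi : ∀ i : Fin chevG2.rank, MapsSub chevG2 (Ψ σ)⁻¹
          (chevG2.rootSubgroup F (chevG2.simple i.val))
          (chevG2.rootSubgroup F (chevG2.simple i.val)) :=
        fun i => (hAr i).inv (rootSubgroup_le_group chevG2 g2mem _) rfl
      have hγ : MapsSub chevG2 (gG2 (F := F))⁻¹
          (chevG2.rootSubgroup F (chevG2.simple (⟨0, by decide⟩ : Fin chevG2.rank).val))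
          (chevG2.rootSubgroup F
            (chevG2.simple (swG2 (⟨0, by decide⟩ : Fin chevG2.rank)).val)) := by
        have h1 := gG2_mapsPos (F := F) (swG2 ⟨0, by decide⟩)
        rw [sw_sw] at h1
        exact h1.inv (rootSubgroup_le_group chevG2 g2mem _)
          ((card_rootSubgroup chevG2 g2mem _ (hsl _)).trans
            (card_rootSubgroup chevG2 g2mem _ (hsl _)).symm)
      cases b <;> cases b'
      · have hx' : MulAut.conj x = (Ψ σ * (if false = true then (gG2 (F := F))⁻¹ else 1))⁻¹ *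
            (Ψ τ * (if false = true then (gG2 (F := F))⁻¹ else 1)) := hx
        rw [if_neg Bool.false_ne_true, mul_one, mul_one] at hx'
        rw [key x hx']
      · exfalso
        have hx' : MulAut.conj x = (Ψ σ * (if false = true then (gG2 (F := F))⁻¹ else 1))⁻¹ *
            (Ψ τ * (if true = true then (gG2 (F := F))⁻¹ else 1)) := hx
        rw [if_neg Bool.false_ne_true, if_pos rfl, mul_one, ← mul_assoc] at hx'
        have hS : StabUV chevG2 (MulAut.conj x) := by
          rw [hx']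
          exact ((hA.inv g2mem).mul hB).mul (gG2_stabUV.inv g2mem)
        have hm : MapsSub chevG2 (MulAut.conj x)
            (chevG2.rootSubgroup F (chevG2.simple (⟨0, by decide⟩ : Fin chevG2.rank).val))
            (chevG2.rootSubgroup F
              (chevG2.simple (swG2 (⟨0, by decide⟩ : Fin chevG2.rank)).val)) := by
          rw [hx']
          exact MapsSub.mul (MapsSub.mul (hAi _) (hBr _)) hγ
        exact sw_ne (inner_stab_root' chevG2 g2mem hO x hS _ _ hm)
      · exfalso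
        have hx' : MulAut.conj x = (Ψ σ * (if true = true then (gG2 (F := F))⁻¹ else 1))⁻¹ *
            (Ψ τ * (if false = true then (gG2 (F := F))⁻¹ else 1)) := hx
        rw [if_neg Bool.false_ne_true, if_pos rfl, mul_one, mul_inv_rev, inv_inv] at hx'
        have hS : StabUV chevG2 (MulAut.conj x) := by
          rw [hx']
          exact (gG2_stabUV.mul (hA.inv g2mem)).mul hB
        have hm : MapsSub chevG2 (MulAut.conj x)
            (chevG2.rootSubgroup F (chevG2.simple (⟨0, by decide⟩ : Fin chevG2.rank).val))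
            (chevG2.rootSubgroup F
              (chevG2.simple (swG2 (⟨0, by decide⟩ : Fin chevG2.rank)).val)) := by
          rw [hx']
          exact MapsSub.mul (MapsSub.mul (gG2_mapsPos _) (hAi _)) (hBr _)
        exact sw_ne (inner_stab_root' chevG2 g2mem hO x hS _ _ hm)
      · have hx' : MulAut.conj x = (Ψ σ * (if true = true then (gG2 (F := F))⁻¹ else 1))⁻¹ *
            (Ψ τ * (if true = true then (gG2 (F := F))⁻¹ else 1)) := hx
        rw [if_pos rfl] at hx'
        have hx2 : MulAut.conj ((gG2 (F := F))⁻¹ x) = (Ψ σ)⁻¹ * Ψ τ := by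
          rw [← mulAut_conj_conj', hx']
          group
        rw [key _ hx2]
  rw [hcard, Nat.card_prod]
  have hB : Nat.card Bool = 2 := by rw [Nat.card_eq_fintype_card, Fintype.card_bool]
  rw [hB, mul_comm]

end three

end Cfsg.Agent.Lib.Helper36
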