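import Cfsg.Agent.Lib.Helper36.ChevAutG
import Cfsg.Agent.Lib.Helper31.OutCount

set_option autoImplicit false

/-!
# Automorphisms of Chevalley groups, part H

Diagonal-field decomposition of an automorphism stabilising `U`, `V` and the fundamental root
subgroups, and the resulting count of outer automorphisms.
-/

namespace Cfsg.Agent.Lib.Helper36

open Cfsg Cfsg.Lie Cfsg.Agent.Lib.Helper18

universe u

variable {F : Type u} [Field F]

/-- an automorphism stabilising `U`, `V` and the fundamental root subgroups is the product of a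
diagonal and a field automorphism -/
theorem StabUV.eq_diag_field [Fintype F] {D : ChevalleyDatum}
    (hD : D ∈ [chevG2, chevB2, chevD4, chevF4, chevE6, chevE7, chevE8]) (hO : SimpOK D F hD)
    (hY : DynOK D) (hR : RcOK D) {θ : MulAut ↥(D.group F)} (h : StabUV D θ)
    (hpos : ∀ i : Fin D.rank, MapsSub D θ (D.rootSubgroup F (D.simple i.val))
      (D.rootSubgroup F (D.simple i.val)))
    (hneg : ∀ i : Fin D.rank, MapsSub D θ (D.rootSubgroup F (D.neg (D.simple i.val)))
      (D.rootSubgroup F (D.neg (D.simple i.val)))) :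
    ∃ (d : Fin D.rank → Fˣ) (σ : F ≃+* F), ∀ φ : MulAut ↥(D.group F), FieldRel D φ σ →
      θ = dAut D hD hR d * φ := by
  have hsl : ∀ i : Fin D.rank, D.simple i.val < D.nroots := fun i => simple_lt D hD i.val i.isLt
  have hnl : ∀ i : Fin D.rank, D.neg (D.simple i.val) < D.nroots :=
    fun i => (neg_lt D hD _ (hsl i)).1
  -- scaling by torus elements
  have hscale : ∀ (i : Fin D.rank) (u : F), u ≠ 0 → ∃ h ∈ D.diagonalSubgroup F, ∀ t : F,
      h * xU D hD (D.simple i.val) t * h⁻¹ = xU D hD (D.simple i.val) (u * t) := by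
    intro i u hu
    obtain ⟨j, hj, hc⟩ := exists_scale D hR i.val i.isLt
    refine ⟨torusHom D (Pi.mulSingle (⟨j, hj⟩ : Fin D.rank) (Units.mk0 u hu)⁻¹), ?_, fun t => ?_⟩
    · rw [diagonalSubgroup_eq_range D hD]
      exact ⟨_, rfl⟩
    · rw [torus_conj D hD _ _ (hsl i) t, chiL_eq_mono]
      have e : mono (Pi.mulSingle (⟨j, hj⟩ : Fin D.rank) (Units.mk0 u hu)⁻¹)
          (fun k : Fin D.rank => D.cartan k.val (D.simple i.val)) = Units.mk0 u hu := by
        rw [mono_mulSingle, hc, zpow_neg_one, inv_inv]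
      rw [e]
      rfl
  choose a ha using fun i : Fin D.rank => (hpos i).exists_param hD (1 : F)
  have ha0 : ∀ i, a i ≠ 0 := fun i => param_ne_zero hD (hsl i) one_ne_zero (ha i)
  have hδ := dAut_stabUV (F := F) D hD hR (fun i => Units.mk0 (a i) (ha0 i))
  have h' : StabUV D ((dAut D hD hR (fun i => Units.mk0 (a i) (ha0 i)))⁻¹ * θ) :=
    (hδ.inv hD).mul h
  have hroot : ∀ s, s < D.nroots →
      MapsSub D (dAut D hD hR (fun i => Units.mk0 (a i) (ha0 i)))⁻¹ (D.rootSubgroup F s)
        (D.rootSubgroup F s) :=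
    fun s hs => (dAut_mapsRoot D hD hR _ s hs).inv (rootSubgroup_le_group D hD s) rfl
  have hnorm : ∀ i : Fin D.rank,
      ((dAut D hD hR (fun i => Units.mk0 (a i) (ha0 i)))⁻¹ * θ) (xG D hD (D.simple i.val) 1) =
        xG D hD (D.simple i.val) 1 := by
    intro i
    show (dAut D hD hR (fun i => Units.mk0 (a i) (ha0 i)))⁻¹ (θ (xG D hD (D.simple i.val) 1)) = _
    have e : dAut D hD hR (fun i => Units.mk0 (a i) (ha0 i)) (xG D hD (D.simple i.val) 1) =
        xG D hD (D.simple i.val) (a i) := by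
      rw [dAut_simple, mul_one]
      rfl
    rw [ha i, ← e]
    exact MulAut.inv_apply_self _ _ _
  obtain ⟨σ, hσ⟩ := h'.field_of_normalized hD hO hY hscale
    (fun i => MapsSub.mul (hroot _ (hsl i)) (hpos i))
    (fun i => MapsSub.mul (hroot _ (hnl i)) (hneg i)) hnorm
  refine ⟨fun i => Units.mk0 (a i) (ha0 i), σ, fun φ hφ => ?_⟩
  have e : (dAut D hD hR (fun i => Units.mk0 (a i) (ha0 i)))⁻¹ * θ = φ := by
    apply aut_ext_simple D hD
    intro i t
    rw [(hσ i t).1, (hσ i t).2, fieldRel_xG hD hφ _ (hsl i), fieldRel_xG hD hφ _ (hnl i)]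
    exact ⟨rfl, rfl⟩
  rw [← e]
  group

/-- if `δ_a φ_σ` and `δ_b φ_τ` differ by an inner automorphism then `σ = τ` and `a`, `b` differ
by the character of a torus element -/
theorem diag_field_inj [Fintype F] (D : ChevalleyDatum)
    (hD : D ∈ [chevG2, chevB2, chevD4, chevF4, chevE6, chevE7, chevE8]) (hR : RcOK D)
    (i₀ : Fin D.rank) (a b : Fin D.rank → Fˣ) (σ τ : F ≃+* F) (φ ψ : MulAut ↥(D.group F))
    (hφ : FieldRel D φ σ) (hψ : FieldRel D ψ τ) (x : ↥(D.group F))
    (hx : MulAut.conj x = (dAut D hD hR a * φ)⁻¹ * (dAut D hD hR b * ψ)) :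
    σ = τ ∧ ∃ c : Fin D.rank → Fˣ, b = a * simpHom D c := by
  have hsl : ∀ i : Fin D.rank, D.simple i.val < D.nroots := fun i => simple_lt D hD i.val i.isLt
  have hS : StabUV D (MulAut.conj x) := by
    rw [hx]
    exact (((dAut_stabUV D hD hR a).mul (fieldRel_stabUV hD hφ)).inv hD).mul
      ((dAut_stabUV D hD hR b).mul (fieldRel_stabUV hD hψ))
  have hxH : (x : GL D.Idx F) ∈ D.diagonalSubgroup F :=
    mem_diag_of_stab D hD x.1 x.2
      (fun u hu => hS.1 ⟨u, posUnipotent_le_group D hD hu⟩ hu)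
      (fun v hv => hS.2 ⟨v, negUnipotent_le_group D hD hv⟩ hv)
  rw [diagonalSubgroup_eq_range D hD] at hxH
  obtain ⟨c, hc⟩ := hxH
  have hx2 : MulAut.conj x = dAut D hD hR (simpHom D c) := by
    rw [dAut_simpHom]
    congr 1
    exact Subtype.ext hc.symm
  rw [hx2] at hx
  have key : dAut D hD hR a * φ * dAut D hD hR (simpHom D c) = dAut D hD hR b * ψ := by
    rw [hx]
    group
  have hev : ∀ (i : Fin D.rank) (t : F),
      (a i : F) * σ ((simpHom D c i : F) * t) = (b i : F) * τ t := by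
    intro i t
    have h1 : (dAut D hD hR a * φ * dAut D hD hR (simpHom D c)) (xG D hD (D.simple i.val) t) =
        (dAut D hD hR b * ψ) (xG D hD (D.simple i.val) t) := by rw [key]
    rw [MulAut.mul_apply, MulAut.mul_apply, MulAut.mul_apply, dAut_simple,
      fieldRel_xG hD hφ _ (hsl i), dAut_simple, fieldRel_xG hD hψ _ (hsl i), dAut_simple] at h1
    exact xU_injective D hD _ (hsl i) _ _ (congrArg Subtype.val h1)
  have h1 : ∀ i : Fin D.rank, (a i : F) * σ (simpHom D c i : F) = (b i : F) := by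
    intro i
    have h2 := hev i 1
    rwa [mul_one, map_one, mul_one] at h2
  constructor
  · ext t
    have h2 := hev i₀ t
    rw [map_mul, ← mul_assoc, h1 i₀] at h2
    exact mul_left_cancel₀ (Units.ne_zero (b i₀)) h2
  · refine ⟨fun k => Units.map (σ : F →* F) (c k), ?_⟩
    funext i
    apply Units.ext
    rw [Pi.mul_apply, Units.val_mul, simpHom_apply, mono_map, ← h1 i]
    rfl

/-- counting the outer automorphisms when every automorphism is inner-diagonal-field -/
theorem card_out_of_diag_field [Fintype F] (D : ChevalleyDatum)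
    (hD : D ∈ [chevG2, chevB2, chevD4, chevF4, chevE6, chevE7, chevE8]) (hR : RcOK D)
    (i₀ : Fin D.rank) (Ψ : (F ≃+* F) → MulAut ↥(D.group F)) (hΨ : ∀ σ, FieldRel D (Ψ σ) σ)
    (hdec : ∀ θ : MulAut ↥(D.group F), ∃ (x : ↥(D.group F)) (d : Fin D.rank → Fˣ)
      (σ : F ≃+* F), θ = MulAut.conj x * dAut D hD hR d * Ψ σ) :
    Nat.card (Cfsg.Out ↥(D.group F)) =
      Nat.card (torusHom (F := F) D).ker * Nat.card (F ≃+* F) := by
  classical
  have hcard : Nat.card (Cfsg.Out ↥(D.group F)) =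
      Nat.card (((Fin D.rank → Fˣ) ⧸ (simpHom (F := F) D).range) × (F ≃+* F)) := by
    apply Cfsg.Agent.Lib.Helper31.card_out_of_param
      (fun s : ((Fin D.rank → Fˣ) ⧸ (simpHom (F := F) D).range) × (F ≃+* F) =>
        dAut D hD hR (Quotient.out s.1) * Ψ s.2)
    · intro θ
      obtain ⟨x, d, σ, h⟩ := hdec θ
      have hq : (QuotientGroup.mk (Quotient.out (QuotientGroup.mk d :
          (Fin D.rank → Fˣ) ⧸ (simpHom (F := F) D).range)) :
          (Fin D.rank → Fˣ) ⧸ (simpHom (F := F) D).range) = QuotientGroup.mk d :=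
        Quotient.out_eq _
      rw [QuotientGroup.eq] at hq
      obtain ⟨c, hc⟩ := hq
      have hd : d = simpHom D c * Quotient.out (QuotientGroup.mk d :
          (Fin D.rank → Fˣ) ⧸ (simpHom (F := F) D).range) := by
        rw [hc]
        rw [mul_comm, mul_inv_cancel_left]
      refine ⟨x * ⟨torusHom D c, torusHom_mem_group D hD c⟩, (QuotientGroup.mk d, σ), ?_⟩
      show θ = MulAut.conj (x * ⟨torusHom D c, torusHom_mem_group D hD c⟩) *
        (dAut D hD hR (Quotient.out (QuotientGroup.mk d :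
          (Fin D.rank → Fˣ) ⧸ (simpHom (F := F) D).range)) * Ψ σ)
      rw [map_mul, ← dAut_simpHom D hD hR c, mul_assoc, ← mul_assoc (dAut D hD hR (simpHom D c)),
        ← dAut_mul, ← hd, ← mul_assoc]
      exact h
    · rintro ⟨q, σ⟩ ⟨q', τ⟩ ⟨x, hx⟩
      obtain ⟨hστ, c, hc⟩ := diag_field_inj D hD hR i₀ _ _ σ τ _ _ (hΨ σ) (hΨ τ) x hx
      have hqq : q = q' := by
        rw [← Quotient.out_eq q, ← Quotient.out_eq q']
        apply QuotientGroup.eq.mpr
        refine ⟨c, ?_⟩
        rw [hc, inv_mul_cancel_left]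
      rw [hqq, hστ]
  rw [hcard, Nat.card_prod]
  congr 1
  have h1 := Subgroup.card_mul_index (simpHom (F := F) D).ker
  rw [Subgroup.index_ker] at h1
  have h2 := Subgroup.card_mul_index (simpHom (F := F) D).range
  have h3 : Nat.card ((Fin D.rank → Fˣ) ⧸ (simpHom (F := F) D).range) =
      (simpHom (F := F) D).range.index := rfl
  rw [h3, ← ker_simpHom D hD hR]
  have hpos : 0 < Nat.card (simpHom (F := F) D).range := Nat.card_pos
  apply Nat.eq_of_mul_eq_mul_left hpos
  rw [h2, mul_comm, h1]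

end Cfsg.Agent.Lib.Helper36
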