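import Cfsg.Agent.Lib.Helper36.ChevAutF

set_option autoImplicit false

/-!
# Automorphisms of Chevalley groups, part I

Tools valid for all types: the permutation of the fundamental root subgroups without
adjacency, the image of the Weyl elements `n_i`, and the field automorphism attached to a
normalised automorphism (torus and rank one arguments, no commutator formula).
-/

namespace Cfsg.Agent.Lib.Helper36

open Cfsg Cfsg.Lie Cfsg.Agent.Lib.Helper18

universe u

variable {F : Type u} [Field F]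

/-- positive and negative fundamental root elements of distinct nodes commute -/
def PosNegOK (D : ChevalleyDatum) (F : Type u) [Field F]
    (hD : D ∈ [chevG2, chevB2, chevD4, chevF4, chevE6, chevE7, chevE8]) : Prop :=
  ∀ i j : Fin D.rank, i ≠ j → ∀ t u : F,
    xU D hD (D.simple i.val) t * xU D hD (D.neg (D.simple j.val)) u =
      xU D hD (D.neg (D.simple j.val)) u * xU D hD (D.simple i.val) t

def posNegChk (D : ChevalleyDatum) : Bool :=
  (List.range D.rank).all fun i => (List.range D.rank).all fun j => decide (i = j) ||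
    (decide (D.neg (D.simple j) ≠ D.simple i) &&
     decide (D.neg (D.simple j) ≠ D.neg (D.simple i)) &&
     decide (D.commTerms (D.simple i) (D.neg (D.simple j)) = []))

theorem posNegOK_of_chk (D : ChevalleyDatum)
    (hD : D ∈ [chevG2, chevB2, chevD4, chevF4, chevE6, chevE7, chevE8])
    (h : posNegChk D = true) : PosNegOK D F hD := by
  simp only [posNegChk, List.all_eq_true, List.mem_range, Bool.or_eq_true, decide_eq_true_eq,
    Bool.and_eq_true] at h
  intro i j hij t u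
  rcases h i.val i.isLt j.val j.isLt with h1 | ⟨⟨h1, h2⟩, h3⟩
  · exact absurd (Fin.ext h1) hij
  · exact (comm_of_terms_nil D hD _ _ (simple_lt D hD i.val i.isLt)
      (neg_lt D hD _ (simple_lt D hD j.val j.isLt)).1 h1 h2 h3 t u).symm

/-- an automorphism stabilising `U` and `V` permutes the fundamental root subgroups and their
negatives (all types) -/
theorem StabUV.exists_perm' [Fintype F] {D : ChevalleyDatum}
    (hD : D ∈ [chevG2, chevB2, chevD4, chevF4, chevE6, chevE7, chevE8]) (hO : PosNegOK D F hD)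
    {θ : MulAut ↥(D.group F)} (h : StabUV D θ) :
    ∃ π : Fin D.rank → Fin D.rank, Function.Injective π ∧
      (∀ i, MapsSub D θ (D.rootSubgroup F (D.simple i.val))
        (D.rootSubgroup F (D.simple (π i).val))) ∧
      (∀ i, MapsSub D θ (D.rootSubgroup F (D.neg (D.simple i.val)))
        (D.rootSubgroup F (D.neg (D.simple (π i).val)))) := by
  obtain ⟨l, hl⟩ := exists_w0Word D hD
  have hsl : ∀ i : Fin D.rank, D.simple i.val < D.nroots := fun i => simple_lt D hD i.val i.isLt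
  have hnl : ∀ i : Fin D.rank, D.neg (D.simple i.val) < D.nroots :=
    fun i => (neg_lt D hD _ (hsl i)).1
  have hp := fun k => h.pos_simple hD l hl.neg hl.onto hl.into k
  have hn := fun i => h.neg_simple hD i
  have hp' := fun k => (h.inv hD).pos_simple hD l hl.neg hl.onto hl.into k
  have hn' := fun i => (h.inv hD).neg_simple hD i
  choose πp hπp using hp
  choose πn hπn using hn
  choose ρp hρp using hp'
  choose ρn hρn using hn'
  have hLp : ∀ i, ρp (πp i) = i := by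
    intro i
    have h1 := hπp i (xG D hD (D.simple i.val) 1) (xG_mem_root D hD _ _)
    have h2 := hρp (πp i) _ h1
    rw [MulAut.inv_apply_self] at h2
    obtain ⟨c, hc⟩ := (mem_rootSubgroup_iff D hD _ _).mp h2
    rw [coe_xG] at hc
    by_contra hne
    have h3 := hO (ρp (πp i)) i hne c 1
    rw [← hc] at h3
    exact not_comm_pos_neg D hD i 1 1 one_ne_zero one_ne_zero h3
  have hLn : ∀ i, ρn (πn i) = i := by
    intro i
    have h1 := hπn i (xG D hD (D.neg (D.simple i.val)) 1) (xG_mem_root D hD _ _)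
    have h2 := hρn (πn i) _ h1
    rw [MulAut.inv_apply_self] at h2
    obtain ⟨c, hc⟩ := (mem_rootSubgroup_iff D hD _ _).mp h2
    rw [coe_xG] at hc
    by_contra hne
    have h3 := hO i (ρn (πn i)) (fun e => hne e.symm) 1 c
    rw [← hc] at h3
    exact not_comm_pos_neg D hD i 1 1 one_ne_zero one_ne_zero h3
  have hinjp : Function.Injective πp := Function.LeftInverse.injective hLp
  have hinjn : Function.Injective πn := Function.LeftInverse.injective hLn
  have hsurjn : Function.Surjective πn := Finite.injective_iff_surjective.mp hinjn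
  have hB : ∀ i, πn i = πp i := by
    intro i
    obtain ⟨j, hj⟩ := hsurjn (πp i)
    by_cases hij : i = j
    · subst hij
      exact hj
    · exfalso
      obtain ⟨a, ha⟩ := (hπp i).exists_param hD (1 : F)
      obtain ⟨b, hb⟩ := (hπn j).exists_param hD (1 : F)
      have ha0 := param_ne_zero hD (hsl i) one_ne_zero ha
      have hb0 := param_ne_zero hD (hnl j) one_ne_zero hb
      have h3 : xG D hD (D.simple i.val) (1 : F) * xG D hD (D.neg (D.simple j.val)) 1 =
          xG D hD (D.neg (D.simple j.val)) 1 * xG D hD (D.simple i.val) 1 :=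
        Subtype.ext (hO i j hij 1 1)
      have h4 := congrArg θ h3
      rw [map_mul, map_mul, ha, hb, hj] at h4
      exact not_comm_pos_neg D hD (πp i) a b ha0 hb0 (congrArg Subtype.val h4)
  exact ⟨πp, hinjp, hπp, fun i => by rw [← hB i]; exact hπn i⟩

theorem reflect_simple_self (D : ChevalleyDatum) (k : ℕ) :
    D.reflectRoot k (D.simple k) = D.neg (D.simple k) := by
  simp [ChevalleyDatum.reflectRoot]

/-- `n_k x_k(t) n_k⁻¹ = x_{-k}(± t)` -/
theorem nU_conj_simple (D : ChevalleyDatum)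
    (hD : D ∈ [chevG2, chevB2, chevD4, chevF4, chevE6, chevE7, chevE8]) (k : Fin D.rank) :
    ∃ η₀ : F, (η₀ = 1 ∨ η₀ = -1) ∧ ∀ t : F,
      nU D hD k * xU D hD (D.simple k.val) t * (nU D hD k)⁻¹ =
        xU D hD (D.neg (D.simple k.val)) (η₀ * t) := by
  obtain ⟨η, hη⟩ := nU_smap (F := F) D hD k
  have hp := simple_lt D hD k.val k.isLt
  refine ⟨η (D.simple k.val), hη.sign _ hp, fun t => ?_⟩
  have e1 := hη.conjU hD _ hp t
  rw [reflect_simple_self] at e1
  rw [e1]
  group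

/-- uniqueness in the rank one Bruhat form `x_k(α) h n_k x_k(α)` -/
theorem rank_one_unique (D : ChevalleyDatum)
    (hD : D ∈ [chevG2, chevB2, chevD4, chevF4, chevE6, chevE7, chevE8]) (k : Fin D.rank)
    (α β : F) (h₁ h₂ : GL D.Idx F) (hh₁ : h₁ ∈ D.diagonalSubgroup F)
    (hh₂ : h₂ ∈ D.diagonalSubgroup F)
    (he : xU D hD (D.simple k.val) α * (h₁ * nU D hD k) * xU D hD (D.simple k.val) α =
      xU D hD (D.simple k.val) β * (h₂ * nU D hD k) * xU D hD (D.simple k.val) β) : α = β := by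
  have hS := sgnOK_all D hD
  have hp := simple_lt D hD k.val k.isLt
  obtain ⟨η₀, hη₀, hconj⟩ := nU_conj_simple (F := F) D hD k
  have hXU : ∀ t : F, xU D hD (D.simple k.val) t ∈ D.posUnipotent F := fun t =>
    Subgroup.subset_closure ⟨_, _, hS.pos_simple k.val k.isLt, coe_xU D hD _ _⟩
  have hUB : D.posUnipotent F ≤ D.borelSubgroup F := le_sup_left
  have hHB : D.diagonalSubgroup F ≤ D.borelSubgroup F := le_sup_right
  have e1 : xU D hD (D.simple k.val) β * (xU D hD (D.simple k.val) α)⁻¹ =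
      xU D hD (D.simple k.val) (β - α) := by
    rw [xU_inv, xU_mul, sub_eq_add_neg]
  have e2 : (xU D hD (D.simple k.val) β)⁻¹ * xU D hD (D.simple k.val) α =
      xU D hD (D.simple k.val) (α - β) := by
    rw [xU_inv, xU_mul, sub_eq_add_neg, add_comm]
  have key : nU D hD k * xU D hD (D.simple k.val) (β - α) * (nU D hD k)⁻¹ =
      h₂⁻¹ * xU D hD (D.simple k.val) (α - β) * h₁ := by
    rw [← e1, ← e2]
    generalize xU D hD (D.simple k.val) α = A at he ⊢
    generalize xU D hD (D.simple k.val) β = B at he ⊢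
    generalize nU (F := F) D hD k = n at he ⊢
    calc n * (B * A⁻¹) * n⁻¹ = h₂⁻¹ * B⁻¹ * (B * (h₂ * n) * B) * A⁻¹ * n⁻¹ := by group
      _ = h₂⁻¹ * B⁻¹ * (A * (h₁ * n) * A) * A⁻¹ * n⁻¹ := by rw [he]
      _ = h₂⁻¹ * (B⁻¹ * A) * h₁ := by group
  rw [hconj] at key
  have hV : xU D hD (D.neg (D.simple k.val)) (η₀ * (β - α)) ∈ D.negUnipotent F :=
    Subgroup.subset_closure ⟨_, _, hS.neg_simple k.val k.isLt, coe_xU D hD _ _⟩
  have hB : xU D hD (D.neg (D.simple k.val)) (η₀ * (β - α)) ∈ D.borelSubgroup F := by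
    rw [key]
    exact Subgroup.mul_mem _ (Subgroup.mul_mem _ (hHB (Subgroup.inv_mem _ hh₂)) (hUB (hXU _)))
      (hHB hh₁)
  have hbot : xU D hD (D.neg (D.simple k.val)) (η₀ * (β - α)) ∈
      D.borelSubgroup F ⊓ D.negUnipotent F := ⟨hB, hV⟩
  rw [(Cfsg.Agent.S1037.result (F := F) D hD).1, Subgroup.mem_bot] at hbot
  have h0 := (xU_eq_one_iff D hD _ (neg_lt D hD _ hp).1 _).mp hbot
  have hη0 : η₀ ≠ 0 := by
    rcases hη₀ with h | h <;> rw [h] <;> simp
  have h1 : β - α = 0 := by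
    rcases mul_eq_zero.mp h0 with h2 | h2
    · exact absurd h2 hη0
    · exact h2
  exact (sub_eq_zero.mp h1).symm

/-- `x_{-k}(s) = x_k(s⁻¹) (h n_k) x_k(s⁻¹)` for `s ≠ 0` -/
theorem neg_eq_bruhat (D : ChevalleyDatum)
    (hD : D ∈ [chevG2, chevB2, chevD4, chevF4, chevE6, chevE7, chevE8]) (k : Fin D.rank)
    (s : F) (hs : s ≠ 0) :
    ∃ h₁ ∈ D.diagonalSubgroup F, xU D hD (D.neg (D.simple k.val)) s =
      xU D hD (D.simple k.val) s⁻¹ * (h₁ * nU D hD k) * xU D hD (D.simple k.val) s⁻¹ := by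
  have hp := simple_lt D hD k.val k.isLt
  obtain ⟨h₁, hh₁, hh₁v⟩ := exists_hU (F := F) D hD _ hp (-s⁻¹)
    (neg_ne_zero.mpr (inv_ne_zero hs))
  refine ⟨h₁, hh₁, ?_⟩
  apply Units.ext
  rw [Units.val_mul, Units.val_mul, Units.val_mul, coe_xU, coe_xU, hh₁v, coe_nU]
  exact x_neg_eq D hD _ hp s

/-- the image of `n_i` under an automorphism stabilising `U`, `V` and mapping `X_{±α_i}` to
`X_{±α_k}` lies in `H n_k` -/
theorem StabUV.map_nG [Fintype F] {D : ChevalleyDatum}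
    (hD : D ∈ [chevG2, chevB2, chevD4, chevF4, chevE6, chevE7, chevE8])
    {θ : MulAut ↥(D.group F)} (h : StabUV D θ) (i k : Fin D.rank)
    (hpos : MapsSub D θ (D.rootSubgroup F (D.simple i.val)) (D.rootSubgroup F (D.simple k.val)))
    (hneg : MapsSub D θ (D.rootSubgroup F (D.neg (D.simple i.val)))
      (D.rootSubgroup F (D.neg (D.simple k.val))))
    (hsc : ∃ (u₀ : F) (h₀ : GL D.Idx F), u₀ ≠ 0 ∧ u₀ ≠ 1 ∧ h₀ ∈ D.diagonalSubgroup F ∧
      ∀ t : F, h₀ * xU D hD (D.simple k.val) t * h₀⁻¹ = xU D hD (D.simple k.val) (u₀ * t)) :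
    ∃ h₁ ∈ D.diagonalSubgroup F,
      ((θ (nG D hD i) : ↥(D.group F)) : GL D.Idx F) = h₁ * nU D hD k := by
  have hS := sgnOK_all D hD
  have hsk := simple_lt D hD k.val k.isLt
  have hsi := simple_lt D hD i.val i.isLt
  obtain ⟨n₀, hn₀⟩ := exists_isW0 (F := F) D hD
  have hdiag := h.diag hD n₀ hn₀
  have hdiag' := (h.inv hD).diag hD n₀ hn₀
  obtain ⟨t₁, ht₁⟩ := hpos.exists_param hD (1 : F)
  obtain ⟨s, hs⟩ := hneg.exists_param hD (-(1 : F)⁻¹)
  have hs0 : s ≠ 0 := param_ne_zero hD (neg_lt D hD _ hsi).1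
    (neg_ne_zero.mpr (inv_ne_zero (one_ne_zero (α := F)))) hs
  have e1 : nG D hD i = xG D hD (D.simple i.val) (1 : F) *
      xG D hD (D.neg (D.simple i.val)) (-(1 : F)⁻¹) *
      xG D hD (D.simple i.val) (1 : F) := Subtype.ext (nU_eq_xU D hD i)
  have e2 : θ (nG D hD i) = xG D hD (D.simple k.val) t₁ * xG D hD (D.neg (D.simple k.val)) s *
      xG D hD (D.simple k.val) t₁ := by
    rw [e1, map_mul, map_mul, ht₁, hs]
  obtain ⟨h₁, hh₁, e3⟩ := neg_eq_bruhat D hD k s hs0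
  have e4 : ((θ (nG D hD i) : ↥(D.group F)) : GL D.Idx F) =
      xU D hD (D.simple k.val) (t₁ + s⁻¹) * (h₁ * nU D hD k) *
        xU D hD (D.simple k.val) (t₁ + s⁻¹) := by
    rw [e2]
    show xU D hD (D.simple k.val) t₁ * xU D hD (D.neg (D.simple k.val)) s *
      xU D hD (D.simple k.val) t₁ = _
    rw [e3]
    have e5 : xU D hD (D.simple k.val) (t₁ + s⁻¹) =
        xU D hD (D.simple k.val) t₁ * xU D hD (D.simple k.val) s⁻¹ := (xU_mul D hD _ _ _).symm
    have e6 : xU D hD (D.simple k.val) (t₁ + s⁻¹) =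
        xU D hD (D.simple k.val) s⁻¹ * xU D hD (D.simple k.val) t₁ := by
      rw [xU_mul, add_comm]
    have e7 : ∀ (A S M : GL D.Idx F), A * (S * M * S) * A = (A * S) * M * (S * A) := by
      intro A S M
      group
    rw [e7, ← e5, ← e6]
  obtain ⟨u₀, h₀, hu0, hu1, hh₀, hconj⟩ := hsc
  have hm : ((θ (nG D hD i) : ↥(D.group F)) : GL D.Idx F) * h₀ *
      ((θ (nG D hD i) : ↥(D.group F)) : GL D.Idx F)⁻¹ ∈ D.diagonalSubgroup F := by
    have hh₀G := diagonalSubgroup_le_group D hD hh₀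
    have h1 := hdiag' ⟨h₀, hh₀G⟩ hh₀
    have h2 : ((nG D hD i * θ⁻¹ ⟨h₀, hh₀G⟩ * (nG D hD i)⁻¹ : ↥(D.group F)) : GL D.Idx F) ∈
        D.diagonalSubgroup F :=
      conj_mem_of_mem_normalizer _ (nU_mem_normalizer D hD i) h1
    have h3 := hdiag _ h2
    rw [map_mul, map_mul, map_inv, MulAut.apply_inv_self] at h3
    exact h3
  obtain ⟨η₀, hη₀, hnconj⟩ := nU_conj_simple (F := F) D hD k
  have hXU : ∀ t : F, xU D hD (D.simple k.val) t ∈ D.posUnipotent F := fun t =>
    Subgroup.subset_closure ⟨_, _, hS.pos_simple k.val k.isLt, coe_xU D hD _ _⟩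
  have hUB : D.posUnipotent F ≤ D.borelSubgroup F := le_sup_left
  have hHB : D.diagonalSubgroup F ≤ D.borelSubgroup F := le_sup_right
  have hh₀' : nU D hD k * h₀ * (nU D hD k)⁻¹ ∈ D.diagonalSubgroup F :=
    conj_mem_of_mem_normalizer _ (nU_mem_normalizer D hD k) hh₀
  -- `x_k(d) h₀ x_k(d)⁻¹ = h₀ x_k((u₀⁻¹ - 1) d)`
  have A1 : xU D hD (D.simple k.val) (t₁ + s⁻¹) * h₀ * (xU D hD (D.simple k.val) (t₁ + s⁻¹))⁻¹ =
      h₀ * xU D hD (D.simple k.val) ((u₀⁻¹ - 1) * (t₁ + s⁻¹)) := by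
    have e7 := hconj (u₀⁻¹ * (t₁ + s⁻¹))
    rw [← mul_assoc, mul_inv_cancel₀ hu0, one_mul] at e7
    have e8 : xU D hD (D.simple k.val) ((u₀⁻¹ - 1) * (t₁ + s⁻¹)) =
        xU D hD (D.simple k.val) (u₀⁻¹ * (t₁ + s⁻¹)) *
          (xU D hD (D.simple k.val) (t₁ + s⁻¹))⁻¹ := by
      rw [xU_inv, xU_mul]
      congr 1
      ring
    rw [e8, ← e7]
    group
  have key : xU D hD (D.neg (D.simple k.val)) (η₀ * ((u₀⁻¹ - 1) * (t₁ + s⁻¹))) =
      (h₁ * (nU D hD k * h₀ * (nU D hD k)⁻¹))⁻¹ * (xU D hD (D.simple k.val) (t₁ + s⁻¹))⁻¹ *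
        (((θ (nG D hD i) : ↥(D.group F)) : GL D.Idx F) * h₀ *
          ((θ (nG D hD i) : ↥(D.group F)) : GL D.Idx F)⁻¹) *
        xU D hD (D.simple k.val) (t₁ + s⁻¹) * h₁ := by
    rw [e4, ← hnconj]
    generalize xU D hD (D.simple k.val) (t₁ + s⁻¹) = A at A1 ⊢
    generalize xU D hD (D.simple k.val) ((u₀⁻¹ - 1) * (t₁ + s⁻¹)) = E at A1 ⊢
    generalize nU (F := F) D hD k = n
    have e9 : A * (h₁ * n) * A * h₀ * (A * (h₁ * n) * A)⁻¹ =
        A * h₁ * ((n * h₀ * n⁻¹) * (n * E * n⁻¹)) * h₁⁻¹ * A⁻¹ := by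
      calc A * (h₁ * n) * A * h₀ * (A * (h₁ * n) * A)⁻¹
          = A * h₁ * n * (A * h₀ * A⁻¹) * n⁻¹ * h₁⁻¹ * A⁻¹ := by group
        _ = A * h₁ * n * (h₀ * E) * n⁻¹ * h₁⁻¹ * A⁻¹ := by rw [A1]
        _ = A * h₁ * ((n * h₀ * n⁻¹) * (n * E * n⁻¹)) * h₁⁻¹ * A⁻¹ := by group
    rw [e9]
    group
  have hV : xU D hD (D.neg (D.simple k.val)) (η₀ * ((u₀⁻¹ - 1) * (t₁ + s⁻¹))) ∈
      D.negUnipotent F :=
    Subgroup.subset_closure ⟨_, _, hS.neg_simple k.val k.isLt, coe_xU D hD _ _⟩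
  have hB : xU D hD (D.neg (D.simple k.val)) (η₀ * ((u₀⁻¹ - 1) * (t₁ + s⁻¹))) ∈
      D.borelSubgroup F := by
    rw [key]
    refine Subgroup.mul_mem _ (Subgroup.mul_mem _ (Subgroup.mul_mem _ (Subgroup.mul_mem _ ?_ ?_)
      (hHB hm)) (hUB (hXU _))) (hHB hh₁)
    · exact hHB (Subgroup.inv_mem _ (Subgroup.mul_mem _ hh₁ hh₀'))
    · exact hUB (Subgroup.inv_mem _ (hXU _))
  have hbot : xU D hD (D.neg (D.simple k.val)) (η₀ * ((u₀⁻¹ - 1) * (t₁ + s⁻¹))) ∈
      D.borelSubgroup F ⊓ D.negUnipotent F := ⟨hB, hV⟩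
  rw [(Cfsg.Agent.S1037.result (F := F) D hD).1, Subgroup.mem_bot] at hbot
  have h0 := (xU_eq_one_iff D hD _ (neg_lt D hD _ hsk).1 _).mp hbot
  have hu : u₀⁻¹ - 1 ≠ 0 := by
    intro e
    apply hu1
    have e' : u₀⁻¹ = 1 := sub_eq_zero.mp e
    exact inv_eq_one.mp e'
  have hd : t₁ + s⁻¹ = 0 := by
    have hη0 : η₀ ≠ 0 := by
      rcases hη₀ with h | h <;> rw [h] <;> simp
    have h1 : (u₀⁻¹ - 1) * (t₁ + s⁻¹) = 0 := by
      rcases mul_eq_zero.mp h0 with h2 | h2
      · exact absurd h2 hη0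
      · exact h2
    rcases mul_eq_zero.mp h1 with h2 | h2
    · exact absurd h2 hu
    · exact h2
  refine ⟨h₁, hh₁, ?_⟩
  rw [e4, hd, Cfsg.Agent.Lib.Helper18.xU_zero, one_mul, mul_one]

/-- transport of root subgroups through fundamental reflections -/
theorem MapsSub.reflect {D : ChevalleyDatum}
    (hD : D ∈ [chevG2, chevB2, chevD4, chevF4, chevE6, chevE7, chevE8])
    {θ : MulAut ↥(D.group F)} (j k : Fin D.rank) (r r' : ℕ) (hr : r < D.nroots)
    (hr' : r' < D.nroots)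
    (hn : ∃ h₁ ∈ D.diagonalSubgroup F,
      ((θ (nG D hD j) : ↥(D.group F)) : GL D.Idx F) = h₁ * nU D hD k)
    (hm : MapsSub D θ (D.rootSubgroup F r) (D.rootSubgroup F r')) :
    MapsSub D θ (D.rootSubgroup F (D.reflectRoot j.val r))
      (D.rootSubgroup F (D.reflectRoot k.val r')) := by
  obtain ⟨η, hη⟩ := nU_smap (F := F) D hD j
  obtain ⟨η', hη'⟩ := nU_smap (F := F) D hD k
  obtain ⟨h₁, hh₁, hn1⟩ := hn
  rw [diagonalSubgroup_eq_range D hD] at hh₁
  obtain ⟨c, hc⟩ := hh₁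
  intro y hy
  obtain ⟨t, ht⟩ := (mem_rootSubgroup_iff D hD _ _).mp hy
  have hsq : η r * (η r * t) = t := by
    rcases hη.sign r hr with h | h <;> rw [h] <;> simp
  have e1 : y = nG D hD j * xG D hD r (η r * t) * (nG D hD j)⁻¹ := by
    apply Subtype.ext
    show (y : GL D.Idx F) = nU D hD j * xU D hD r (η r * t) * (nU D hD j)⁻¹
    rw [hη.conjU hD r hr, hsq, ht]
    group
  obtain ⟨a, ha⟩ := hm.exists_param hD (η r * t)
  have e2 : ((θ y : ↥(D.group F)) : GL D.Idx F) =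
      xU D hD (D.reflectRoot k.val r')
        (chiL D (cx D c) (List.range D.rank) (D.reflectRoot k.val r') * (η' r' * a)) := by
    rw [e1, map_mul, map_mul, map_inv, ha]
    show ((θ (nG D hD j) : ↥(D.group F)) : GL D.Idx F) * xU D hD r' a *
      ((θ (nG D hD j) : ↥(D.group F)) : GL D.Idx F)⁻¹ = _
    rw [hn1, ← torus_conj D hD c _ (hη'.lt r' hr'), hc]
    have e3 := hη'.conjU hD r' hr' a
    generalize xU D hD (D.reflectRoot k.val r') (η' r' * a) = B at e3 ⊢
    generalize xU D hD r' a = A at e3 ⊢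
    generalize nU (F := F) D hD k = n at e3 ⊢
    calc h₁ * n * A * (h₁ * n)⁻¹ = h₁ * (n * A) * n⁻¹ * h₁⁻¹ := by group
      _ = h₁ * (B * n) * n⁻¹ * h₁⁻¹ := by rw [e3]
      _ = h₁ * B * h₁⁻¹ := by group
  rw [e2]
  exact (mem_rootSubgroup_iff D hD _ _).mpr ⟨_, rfl⟩

/-- the parameter along a reflected root subgroup -/
theorem reflect_param {D : ChevalleyDatum}
    (hD : D ∈ [chevG2, chevB2, chevD4, chevF4, chevE6, chevE7, chevE8])
    {θ : MulAut ↥(D.group F)} (j : Fin D.rank) (r : ℕ) (hr : r < D.nroots) (f : F → F)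
    (hf : ∀ t, θ (xG D hD r t) = xG D hD r (f t)) (hfneg : ∀ t, f (-t) = -f t)
    (hn : ∃ h₁ ∈ D.diagonalSubgroup F,
      ((θ (nG D hD j) : ↥(D.group F)) : GL D.Idx F) = h₁ * nU D hD j) :
    ∃ κ : F, κ ≠ 0 ∧ ∀ t, θ (xG D hD (D.reflectRoot j.val r) t) =
      xG D hD (D.reflectRoot j.val r) (κ * f t) := by
  obtain ⟨η, hη⟩ := nU_smap (F := F) D hD j
  obtain ⟨h₁, hh₁, hn1⟩ := hn
  rw [diagonalSubgroup_eq_range D hD] at hh₁
  obtain ⟨c, hc⟩ := hh₁
  refine ⟨chiL D (cx D c) (List.range D.rank) (D.reflectRoot j.val r),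
    chiL_ne_zero D _ _ (fun i _ => cx_ne_zero D c i) _, fun t => ?_⟩
  have hsq : η r * (η r * t) = t := by
    rcases hη.sign r hr with h | h <;> rw [h] <;> simp
  have hsq' : η r * f (η r * t) = f t := by
    rcases hη.sign r hr with h | h <;> rw [h]
    · rw [one_mul, one_mul]
    · rw [neg_one_mul, neg_one_mul, hfneg, neg_neg]
  have e1 : xG D hD (D.reflectRoot j.val r) t =
      nG D hD j * xG D hD r (η r * t) * (nG D hD j)⁻¹ := by
    apply Subtype.ext
    show xU D hD (D.reflectRoot j.val r) t = nU D hD j * xU D hD r (η r * t) * (nU D hD j)⁻¹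
    rw [hη.conjU hD r hr, hsq]
    group
  apply Subtype.ext
  rw [e1, map_mul, map_mul, map_inv, hf]
  show ((θ (nG D hD j) : ↥(D.group F)) : GL D.Idx F) * xU D hD r (f (η r * t)) *
    ((θ (nG D hD j) : ↥(D.group F)) : GL D.Idx F)⁻¹ = xU D hD (D.reflectRoot j.val r) _
  rw [hn1, ← hsq', ← torus_conj D hD c _ (hη.lt r hr), hc]
  have e3 := hη.conjU hD r hr (f (η r * t))
  generalize xU D hD (D.reflectRoot j.val r) (η r * f (η r * t)) = B at e3 ⊢
  generalize xU D hD r (f (η r * t)) = A at e3 ⊢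
  generalize nU (F := F) D hD j = n at e3 ⊢
  calc h₁ * n * A * (h₁ * n)⁻¹ = h₁ * (n * A) * n⁻¹ * h₁⁻¹ := by group
    _ = h₁ * (B * n) * n⁻¹ * h₁⁻¹ := by rw [e3]
    _ = h₁ * B * h₁⁻¹ := by group

theorem chiL_of_add (D : ChevalleyDatum) (c : ℕ → F) (l : List ℕ) (hc : ∀ k ∈ l, c k ≠ 0)
    (s r r' : ℕ) (h : ∀ k ∈ l, D.cartan k s = D.cartan k r + D.cartan k r') :
    chiL D c l s = chiL D c l r * chiL D c l r' := by
  induction l with
  | nil => simp [chiL]
  | cons a l ih =>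
    have ih' := ih (fun k hk => hc k (by simp [hk])) (fun k hk => h k (by simp [hk]))
    simp only [chiL, List.map_cons, List.prod_cons] at ih' ⊢
    rw [h a (by simp), zpow_add₀ (hc a (by simp)), ih']
    ring

/-- the link between two adjacent nodes: `s_j(α_i) = α_i + α_j` -/
def LinkOK (D : ChevalleyDatum) (i j : ℕ) : Prop :=
  ∀ k < D.rank, D.cartan k (D.reflectRoot j (D.simple i)) =
    D.cartan k (D.simple i) + D.cartan k (D.simple j)

instance (D : ChevalleyDatum) (i j : ℕ) : Decidable (LinkOK D i j) := by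
  unfold LinkOK
  infer_instance

end Cfsg.Agent.Lib.Helper36
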