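import Cfsg.Agent.Lib.Helper36.ChevAutI

set_option autoImplicit false

/-!
# Automorphisms of Chevalley groups, part J

The field automorphism attached to a normalised automorphism, by torus and rank one arguments
(valid for all types, no commutator formula).
-/

namespace Cfsg.Agent.Lib.Helper36

open Cfsg Cfsg.Lie Cfsg.Agent.Lib.Helper18

universe u

variable {F : Type u} [Field F]

/-- the character of the image of a torus element on a root whose root subgroup is mapped to
itself through `t ↦ κ φ(t)` -/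
theorem torus_char_image {D : ChevalleyDatum}
    (hD : D ∈ [chevG2, chevB2, chevD4, chevF4, chevE6, chevE7, chevE8])
    {θ : MulAut ↥(D.group F)} (c c' : Fin D.rank → Fˣ)
    (hG : torusHom (F := F) D c ∈ D.group F)
    (hcc : ((θ ⟨torusHom D c, hG⟩ : ↥(D.group F)) : GL D.Idx F) = torusHom D c')
    (r : ℕ) (hr : r < D.nroots) (κ : F) (hκ : κ ≠ 0) (φ : F → F) (hφ1 : φ 1 = 1)
    (hθ : ∀ t, θ (xG D hD r t) = xG D hD r (κ * φ t)) :
    chiL D (cx D c') (List.range D.rank) r = φ (chiL D (cx D c) (List.range D.rank) r) := by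
  have e1 : (⟨torusHom D c, hG⟩ : ↥(D.group F)) * xG D hD r 1 *
      (⟨torusHom D c, hG⟩ : ↥(D.group F))⁻¹ =
      xG D hD r (chiL D (cx D c) (List.range D.rank) r * 1) :=
    Subtype.ext (torus_conj D hD c r hr 1)
  have e2 := congrArg θ e1
  rw [map_mul, map_mul, map_inv, hθ, hθ] at e2
  have e3 : ((θ ⟨torusHom D c, hG⟩ : ↥(D.group F)) : GL D.Idx F) * xU D hD r (κ * φ 1) *
      ((θ ⟨torusHom D c, hG⟩ : ↥(D.group F)) : GL D.Idx F)⁻¹ =
      xU D hD r (κ * φ (chiL D (cx D c) (List.range D.rank) r * 1)) := congrArg Subtype.val e2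
  rw [hcc, torus_conj D hD c' r hr] at e3
  have e4 := xU_injective D hD r hr _ _ e3
  rw [hφ1, mul_one, mul_one, mul_comm] at e4
  exact mul_left_cancel₀ hκ e4

/-- a normalised automorphism stabilising `U`, `V` and the fundamental root subgroups acts on the
fundamental root elements and their negatives through a field automorphism (all types) -/
theorem StabUV.field_of_normalized' [Fintype F] {D : ChevalleyDatum}
    (hD : D ∈ [chevG2, chevB2, chevD4, chevF4, chevE6, chevE7, chevE8])
    (hY : DynOK D)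
    (hlink : ∀ i j : Fin D.rank, i ≠ j → D.cartan i.val (D.simple j.val) ≠ 0 →
      LinkOK D i.val j.val ∨ LinkOK D j.val i.val)
    (hscale : ∀ (i : Fin D.rank) (u : F), u ≠ 0 → ∃ h ∈ D.diagonalSubgroup F, ∀ t : F,
      h * xU D hD (D.simple i.val) t * h⁻¹ = xU D hD (D.simple i.val) (u * t))
    (hq : ∃ u₀ : F, u₀ ≠ 0 ∧ u₀ ≠ 1)
    {θ : MulAut ↥(D.group F)} (h : StabUV D θ)
    (hpos : ∀ i : Fin D.rank, MapsSub D θ (D.rootSubgroup F (D.simple i.val))
      (D.rootSubgroup F (D.simple i.val)))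
    (hneg : ∀ i : Fin D.rank, MapsSub D θ (D.rootSubgroup F (D.neg (D.simple i.val)))
      (D.rootSubgroup F (D.neg (D.simple i.val))))
    (hnorm : ∀ i : Fin D.rank, θ (xG D hD (D.simple i.val) 1) = xG D hD (D.simple i.val) 1) :
    ∃ σ : F ≃+* F, ∀ (i : Fin D.rank) (t : F),
      θ (xG D hD (D.simple i.val) t) = xG D hD (D.simple i.val) (σ t) ∧
      θ (xG D hD (D.neg (D.simple i.val)) t) = xG D hD (D.neg (D.simple i.val)) (σ t) := by
  have hsl : ∀ i : Fin D.rank, D.simple i.val < D.nroots := fun i => simple_lt D hD i.val i.isLt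
  have hnl : ∀ i : Fin D.rank, D.neg (D.simple i.val) < D.nroots :=
    fun i => (neg_lt D hD _ (hsl i)).1
  obtain ⟨n₀, hn₀⟩ := exists_isW0 (F := F) D hD
  have hdiag := h.diag hD n₀ hn₀
  choose f hf using fun (i : Fin D.rank) (t : F) => (hpos i).exists_param hD t
  choose g hg using fun (i : Fin D.rank) (t : F) => (hneg i).exists_param hD t
  have xG_inj : ∀ (r : ℕ) (_ : r < D.nroots) (a b : F), xG D hD r a = xG D hD r b → a = b :=
    fun r hr a b e => xU_injective D hD r hr a b (congrArg Subtype.val e)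
  have hf1 : ∀ i, f i 1 = 1 := by
    intro i
    have h1 := hf i 1
    rw [hnorm i] at h1
    exact (xG_inj _ (hsl i) _ _ h1).symm
  have hfadd : ∀ i s t, f i (s + t) = f i s + f i t := by
    intro i s t
    have h1 := hf i (s + t)
    rw [← xG_mul, map_mul, hf, hf, xG_mul] at h1
    exact (xG_inj _ (hsl i) _ _ h1).symm
  have hf0 : ∀ i, f i 0 = 0 := by
    intro i
    have h1 := hfadd i 0 0
    rw [add_zero] at h1
    exact add_eq_left.mp h1.symm
  have hfneg : ∀ i t, f i (-t) = -f i t := by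
    intro i t
    have h1 := hfadd i (-t) t
    rw [neg_add_cancel, hf0] at h1
    exact eq_neg_of_add_eq_zero_left h1.symm
  have hfmul : ∀ i u t, f i (u * t) = f i u * f i t := by
    intro i u t
    by_cases hu : u = 0
    · rw [hu, zero_mul, hf0, zero_mul]
    · obtain ⟨hh, hhH, hconj⟩ := hscale i u hu
      have hhG := diagonalSubgroup_le_group D hD hhH
      have h1 := hdiag ⟨hh, hhG⟩ hhH
      rw [diagonalSubgroup_eq_range D hD] at h1
      obtain ⟨c', hc'⟩ := h1
      have hm : ∀ s : F, ((θ ⟨hh, hhG⟩ : ↥(D.group F)) : GL D.Idx F) *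
          xU D hD (D.simple i.val) s * ((θ ⟨hh, hhG⟩ : ↥(D.group F)) : GL D.Idx F)⁻¹ =
          xU D hD (D.simple i.val)
            (chiL D (cx D c') (List.range D.rank) (D.simple i.val) * s) := by
        intro s
        rw [← hc']
        exact torus_conj D hD c' _ (hsl i) s
      have key : ∀ t' : F, f i (u * t') =
          chiL D (cx D c') (List.range D.rank) (D.simple i.val) * f i t' := by
        intro t'
        have e1 : (⟨hh, hhG⟩ : ↥(D.group F)) * xG D hD (D.simple i.val) t' *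
            (⟨hh, hhG⟩ : ↥(D.group F))⁻¹ = xG D hD (D.simple i.val) (u * t') :=
          Subtype.ext (hconj t')
        have e2 := congrArg θ e1
        rw [map_mul, map_mul, map_inv, hf, hf] at e2
        have e3 : ((θ ⟨hh, hhG⟩ : ↥(D.group F)) : GL D.Idx F) *
            xU D hD (D.simple i.val) (f i t') * ((θ ⟨hh, hhG⟩ : ↥(D.group F)) : GL D.Idx F)⁻¹ =
            xU D hD (D.simple i.val) (f i (u * t')) := congrArg Subtype.val e2
        exact xU_injective D hD _ (hsl i) _ _ (e3.symm.trans (hm (f i t')))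
      have k1 := key 1
      rw [mul_one, hf1, mul_one] at k1
      rw [key t, ← k1]
  have hN : ∀ i : Fin D.rank, ∃ h₁ ∈ D.diagonalSubgroup F,
      ((θ (nG D hD i) : ↥(D.group F)) : GL D.Idx F) = h₁ * nU D hD i := by
    intro i
    obtain ⟨u₀, hu0, hu1⟩ := hq
    obtain ⟨h₀, hh₀, hc⟩ := hscale i u₀ hu0
    exact h.map_nG hD i i (hpos i) (hneg i) ⟨u₀, h₀, hu0, hu1, hh₀, hc⟩
  have hlk : ∀ i j : Fin D.rank, LinkOK D i.val j.val → ∀ a, f i a = f j a := by
    intro i j hL a
    by_cases ha : a = 0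
    · rw [ha, hf0, hf0]
    obtain ⟨η, hη⟩ := nU_smap (F := F) D hD j
    obtain ⟨κ, hκ, hs⟩ := reflect_param hD j (D.simple i.val) (hsl i) (f i) (hf i) (hfneg i)
      (hN j)
    obtain ⟨hh, hhH, hconj⟩ := hscale j a ha
    have hhG := diagonalSubgroup_le_group D hD hhH
    have h1 := hdiag ⟨hh, hhG⟩ hhH
    rw [diagonalSubgroup_eq_range D hD] at h1 hhH
    obtain ⟨c', hc'⟩ := h1
    obtain ⟨c, hc⟩ := hhH
    subst hc
    have hχj : chiL D (cx D c) (List.range D.rank) (D.simple j.val) = a := by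
      have e1 := torus_conj D hD c _ (hsl j) (1 : F)
      rw [hconj 1] at e1
      have e2 := xU_injective D hD _ (hsl j) _ _ e1
      rw [mul_one, mul_one] at e2
      exact e2.symm
    have k1 := torus_char_image hD c c' hhG hc'.symm _ (hsl i) 1 one_ne_zero (f i) (hf1 i)
      (by intro t; rw [one_mul]; exact hf i t)
    have k2 := torus_char_image hD c c' hhG hc'.symm _ (hsl j) 1 one_ne_zero (f j) (hf1 j)
      (by intro t; rw [one_mul]; exact hf j t)
    have k3 := torus_char_image hD c c' hhG hc'.symm _ (hη.lt _ (hsl i)) κ hκ (f i) (hf1 i) hs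
    have a1 := chiL_of_add D (cx D c) (List.range D.rank) (fun k _ => cx_ne_zero D c k) _ _ _
      (fun k hk => hL k (List.mem_range.mp hk))
    have a2 := chiL_of_add D (cx D c') (List.range D.rank) (fun k _ => cx_ne_zero D c' k) _ _ _
      (fun k hk => hL k (List.mem_range.mp hk))
    rw [a1, a2, k1, k2, hfmul, hχj] at k3
    have hne : f i (chiL D (cx D c) (List.range D.rank) (D.simple i.val)) ≠ 0 := by
      intro e0
      have e1 := hfmul i (chiL D (cx D c) (List.range D.rank) (D.simple i.val))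
        (chiL D (cx D c) (List.range D.rank) (D.simple i.val))⁻¹
      rw [mul_inv_cancel₀ (chiL_ne_zero D _ _ (fun k _ => cx_ne_zero D c k) _), hf1, e0,
        zero_mul] at e1
      exact one_ne_zero e1
    exact (mul_left_cancel₀ hne k3).symm
  have hadjeq : ∀ i j : Fin D.rank, i ≠ j → D.cartan i.val (D.simple j.val) ≠ 0 →
      ∀ a, f i a = f j a := by
    intro i j hij hc a
    rcases hlink i j hij hc with hL | hL
    · exact hlk i j hL a
    · exact (hlk j i hL a).symm
  obtain ⟨i₀, hi₀, hconn⟩ := hY.conn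
  have hall : ∀ (i : Fin D.rank) (a : F), f i a = f ⟨i₀, hi₀⟩ a := by
    have h1 := hconn (fun k => ∀ hk : k < D.rank, ∀ a, f ⟨k, hk⟩ a = f ⟨i₀, hi₀⟩ a) (by
      intro c par hc hp hne hcart hQ hk a
      rw [← hQ hp a]
      exact (hadjeq ⟨par, hp⟩ ⟨c, hc⟩ (fun e => hne (congrArg Fin.val e).symm) hcart a).symm)
      (fun _ _ => rfl)
    exact fun i => h1 i.val i.isLt i.isLt
  let σ₀ : F →+* F :=
    { toFun := f ⟨i₀, hi₀⟩
      map_one' := hf1 _
      map_mul' := hfmul _
      map_zero' := hf0 _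
      map_add' := hfadd _ }
  have hσ : ∀ (i : Fin D.rank) (a : F), f i a = σ₀ a := hall
  refine ⟨RingEquiv.ofBijective σ₀
    ⟨σ₀.injective, Finite.injective_iff_surjective.mp σ₀.injective⟩, fun i t => ⟨?_, ?_⟩⟩
  · rw [hf, hσ]
    rfl
  · rw [hg]
    congr 1
    show g i t = σ₀ t
    by_cases ht : t = 0
    · subst ht
      have h1 := hg i 0
      have h0 : xG D hD (D.neg (D.simple i.val)) (0 : F) = 1 :=
        Subtype.ext (Cfsg.Agent.Lib.Helper18.xU_zero D hD _)
      rw [h0, map_one] at h1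
      have e := xG_inj _ (hnl i) _ _ (h0.trans h1)
      rw [← e, map_zero]
    · have hgt : g i t ≠ 0 := param_ne_zero hD (hnl i) ht (hg i t)
      obtain ⟨h₁, hh₁, e1⟩ := neg_eq_bruhat D hD i t ht
      obtain ⟨h₃, hh₃, e3⟩ := neg_eq_bruhat D hD i (g i t) hgt
      obtain ⟨h₂, hh₂, e2⟩ := hN i
      have hh₁G := diagonalSubgroup_le_group D hD hh₁
      have e4 : xG D hD (D.neg (D.simple i.val)) t = xG D hD (D.simple i.val) t⁻¹ *
          ((⟨h₁, hh₁G⟩ : ↥(D.group F)) * nG D hD i) * xG D hD (D.simple i.val) t⁻¹ :=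
        Subtype.ext e1
      have e5 := congrArg θ e4
      rw [hg, map_mul, map_mul, map_mul, hf] at e5
      have e6 : xU D hD (D.simple i.val) (g i t)⁻¹ * (h₃ * nU D hD i) *
          xU D hD (D.simple i.val) (g i t)⁻¹ =
          xU D hD (D.simple i.val) (f i t⁻¹) *
            ((((θ ⟨h₁, hh₁G⟩ : ↥(D.group F)) : GL D.Idx F) * h₂) * nU D hD i) *
            xU D hD (D.simple i.val) (f i t⁻¹) := by
        rw [← e3, mul_assoc _ h₂, ← e2]
        exact congrArg Subtype.val e5
      have hm := Subgroup.mul_mem _ (hdiag ⟨h₁, hh₁G⟩ hh₁) hh₂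
      have e7 := rank_one_unique D hD i _ _ _ _ hh₃ hm e6
      rw [hσ, map_inv₀] at e7
      exact inv_injective e7

end Cfsg.Agent.Lib.Helper36
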