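import Cfsg.Agent.Lib.Helper36.ChevAutJ
import Cfsg.Agent.Lib.Helper36.ChevAutG

set_option autoImplicit false

/-!
# Automorphisms of Chevalley groups, part K

With an injective torus, an automorphism stabilising `U`, `V` and the fundamental root subgroups
is the product of an inner and a field automorphism (all types, field with more than two
elements).  Inner automorphisms stabilising `U` and `V` fix the fundamental root subgroups.
-/

namespace Cfsg.Agent.Lib.Helper36

open Cfsg Cfsg.Lie Cfsg.Agent.Lib.Helper18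

universe u

variable {F : Type u} [Field F]

/-- with an injective torus, an automorphism stabilising `U`, `V` and the fundamental root
subgroups is the product of an inner and a field automorphism -/
theorem StabUV.eq_conj_field' [Fintype F] {D : ChevalleyDatum}
    (hD : D ∈ [chevG2, chevB2, chevD4, chevF4, chevE6, chevE7, chevE8])
    (hY : DynOK D)
    (hlink : ∀ i j : Fin D.rank, i ≠ j → D.cartan i.val (D.simple j.val) ≠ 0 →
      LinkOK D i.val j.val ∨ LinkOK D j.val i.val)
    (hq : ∃ u₀ : F, u₀ ≠ 0 ∧ u₀ ≠ 1)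
    (hT : Function.Injective (torusHom (F := F) D))
    {θ : MulAut ↥(D.group F)} (h : StabUV D θ)
    (hpos : ∀ i : Fin D.rank, MapsSub D θ (D.rootSubgroup F (D.simple i.val))
      (D.rootSubgroup F (D.simple i.val)))
    (hneg : ∀ i : Fin D.rank, MapsSub D θ (D.rootSubgroup F (D.neg (D.simple i.val)))
      (D.rootSubgroup F (D.neg (D.simple i.val)))) :
    ∃ (x : ↥(D.group F)) (σ : F ≃+* F), ∀ φ : MulAut ↥(D.group F), FieldRel D φ σ →
      θ = MulAut.conj x * φ := by
  have hsl : ∀ i : Fin D.rank, D.simple i.val < D.nroots := fun i => simple_lt D hD i.val i.isLt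
  have hnl : ∀ i : Fin D.rank, D.neg (D.simple i.val) < D.nroots :=
    fun i => (neg_lt D hD _ (hsl i)).1
  -- scaling by torus elements
  have hscale : ∀ (i : Fin D.rank) (u : F), u ≠ 0 → ∃ h ∈ D.diagonalSubgroup F, ∀ t : F,
      h * xU D hD (D.simple i.val) t * h⁻¹ = xU D hD (D.simple i.val) (u * t) := by
    intro i u hu
    obtain ⟨c, hc⟩ := exists_torus_of_injective D hD hT (fun _ => Units.mk0 u hu)
    refine ⟨torusHom D c, ?_, fun t => ?_⟩
    · rw [diagonalSubgroup_eq_range D hD]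
      exact ⟨c, rfl⟩
    · rw [torus_conj D hD c _ (hsl i) t, hc i]
      rfl
  -- normalisation
  choose a ha using fun i : Fin D.rank => (hpos i).exists_param hD (1 : F)
  have ha0 : ∀ i, a i ≠ 0 := fun i => param_ne_zero hD (hsl i) one_ne_zero (ha i)
  obtain ⟨c, hc⟩ := exists_torus_of_injective D hD hT (fun j => (Units.mk0 (a j) (ha0 j))⁻¹)
  have hcH : torusHom (F := F) D c ∈ D.diagonalSubgroup F := by
    rw [diagonalSubgroup_eq_range D hD]
    exact ⟨c, rfl⟩
  have hconjX : ∀ (s : ℕ), s < D.nroots → MapsSub D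
      (MulAut.conj (⟨torusHom D c, torusHom_mem_group D hD c⟩ : ↥(D.group F)))
      (D.rootSubgroup F s) (D.rootSubgroup F s) := by
    intro s hs
    apply mapsSub_conj
    intro y hy
    obtain ⟨t, rfl⟩ := (mem_rootSubgroup_iff D hD s y).mp hy
    show torusHom D c * xU D hD s t * (torusHom (F := F) D c)⁻¹ ∈ _
    rw [torus_conj D hD c s hs t]
    exact (mem_rootSubgroup_iff D hD s _).mpr ⟨_, rfl⟩
  have h' : StabUV D (MulAut.conj (⟨torusHom D c, torusHom_mem_group D hD c⟩ : ↥(D.group F)) *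
      θ) := by
    constructor
    · exact MapsSub.mul (mapsSub_conj D _ _ _ (fun y hy => conj_mem_of_mem_normalizer _
        (diagonalSubgroup_le_normalizer_posUnipotent D hD hcH) hy)) h.1
    · exact MapsSub.mul (mapsSub_conj D _ _ _ (fun y hy => conj_mem_of_mem_normalizer _
        (diagonalSubgroup_le_normalizer_negUnipotent D hD hcH) hy)) h.2
  have hnorm : ∀ i : Fin D.rank,
      (MulAut.conj (⟨torusHom D c, torusHom_mem_group D hD c⟩ : ↥(D.group F)) * θ)
        (xG D hD (D.simple i.val) 1) = xG D hD (D.simple i.val) 1 := by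
    intro i
    show (⟨torusHom D c, torusHom_mem_group D hD c⟩ : ↥(D.group F)) *
      θ (xG D hD (D.simple i.val) 1) *
      (⟨torusHom D c, torusHom_mem_group D hD c⟩ : ↥(D.group F))⁻¹ = _
    rw [ha i]
    apply Subtype.ext
    show torusHom D c * xU D hD (D.simple i.val) (a i) * (torusHom (F := F) D c)⁻¹ = _
    rw [torus_conj D hD c _ (hsl i), hc i]
    show xU D hD (D.simple i.val) ((a i)⁻¹ * a i) = _
    rw [inv_mul_cancel₀ (ha0 i)]
    rfl
  obtain ⟨σ, hσ⟩ := h'.field_of_normalized' hD hY hlink hscale hq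
    (fun i => MapsSub.mul (hconjX _ (hsl i)) (hpos i))
    (fun i => MapsSub.mul (hconjX _ (hnl i)) (hneg i)) hnorm
  refine ⟨(⟨torusHom D c, torusHom_mem_group D hD c⟩ : ↥(D.group F))⁻¹, σ, fun φ hφ => ?_⟩
  have e : MulAut.conj (⟨torusHom D c, torusHom_mem_group D hD c⟩ : ↥(D.group F)) * θ = φ := by
    apply aut_ext_simple D hD
    intro i t
    rw [(hσ i t).1, (hσ i t).2, fieldRel_xG hD hφ _ (hsl i), fieldRel_xG hD hφ _ (hnl i)]
    exact ⟨rfl, rfl⟩
  rw [← e, map_inv]
  group

theorem simple_ne_of_ne' (D : ChevalleyDatum)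
    (hD : D ∈ [chevG2, chevB2, chevD4, chevF4, chevE6, chevE7, chevE8]) (hO : PosNegOK D F hD)
    (i k : Fin D.rank) (hne : k ≠ i) (c a : F) (ha : a ≠ 0) :
    xU D hD (D.simple k.val) c ≠ xU D hD (D.simple i.val) a := by
  intro hc
  have h3 := hO k i hne c 1
  rw [hc] at h3
  exact not_comm_pos_neg D hD i a 1 ha one_ne_zero h3

/-- an inner automorphism stabilising `U` and `V` stabilises the fundamental root subgroups -/
theorem inner_stab_root' [Finite F] (D : ChevalleyDatum)
    (hD : D ∈ [chevG2, chevB2, chevD4, chevF4, chevE6, chevE7, chevE8]) (hO : PosNegOK D F hD)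
    (x : ↥(D.group F)) (hS : StabUV D (MulAut.conj x)) (i k : Fin D.rank)
    (hm : MapsSub D (MulAut.conj x) (D.rootSubgroup F (D.simple i.val))
      (D.rootSubgroup F (D.simple k.val))) : k = i := by
  have hxH : (x : GL D.Idx F) ∈ D.diagonalSubgroup F :=
    mem_diag_of_stab D hD x.1 x.2
      (fun u hu => hS.1 ⟨u, posUnipotent_le_group D hD hu⟩ hu)
      (fun v hv => hS.2 ⟨v, negUnipotent_le_group D hD hv⟩ hv)
  rw [diagonalSubgroup_eq_range D hD] at hxH
  obtain ⟨c, hc⟩ := hxH
  have hs := simple_lt D hD i.val i.isLt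
  obtain ⟨c', hc'⟩ := (mem_rootSubgroup_iff D hD _ _).mp
    (hm _ (xG_mem_root D hD (D.simple i.val) 1))
  have h1 : (x : GL D.Idx F) * xU D hD (D.simple i.val) 1 * (x : GL D.Idx F)⁻¹ =
      xU D hD (D.simple k.val) c' := hc'
  rw [← hc, torus_conj D hD c _ hs 1] at h1
  by_contra hne
  exact simple_ne_of_ne' D hD hO i k hne c' _
    (mul_ne_zero (chiL_ne_zero D _ _ (fun j _ => cx_ne_zero D c j) _) one_ne_zero) h1.symm

theorem fieldRel_mapsRoot' {D : ChevalleyDatum}
    (hD : D ∈ [chevG2, chevB2, chevD4, chevF4, chevE6, chevE7, chevE8])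
    {φ : MulAut ↥(D.group F)} {σ : F ≃+* F} (h : FieldRel D φ σ) (r : ℕ) (hr : r < D.nroots) :
    MapsSub D φ (D.rootSubgroup F r) (D.rootSubgroup F r) := by
  intro y hy
  obtain ⟨t, ht⟩ := (mem_rootSubgroup_iff D hD r _).mp hy
  have e : y = xG D hD r t := Subtype.ext ht
  rw [e, fieldRel_xG hD h r hr]
  exact xG_mem_root D hD r _

theorem mulAut_conj_conj' {G : Type*} [Group G] (φ : MulAut G) (x : G) :
    φ * MulAut.conj x * φ⁻¹ = MulAut.conj (φ x) := by
  ext y
  simp [MulAut.conj_apply]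

/-- an inner automorphism which is a quotient of two field automorphisms is trivial, and the
field automorphisms agree -/
theorem field_inj_of_conj {D : ChevalleyDatum}
    (hD : D ∈ [chevG2, chevB2, chevD4, chevF4, chevE6, chevE7, chevE8]) (h0 : 0 < D.rank)
    {φ ψ : MulAut ↥(D.group F)} {σ τ : F ≃+* F} (hφ : FieldRel D φ σ) (hψ : FieldRel D ψ τ)
    (x : ↥(D.group F)) (hx : MulAut.conj x = φ⁻¹ * ψ) : σ = τ := by
  have hfix : ∀ (χ : MulAut ↥(D.group F)) (ρ : F ≃+* F), FieldRel D χ ρ → ∀ s : ℕ,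
      s < D.nroots → χ (xG D hD s 1) = xG D hD s 1 := by
    intro χ ρ hχ s hs
    rw [fieldRel_xG hD hχ s hs, map_one]
  have hx1 : (x : GL D.Idx F) = 1 := by
    apply eq_one_of_comm_root D hD _ x.2
    intro s hs
    have h1 : MulAut.conj x (xG D hD s 1) = (φ⁻¹ * ψ) (xG D hD s 1) := by
      rw [hx]
    have h2 : (φ⁻¹ * ψ) (xG D hD s 1) = xG D hD s 1 := by
      show φ⁻¹ (ψ (xG D hD s 1)) = _
      rw [hfix ψ τ hψ s hs]
      have h3 : φ⁻¹ (φ (xG D hD s 1)) = xG D hD s 1 := MulAut.inv_apply_self _ _ _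
      rw [hfix φ σ hφ s hs] at h3
      exact h3
    rw [h2] at h1
    have h4 : (x : GL D.Idx F) * xU D hD s 1 * (x : GL D.Idx F)⁻¹ = xU D hD s 1 :=
      congrArg Subtype.val h1
    calc (x : GL D.Idx F) * xU D hD s 1
        = (x : GL D.Idx F) * xU D hD s 1 * (x : GL D.Idx F)⁻¹ * (x : GL D.Idx F) := by group
      _ = xU D hD s 1 * (x : GL D.Idx F) := by rw [h4]
  have hx2 : x = 1 := Subtype.ext hx1
  rw [hx2, map_one] at hx
  have h5 : φ = ψ := inv_mul_eq_one.mp hx.symm
  have hs0 : D.simple 0 < D.nroots := simple_lt D hD 0 h0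
  ext t
  have h6 : φ (xG D hD (D.simple 0) t) = ψ (xG D hD (D.simple 0) t) := by
    rw [h5]
  rw [fieldRel_xG hD hφ _ hs0, fieldRel_xG hD hψ _ hs0] at h6
  exact xU_injective D hD _ hs0 _ _ (congrArg Subtype.val h6)

end Cfsg.Agent.Lib.Helper36
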