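import Cfsg.Agent.Lib.Helper36.ChevAutK

set_option autoImplicit false

/-!
# Automorphisms of Chevalley groups, part L

Fundamental root elements of adjacent nodes do not commute (all types, no commutator formula),
so the permutation of the fundamental root subgroups induced by an automorphism stabilising `U`
and `V` preserves non-adjacency.
-/

namespace Cfsg.Agent.Lib.Helper36

open Cfsg Cfsg.Lie Cfsg.Agent.Lib.Helper18

universe u

variable {F : Type u} [Field F]

/-- a nontrivial fundamental root element does not lie in another positive root subgroup -/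
theorem simple_ne_pos (D : ChevalleyDatum)
    (hD : D ∈ [chevG2, chevB2, chevD4, chevF4, chevE6, chevE7, chevE8]) (l : Fin D.rank) (w : ℕ)
    (hw : D.IsPosRoot w) (hne : w ≠ D.simple l.val) (c a : F)
    (h : xU D hD (D.simple l.val) c = xU D hD w a) : c = 0 := by
  have hS := sgnOK_all D hD
  have hsl := simple_lt D hD l.val l.isLt
  have hwpos2 := reflect_pos D hD l w hw hne
  obtain ⟨η₀, hη₀, hnc⟩ := nU_conj_simple (F := F) D hD l
  obtain ⟨η', hη'⟩ := nU_smap (F := F) D hD l
  have e8 := hη'.conjU hD w hw.1 a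
  have e9 : xU D hD (D.neg (D.simple l.val)) (η₀ * c) =
      xU D hD (D.reflectRoot l.val w) (η' w * a) := by
    have e10 := hnc c
    rw [h] at e10
    rw [← e10, e8]
    group
  have hU : xU D hD (D.neg (D.simple l.val)) (η₀ * c) ∈ D.posUnipotent F := by
    rw [e9]
    exact Subgroup.subset_closure ⟨_, _, hwpos2, coe_xU D hD _ _⟩
  have hV : xU D hD (D.neg (D.simple l.val)) (η₀ * c) ∈ D.negUnipotent F :=
    Subgroup.subset_closure ⟨_, _, hS.neg_simple l.val l.isLt, coe_xU D hD _ _⟩
  have hbot : xU D hD (D.neg (D.simple l.val)) (η₀ * c) ∈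
      D.posUnipotent F ⊓ D.negUnipotent F := ⟨hU, hV⟩
  rw [pos_inf_neg D hD, Subgroup.mem_bot] at hbot
  have h0 := (xU_eq_one_iff D hD _ (neg_lt D hD _ hsl).1 _).mp hbot
  rcases mul_eq_zero.mp h0 with h' | h'
  · exfalso
    rcases hη₀ with h'' | h'' <;> rw [h''] at h' <;> simp at h'
  · exact h'

/-- distinct nodes have distinct fundamental roots -/
theorem simple_ne_simple (D : ChevalleyDatum)
    (hD : D ∈ [chevG2, chevB2, chevD4, chevF4, chevE6, chevE7, chevE8]) (hO : PosNegOK D F hD)
    (k l : Fin D.rank) (hkl : k ≠ l) : D.simple l.val ≠ D.simple k.val := by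
  intro e
  have h3 := hO l k (fun e' => hkl e'.symm) 1 1
  rw [← e] at h3
  exact not_comm_pos_neg D hD l 1 1 one_ne_zero one_ne_zero h3

/-- fundamental root elements of adjacent nodes do not commute -/
theorem not_comm_adj (D : ChevalleyDatum)
    (hD : D ∈ [chevG2, chevB2, chevD4, chevF4, chevE6, chevE7, chevE8]) (hO : PosNegOK D F hD)
    (k l : Fin D.rank) (hkl : k ≠ l)
    (hadj : D.reflectRoot k.val (D.simple l.val) ≠ D.simple l.val) (c c' : F) (hc : c ≠ 0)
    (hc' : c' ≠ 0) :
    xU D hD (D.simple k.val) c * xU D hD (D.simple l.val) c' ≠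
      xU D hD (D.simple l.val) c' * xU D hD (D.simple k.val) c := by
  intro hcomm
  have hS := sgnOK_all D hD
  have hsk := simple_lt D hD k.val k.isLt
  have hsl := simple_lt D hD l.val l.isLt
  obtain ⟨h₁, hh₁, e1⟩ := neg_eq_bruhat D hD k (-c⁻¹) (neg_ne_zero.mpr (inv_ne_zero hc))
  have hinv : (-c⁻¹)⁻¹ = -c := by rw [inv_neg, inv_inv]
  rw [hinv] at e1
  have e2 : h₁ * nU D hD k = xU D hD (D.simple k.val) c *
      xU D hD (D.neg (D.simple k.val)) (-c⁻¹) * xU D hD (D.simple k.val) c := by
    rw [e1, ← xU_inv]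
    group
  have e3 := hO l k (fun e => hkl e.symm) c' (-c⁻¹)
  have e4 : (h₁ * nU D hD k) * xU D hD (D.simple l.val) c' =
      xU D hD (D.simple l.val) c' * (h₁ * nU D hD k) := by
    rw [e2]
    generalize xU D hD (D.simple k.val) c = A at hcomm ⊢
    generalize xU D hD (D.neg (D.simple k.val)) (-c⁻¹) = B at e3 ⊢
    generalize xU D hD (D.simple l.val) c' = X at hcomm e3 ⊢
    calc A * B * A * X = A * B * (A * X) := by group
      _ = A * B * (X * A) := by rw [hcomm]
      _ = A * (B * X) * A := by group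
      _ = A * (X * B) * A := by rw [e3]
      _ = (A * X) * B * A := by group
      _ = (X * A) * B * A := by rw [hcomm]
      _ = X * (A * B * A) := by group
  obtain ⟨η, hη⟩ := nU_smap (F := F) D hD k
  have e5 := hη.conjU hD _ hsl c'
  rw [diagonalSubgroup_eq_range D hD] at hh₁
  obtain ⟨c₁, hc₁⟩ := hh₁
  have hw := hη.lt _ hsl
  have e6 := torus_conj D hD c₁ _ hw (η (D.simple l.val) * c')
  rw [hc₁] at e6
  have e7 : xU D hD (D.simple l.val) c' =
      xU D hD (D.reflectRoot k.val (D.simple l.val))
        (chiL D (cx D c₁) (List.range D.rank) (D.reflectRoot k.val (D.simple l.val)) *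
          (η (D.simple l.val) * c')) := by
    rw [← e6]
    generalize xU D hD (D.reflectRoot k.val (D.simple l.val)) (η (D.simple l.val) * c') = W
      at e5 ⊢
    generalize xU D hD (D.simple l.val) c' = X at e4 e5 ⊢
    generalize nU (F := F) D hD k = n at e4 e5 ⊢
    calc X = X * (h₁ * n) * (h₁ * n)⁻¹ := by group
      _ = (h₁ * n) * X * (h₁ * n)⁻¹ := by rw [e4]
      _ = h₁ * (n * X) * n⁻¹ * h₁⁻¹ := by group
      _ = h₁ * (W * n) * n⁻¹ * h₁⁻¹ := by rw [e5]
      _ = h₁ * W * h₁⁻¹ := by group
  have hwpos : D.IsPosRoot (D.reflectRoot k.val (D.simple l.val)) :=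
    reflect_pos D hD k _ (hS.pos_simple l.val l.isLt) (simple_ne_simple D hD hO k l hkl)
  exact hc' (simple_ne_pos D hD l _ hwpos hadj c' _ e7)

/-- non-adjacent fundamental root elements commute -/
def NonAdjOK (D : ChevalleyDatum) (F : Type u) [Field F]
    (hD : D ∈ [chevG2, chevB2, chevD4, chevF4, chevE6, chevE7, chevE8]) : Prop :=
  ∀ i j : Fin D.rank, i ≠ j → D.reflectRoot i.val (D.simple j.val) = D.simple j.val →
    ∀ t u : F, xU D hD (D.simple i.val) t * xU D hD (D.simple j.val) u =
      xU D hD (D.simple j.val) u * xU D hD (D.simple i.val) t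

def nonAdjChk (D : ChevalleyDatum) : Bool :=
  (List.range D.rank).all fun i => (List.range D.rank).all fun j => decide (i = j) ||
    decide (D.reflectRoot i (D.simple j) ≠ D.simple j) ||
    (decide (D.simple j ≠ D.simple i) && decide (D.simple j ≠ D.neg (D.simple i)) &&
     decide (D.commTerms (D.simple i) (D.simple j) = []))

theorem nonAdjOK_of_chk (D : ChevalleyDatum)
    (hD : D ∈ [chevG2, chevB2, chevD4, chevF4, chevE6, chevE7, chevE8])
    (h : nonAdjChk D = true) : NonAdjOK D F hD := by
  simp only [nonAdjChk, List.all_eq_true, List.mem_range, Bool.or_eq_true, decide_eq_true_eq,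
    Bool.and_eq_true] at h
  intro i j hij hna t u
  rcases h i.val i.isLt j.val j.isLt with (h1 | h1) | ⟨⟨h1, h2⟩, h3⟩
  · exact absurd (Fin.ext h1) hij
  · exact absurd hna h1
  · exact (comm_of_terms_nil D hD _ _ (simple_lt D hD i.val i.isLt)
      (simple_lt D hD j.val j.isLt) h1 h2 h3 t u).symm

/-- the permutation of the fundamental root subgroups preserves non-adjacency -/
theorem StabUV.perm_nonadj {D : ChevalleyDatum}
    (hD : D ∈ [chevG2, chevB2, chevD4, chevF4, chevE6, chevE7, chevE8]) (hO : PosNegOK D F hD)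
    (hA : NonAdjOK D F hD) {θ : MulAut ↥(D.group F)} (π : Fin D.rank → Fin D.rank)
    (hinj : Function.Injective π)
    (hpos : ∀ i, MapsSub D θ (D.rootSubgroup F (D.simple i.val))
      (D.rootSubgroup F (D.simple (π i).val)))
    (i j : Fin D.rank) (hij : i ≠ j)
    (hna : D.reflectRoot i.val (D.simple j.val) = D.simple j.val) :
    D.reflectRoot (π i).val (D.simple (π j).val) = D.simple (π j).val := by
  by_contra hadj
  obtain ⟨a, ha⟩ := (hpos i).exists_param hD (1 : F)
  obtain ⟨b, hb⟩ := (hpos j).exists_param hD (1 : F)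
  have ha0 := param_ne_zero hD (simple_lt D hD i.val i.isLt) one_ne_zero ha
  have hb0 := param_ne_zero hD (simple_lt D hD j.val j.isLt) one_ne_zero hb
  have e1 : xG D hD (D.simple i.val) (1 : F) * xG D hD (D.simple j.val) 1 =
      xG D hD (D.simple j.val) 1 * xG D hD (D.simple i.val) 1 :=
    Subtype.ext (hA i j hij hna 1 1)
  have e2 := congrArg θ e1
  rw [map_mul, map_mul, ha, hb] at e2
  exact not_comm_adj D hD hO (π i) (π j) (fun e => hij (hinj e)) hadj a b ha0 hb0
    (congrArg Subtype.val e2)

end Cfsg.Agent.Lib.Helper36
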