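import Cfsg.Agent.Lib.Helper36.ChevAutL
import Cfsg.Agent.Lib.Helper36.ChevAutH
import Cfsg.Agent.S1080
import Cfsg.Agent.S2160

set_option autoImplicit false

/-!
# Decomposition of the automorphisms of Chevalley groups: generic part

The predicates `IsDiagonalAut`, `IsGraphAut`, `IsFieldAut` for the automorphisms built in the
`ChevAut` files, and the assembly of the decomposition `inner * diagonal * graph * field` from
the permutation of the fundamental root subgroups.
-/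

namespace Cfsg.Agent.Lib.Helper36

open Cfsg Cfsg.Lie Cfsg.Agent.Lib.Helper18

universe u

variable {F : Type u} [Field F]

theorem isFieldAut_of_rel {D : ChevalleyDatum} {φ : MulAut ↥(D.group F)} {σ : F ≃+* F}
    (h : FieldRel D φ σ) : D.IsFieldAut φ := ⟨σ, h⟩

theorem exists_fieldRel (D : ChevalleyDatum)
    (hD : D ∈ [chevG2, chevB2, chevD4, chevF4, chevE6, chevE7, chevE8]) (σ : F ≃+* F) :
    ∃ φ : MulAut ↥(D.group F), FieldRel D φ σ := Cfsg.Agent.S1080.result D hD σ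

theorem isDiagonalAut_diagAut (D : ChevalleyDatum)
    (hD : D ∈ [chevG2, chevB2, chevD4, chevF4, chevE6, chevE7, chevE8]) (χ : ℕ → Fˣ)
    (hχ : D.IsRootCharacter χ) : D.IsDiagonalAut (diagAut D hD χ hχ) := by
  refine ⟨χ, hχ, fun g => ?_⟩
  rw [coe_diagAut, Units.val_mul, Units.val_mul, charDiagU_inv]
  rfl

theorem isDiagonalAut_one (D : ChevalleyDatum) : D.IsDiagonalAut (1 : MulAut ↥(D.group F)) := by
  have e : D.charDiag F (fun _ => (1 : Fˣ)) = 1 := by
    unfold ChevalleyDatum.charDiag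
    rw [← Matrix.diagonal_one]
    congr 1
    funext i
    rcases i with i | s <;> simp
  refine ⟨fun _ => 1, ⟨fun r _ => by simp, fun r s k _ _ _ => by simp⟩, fun g => ?_⟩
  simp only [inv_one]
  rw [e, one_mul, mul_one]
  rfl

theorem isGraphAut_one (D : ChevalleyDatum) : D.IsGraphAut (1 : MulAut ↥(D.group F)) := by
  refine ⟨1, fun i j _ => rfl, fun g i t => ?_⟩
  have e : D.graphExp (ringChar F) i.val i.val = 1 := by
    unfold ChevalleyDatum.graphExp
    cases D.isLong (D.simple i.val) <;> rfl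
  simp only [Equiv.Perm.one_apply, MulAut.one_apply]
  rw [e, pow_one]
  exact ⟨fun h => h, fun h => h⟩

/-- assembly of the decomposition -/
theorem decomp_main [Fintype F] {D : ChevalleyDatum}
    (hD : D ∈ [chevG2, chevB2, chevD4, chevF4, chevE6, chevE7, chevE8]) (p : ℕ) [Fact p.Prime]
    [CharP F p]
    (hG : ∀ θ₁ : MulAut ↥(D.group F), StabUV D θ₁ →
      ∃ (π : Fin D.rank → Fin D.rank) (γ : MulAut ↥(D.group F)), Function.Injective π ∧
        (∀ i, MapsSub D θ₁ (D.rootSubgroup F (D.simple i.val))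
          (D.rootSubgroup F (D.simple (π i).val))) ∧
        (∀ i, MapsSub D θ₁ (D.rootSubgroup F (D.neg (D.simple i.val)))
          (D.rootSubgroup F (D.neg (D.simple (π i).val)))) ∧
        StabUV D γ ∧ D.IsGraphAut γ ∧
        (∀ i, MapsSub D γ (D.rootSubgroup F (D.simple i.val))
          (D.rootSubgroup F (D.simple (π i).val))) ∧
        (∀ i, MapsSub D γ (D.rootSubgroup F (D.neg (D.simple i.val)))
          (D.rootSubgroup F (D.neg (D.simple (π i).val)))))
    (hDF : ∀ θ' : MulAut ↥(D.group F), StabUV D θ' →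
      (∀ i : Fin D.rank, MapsSub D θ' (D.rootSubgroup F (D.simple i.val))
        (D.rootSubgroup F (D.simple i.val))) →
      (∀ i : Fin D.rank, MapsSub D θ' (D.rootSubgroup F (D.neg (D.simple i.val)))
        (D.rootSubgroup F (D.neg (D.simple i.val)))) →
      ∃ (x : ↥(D.group F)) (d f : MulAut ↥(D.group F)), D.IsDiagonalAut d ∧ D.IsFieldAut f ∧
        θ' = MulAut.conj x * d * f)
    (θ : MulAut ↥(D.group F)) :
    ∃ (x : ↥(D.group F)) (d g f : ↥(D.group F) ≃* ↥(D.group F)),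
      D.IsDiagonalAut d ∧ D.IsGraphAut g ∧ D.IsFieldAut f ∧
        ∀ y : ↥(D.group F), θ y = x * d (g (f y)) * x⁻¹ := by
  obtain ⟨x₁, hx₁⟩ := exists_stabUV D hD p θ
  have hS : StabUV D (MulAut.conj x₁ * θ) := hx₁
  obtain ⟨π, γ, hinj, hpos, hneg, hγS, hγG, hγpos, hγneg⟩ := hG _ hS
  have hsurj : Function.Surjective π := Finite.injective_iff_surjective.mp hinj
  have hsl : ∀ i : Fin D.rank, D.simple i.val < D.nroots := fun i => simple_lt D hD i.val i.isLt
  have hnl : ∀ i : Fin D.rank, D.neg (D.simple i.val) < D.nroots :=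
    fun i => (neg_lt D hD _ (hsl i)).1
  have hS' : StabUV D (MulAut.conj x₁ * θ * γ⁻¹) := hS.mul (hγS.inv hD)
  obtain ⟨x₂, d, f, hd, hf, e⟩ := hDF _ hS'
    (fun j => by
      obtain ⟨i, rfl⟩ := hsurj j
      exact MapsSub.mul (hpos i) ((hγpos i).inv (rootSubgroup_le_group D hD _)
        ((card_rootSubgroup D hD _ (hsl i)).trans (card_rootSubgroup D hD _ (hsl _)).symm)))
    (fun j => by
      obtain ⟨i, rfl⟩ := hsurj j
      exact MapsSub.mul (hneg i) ((hγneg i).inv (rootSubgroup_le_group D hD _)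
        ((card_rootSubgroup D hD _ (hnl i)).trans (card_rootSubgroup D hD _ (hnl _)).symm)))
  refine ⟨x₁⁻¹ * x₂, d, γ, f, hd, hγG, hf, fun y => ?_⟩
  have e2 : θ = MulAut.conj (x₁⁻¹ * x₂) * d * f * γ := by
    rw [map_mul, map_inv]
    calc θ = (MulAut.conj x₁)⁻¹ * (MulAut.conj x₁ * θ * γ⁻¹) * γ := by group
      _ = (MulAut.conj x₁)⁻¹ * (MulAut.conj x₂ * d * f) * γ := by rw [e]
      _ = (MulAut.conj x₁)⁻¹ * MulAut.conj x₂ * d * f * γ := by group
  have e3 : θ y = (MulAut.conj (x₁⁻¹ * x₂) * d * f * γ) y := by rw [← e2]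
  rw [e3]
  show (x₁⁻¹ * x₂) * d (f (γ y)) * (x₁⁻¹ * x₂)⁻¹ = _
  rw [Cfsg.Agent.S2160.result D hD f γ hf hγG y]

/-- the diagonal-field step from the inner-field form -/
theorem dfield_of_conj {D : ChevalleyDatum}
    (hD : D ∈ [chevG2, chevB2, chevD4, chevF4, chevE6, chevE7, chevE8])
    {θ' : MulAut ↥(D.group F)}
    (h : ∃ (x : ↥(D.group F)) (σ : F ≃+* F), ∀ φ : MulAut ↥(D.group F), FieldRel D φ σ →
      θ' = MulAut.conj x * φ) :
    ∃ (x : ↥(D.group F)) (d f : MulAut ↥(D.group F)), D.IsDiagonalAut d ∧ D.IsFieldAut f ∧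
      θ' = MulAut.conj x * d * f := by
  obtain ⟨x, σ, h1⟩ := h
  obtain ⟨φ, hφ⟩ := exists_fieldRel D hD σ
  refine ⟨x, 1, φ, isDiagonalAut_one D, isFieldAut_of_rel hφ, ?_⟩
  rw [mul_one]
  exact h1 φ hφ

/-- the diagonal-field step from the diagonal-field form -/
theorem dfield_of_diag {D : ChevalleyDatum}
    (hD : D ∈ [chevG2, chevB2, chevD4, chevF4, chevE6, chevE7, chevE8])
    {θ' : MulAut ↥(D.group F)}
    (h : ∃ (χ : ℕ → Fˣ) (hχ : D.IsRootCharacter χ) (σ : F ≃+* F),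
      ∀ φ : MulAut ↥(D.group F), FieldRel D φ σ → θ' = diagAut D hD χ hχ * φ) :
    ∃ (x : ↥(D.group F)) (d f : MulAut ↥(D.group F)), D.IsDiagonalAut d ∧ D.IsFieldAut f ∧
      θ' = MulAut.conj x * d * f := by
  obtain ⟨χ, hχ, σ, h1⟩ := h
  obtain ⟨φ, hφ⟩ := exists_fieldRel D hD σ
  refine ⟨1, diagAut D hD χ hχ, φ, isDiagonalAut_diagAut D hD χ hχ, isFieldAut_of_rel hφ, ?_⟩
  rw [map_one, one_mul]
  exact h1 φ hφ

end Cfsg.Agent.Lib.Helper36
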