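import Cfsg.Agent.Lib.Helper36.ChevDec
import Cfsg.Agent.Lib.Helper18.ChevGraph

set_option autoImplicit false

/-!
# Decomposition of the automorphisms of Chevalley groups: graph automorphisms

The predicate `IsGraphAut` from the action on the fundamental root elements, and the graph
automorphisms given by signed permutation matrices (`Helper18.GraphAut`).
-/

namespace Cfsg.Agent.Lib.Helper36

open Cfsg Cfsg.Lie Cfsg.Agent.Lib.Helper18

universe u

variable {F : Type u} [Field F]

theorem isGraphAut_of_simple {D : ChevalleyDatum}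
    (hD : D ∈ [chevG2, chevB2, chevD4, chevF4, chevE6, chevE7, chevE8])
    (γ : MulAut ↥(D.group F)) (π : Equiv.Perm (Fin D.rank)) (hπ : D.IsDiagramSymmetry π)
    (e : Fin D.rank → ℕ) (he : ∀ i, D.graphExp (ringChar F) i.val (π i).val = e i)
    (hpos : ∀ i t, γ (xG D hD (D.simple i.val) t) = xG D hD (D.simple (π i).val) (t ^ e i))
    (hneg : ∀ i t, γ (xG D hD (D.neg (D.simple i.val)) t) =
      xG D hD (D.neg (D.simple (π i).val)) (t ^ e i)) :
    D.IsGraphAut γ := by
  refine ⟨π, hπ, fun g i t => ⟨fun hg => ?_, fun hg => ?_⟩⟩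
  · have e1 : g = xG D hD (D.simple i.val) t := Subtype.ext (eq_xU D hD _ t g.1 hg)
    rw [e1, hpos, he]
    exact coe_xU D hD _ _
  · have e1 : g = xG D hD (D.neg (D.simple i.val)) t := Subtype.ext (eq_xU D hD _ t g.1 hg)
    rw [e1, hneg, he]
    exact coe_xU D hD _ _

theorem ga_xG (A : GraphAut) (D : ChevalleyDatum)
    (hD : D ∈ [chevG2, chevB2, chevD4, chevF4, chevE6, chevE7, chevE8]) (h : A.check D = true)
    (r : ℕ) (hr : r < D.nroots) (t : F) :
    A.aut D h (xG D hD r t) = xG D hD (A.rp.getD r 0) ((A.sg.getD r 1 : ℤ) * t) := by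
  apply Subtype.ext
  apply Units.ext
  show ((A.aut D h (xG D hD r t) : GL D.Idx F) : Matrix D.Idx D.Idx F) = _
  rw [GraphAut.coe_aut, coe_xG, coe_xU, A.conj_x D h r hr t, coe_xG, coe_xU]

/-- the root permutation of a graph automorphism preserves signs -/
def gaSgnChk (A : GraphAut) (D : ChevalleyDatum) : Bool :=
  (List.range D.nroots).all fun r =>
    (!decide (D.IsPosRoot r) || decide (D.IsPosRoot (A.rp.getD r 0))) &&
    (!decide (D.IsNegRoot r) || decide (D.IsNegRoot (A.rp.getD r 0)))

theorem ga_stabUV (A : GraphAut) (D : ChevalleyDatum)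
    (hD : D ∈ [chevG2, chevB2, chevD4, chevF4, chevE6, chevE7, chevE8]) (h : A.check D = true)
    (hs : gaSgnChk A D = true) : StabUV D (A.aut (F := F) D h) := by
  unfold gaSgnChk at hs
  simp only [List.all_eq_true, List.mem_range, Bool.and_eq_true, Bool.or_eq_true,
    Bool.not_eq_true', decide_eq_false_iff_not, decide_eq_true_eq] at hs
  have hp : ∀ r, D.IsPosRoot r → D.IsPosRoot (A.rp.getD r 0) := by
    intro r hr
    rcases (hs r hr.1).1 with h1 | h1
    · exact absurd hr h1
    · exact h1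
  have hn : ∀ r, D.IsNegRoot r → D.IsNegRoot (A.rp.getD r 0) := by
    intro r hr
    rcases (hs r hr.1).2 with h1 | h1
    · exact absurd hr h1
    · exact h1
  constructor
  · refine mapsSub_closure D (A.aut D h) {g : GL D.Idx F | ∃ (r : ℕ) (t : F),
      D.IsPosRoot r ∧ (g : Matrix D.Idx D.Idx F) = D.x F r t}
      (posUnipotent_le_group D hD) (D.posUnipotent F) ?_
    rintro g ⟨r, t, hr, hx⟩
    have e : (⟨g, posUnipotent_le_group D hD (Subgroup.subset_closure ⟨r, t, hr, hx⟩)⟩ :
        ↥(D.group F)) = xG D hD r t := Subtype.ext (eq_xU D hD r t g hx)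
    rw [e, ga_xG A D hD h r hr.1]
    exact Subgroup.subset_closure ⟨_, _, hp r hr, coe_xU D hD _ _⟩
  · refine mapsSub_closure D (A.aut D h) {g : GL D.Idx F | ∃ (r : ℕ) (t : F),
      D.IsNegRoot r ∧ (g : Matrix D.Idx D.Idx F) = D.x F r t}
      (negUnipotent_le_group D hD) (D.negUnipotent F) ?_
    rintro g ⟨r, t, hr, hx⟩
    have e : (⟨g, negUnipotent_le_group D hD (Subgroup.subset_closure ⟨r, t, hr, hx⟩)⟩ :
        ↥(D.group F)) = xG D hD r t := Subtype.ext (eq_xU D hD r t g hx)
    rw [e, ga_xG A D hD h r hr.1]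
    exact Subgroup.subset_closure ⟨_, _, hn r hr, coe_xU D hD _ _⟩

theorem ga_simple (A : GraphAut) (D : ChevalleyDatum)
    (hD : D ∈ [chevG2, chevB2, chevD4, chevF4, chevE6, chevE7, chevE8]) (h : A.check D = true)
    (i : Fin D.rank) (t : F) :
    A.aut D h (xG D hD (D.simple i.val) t) = xG D hD (D.simple (A.np.getD i.val 0)) t ∧
    A.aut D h (xG D hD (D.neg (D.simple i.val)) t) =
      xG D hD (D.neg (D.simple (A.np.getD i.val 0))) t :=
  ⟨Subtype.ext (Units.ext ((A.aut_simple D h (xG D hD (D.simple i.val) t) i.val t i.isLt).1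
      (coe_xU D hD _ _))),
    Subtype.ext (Units.ext ((A.aut_simple D h (xG D hD (D.neg (D.simple i.val)) t) i.val t
      i.isLt).2 (coe_xU D hD _ _)))⟩

/-- a graph automorphism given by a signed permutation matrix, for a type with one root
length -/
theorem ga_good (A : GraphAut) (D : ChevalleyDatum)
    (hD : D ∈ [chevG2, chevB2, chevD4, chevF4, chevE6, chevE7, chevE8]) (h : A.check D = true)
    (hs : gaSgnChk A D = true)
    (hb : ∀ i j : Fin D.rank, i ≠ j →
      D.bonds (A.np.getD i.val 0) (A.np.getD j.val 0) = D.bonds i.val j.val)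
    (hlong : ∀ i : Fin D.rank, D.isLong (D.simple i.val) = false)
    (π : Fin D.rank → Fin D.rank) (hinj : Function.Injective π)
    (hπ : ∀ i, (π i).val = A.np.getD i.val 0) :
    StabUV D (A.aut (F := F) D h) ∧ D.IsGraphAut (A.aut (F := F) D h) ∧
      (∀ i, MapsSub D (A.aut (F := F) D h) (D.rootSubgroup F (D.simple i.val))
        (D.rootSubgroup F (D.simple (π i).val))) ∧
      (∀ i, MapsSub D (A.aut (F := F) D h) (D.rootSubgroup F (D.neg (D.simple i.val)))
        (D.rootSubgroup F (D.neg (D.simple (π i).val)))) := by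
  have hbij : Function.Bijective π := ⟨hinj, Finite.injective_iff_surjective.mp hinj⟩
  have hE : ∀ i, (Equiv.ofBijective π hbij) i = π i := fun i => rfl
  refine ⟨ga_stabUV A D hD h hs, ?_, ?_, ?_⟩
  · refine isGraphAut_of_simple hD _ (Equiv.ofBijective π hbij) ?_ (fun _ => 1) ?_ ?_ ?_
    · intro i j hij
      rw [hE, hE, hπ i, hπ j]
      exact hb i j hij
    · intro i
      unfold ChevalleyDatum.graphExp
      rw [hlong]
      rfl
    · intro i t
      rw [pow_one, hE, hπ i]
      exact (ga_simple A D hD h i t).1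
    · intro i t
      rw [pow_one, hE, hπ i]
      exact (ga_simple A D hD h i t).2
  · intro i y hy
    obtain ⟨t, ht⟩ := (mem_rootSubgroup_iff D hD _ _).mp hy
    have e : y = xG D hD (D.simple i.val) t := Subtype.ext ht
    rw [e, (ga_simple A D hD h i t).1, hπ i]
    exact xG_mem_root D hD _ _
  · intro i y hy
    obtain ⟨t, ht⟩ := (mem_rootSubgroup_iff D hD _ _).mp hy
    have e : y = xG D hD (D.neg (D.simple i.val)) t := Subtype.ext ht
    rw [e, (ga_simple A D hD h i t).2, hπ i]
    exact xG_mem_root D hD _ _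

/-- the identity as a graph automorphism -/
theorem one_good (D : ChevalleyDatum) :
    StabUV D (1 : MulAut ↥(D.group F)) ∧ D.IsGraphAut (1 : MulAut ↥(D.group F)) ∧
      (∀ i : Fin D.rank, MapsSub D (1 : MulAut ↥(D.group F)) (D.rootSubgroup F (D.simple i.val))
        (D.rootSubgroup F (D.simple i.val))) ∧
      (∀ i : Fin D.rank, MapsSub D (1 : MulAut ↥(D.group F))
        (D.rootSubgroup F (D.neg (D.simple i.val)))
        (D.rootSubgroup F (D.neg (D.simple i.val)))) :=
  ⟨⟨fun _ hy => hy, fun _ hy => hy⟩, isGraphAut_one D, fun _ _ hy => hy, fun _ _ hy => hy⟩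

end Cfsg.Agent.Lib.Helper36
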