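import Cfsg.Agent.Lib.Helper36.ChevGrB2
import Cfsg.Agent.Lib.Helper36.ChevGrF4b

set_option autoImplicit false

/-!
# The exceptional graph automorphism of `B₂` in characteristic 2

The group `B₂(K)` acts faithfully on the invariant subspace (by extension of scalars to an
algebraic closure, over which the group is simple), which gives the endomorphism
`x_r(t) ↦ x_{ρ r}(t ^ λ r)`; it is bijective when `K` is finite.
-/

namespace Cfsg.Agent.Lib.Helper36

open Cfsg Cfsg.Lie Cfsg.Agent.Lib.Helper18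

section

variable {K : Type*} [Field K] [CharP K 2]

theorem b2_x_entry : xTerms chevB2 ⟨5, by decide⟩ (Sum.inl ⟨0, by decide⟩)
    (Sum.inr ⟨2, by decide⟩) = [(1, 1)] := by decide +kernel

/-- a simple Chevalley group of type `B₂` acts faithfully on the invariant subspace -/
theorem b2act_ker_of_simple (hs : IsSimpleGroup ↥(chevB2.group K)) :
    (b2X.act (K := K) hB2 b2X_ok).ker = ⊥ := by
  haveI := hs
  rcases (b2X.act (K := K) hB2 b2X_ok).normal_ker.eq_bot_or_eq_top with h | h
  · exact h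
  · exfalso
    have hx : (⟨xU chevB2 hB2 5 (1 : K), xU_mem_group chevB2 hB2 5 1⟩ : ↥(chevB2.group K)) ∈
        (b2X.act (K := K) hB2 b2X_ok).ker := by
      rw [h]
      trivial
    rw [MonoidHom.mem_ker] at hx
    have h3 := congrFun (congrFun hx ⟨Sum.inl ⟨0, by decide⟩, rfl⟩) ⟨Sum.inr ⟨2, by decide⟩, rfl⟩
    rw [GrData.act_apply] at h3
    have h4 : chevB2.x K 5 (1 : K) (Sum.inl ⟨0, by decide⟩) (Sum.inr ⟨2, by decide⟩) = 0 := by
      have h5 : (1 : Matrix {i : chevB2.Idx // b2X.I i = true}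
          {i : chevB2.Idx // b2X.I i = true} K) ⟨Sum.inl ⟨0, by decide⟩, rfl⟩
          ⟨Sum.inr ⟨2, by decide⟩, rfl⟩ = 0 := by
        apply Matrix.one_apply_ne
        intro e
        have e' := congrArg Subtype.val e
        simp at e'
      rw [h5] at h3
      exact h3
    unfold ChevalleyDatum.x at h4
    rw [dif_pos (by decide : 5 < chevB2.nroots), xMat_entry, b2_x_entry] at h4
    simp [evalTerms] at h4

/-- the Chevalley group of type `B₂` acts faithfully on the invariant subspace (any field of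
characteristic 2, including the field with two elements) -/
theorem b2act_ker : (b2X.act (K := K) hB2 b2X_ok).ker = ⊥ := by
  have hL : ∃ a : AlgebraicClosure K, a ≠ 0 ∧ a ≠ 1 := by
    classical
    obtain ⟨a, ha⟩ := Infinite.exists_notMem_finset ({0, 1} : Finset (AlgebraicClosure K))
    refine ⟨a, fun h => ha (by simp [h]), fun h => ha (by simp [h])⟩
  have hs := (Cfsg.Agent.S1056.result (F := AlgebraicClosure K) hL).1
  have hkL := b2act_ker_of_simple (K := AlgebraicClosure K) hs
  rw [eq_bot_iff]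
  intro g hg
  rw [MonoidHom.mem_ker] at hg
  have hg' : (⟨glMap chevB2 (algebraMap K (AlgebraicClosure K)) g.1,
      glMap_group chevB2 (algebraMap K (AlgebraicClosure K)) g.1 g.2⟩ :
      ↥(chevB2.group (AlgebraicClosure K))) ∈
      (b2X.act (K := AlgebraicClosure K) hB2 b2X_ok).ker := by
    rw [MonoidHom.mem_ker]
    ext i j
    rw [GrData.act_apply]
    show ((glMap chevB2 (algebraMap K (AlgebraicClosure K)) g.1 :
      GL chevB2.Idx (AlgebraicClosure K)) : Matrix chevB2.Idx chevB2.Idx (AlgebraicClosure K))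
        i.1 j.1 = _
    rw [coe_glMap, Matrix.map_apply]
    have h1 := congrFun (congrFun hg i) j
    rw [GrData.act_apply] at h1
    rw [h1, Matrix.one_apply, Matrix.one_apply]
    split_ifs <;> simp
  rw [hkL, Subgroup.mem_bot] at hg'
  rw [Subgroup.mem_bot]
  apply Subtype.ext
  apply glMap_injective chevB2 (algebraMap K (AlgebraicClosure K))
  rw [Subgroup.coe_one, map_one]
  exact congrArg Subtype.val hg'

/-- the exceptional graph endomorphism of `B₂(K)` in characteristic 2 -/
noncomputable def b2φ : ↥(chevB2.group K) →* ↥(chevB2.group K) :=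
  b2X.φ hB2 b2X_ok b2act_ker

theorem b2φ_x (r : ℕ) (hr : r < 8) (t : K) :
    b2φ (xG chevB2 hB2 r t) = xG chevB2 hB2 (b2ρ r) (t ^ b2lam r) :=
  b2X.φ_x hB2 b2X_ok b2act_ker r hr t

/-- the swap of the nodes of the Dynkin diagram of type `B₂` -/
def swB2 (i : Fin chevB2.rank) : Fin chevB2.rank :=
  ⟨1 - i.val, Nat.lt_of_le_of_lt (Nat.sub_le 1 i.val) (by decide)⟩

theorem swB_swB : ∀ i : Fin chevB2.rank, swB2 (swB2 i) = i := by decide

theorem swB_ne : swB2 ⟨0, by decide⟩ ≠ ⟨0, by decide⟩ := by decide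

theorem b2ρ_simple : ∀ i : Fin chevB2.rank,
    b2ρ (chevB2.simple i.val) = chevB2.simple (swB2 i).val ∧
    b2ρ (chevB2.neg (chevB2.simple i.val)) = chevB2.neg (chevB2.simple (swB2 i).val) := by
  decide

theorem b2lam_simple : ∀ i : Fin chevB2.rank,
    b2lam (chevB2.simple i.val) = (if i.val < 1 then 2 else 1) ∧
    b2lam (chevB2.neg (chevB2.simple i.val)) = (if i.val < 1 then 2 else 1) := by
  decide

theorem b2φ_simple (i : Fin chevB2.rank) (t : K) :
    b2φ (xG chevB2 hB2 (chevB2.simple i.val) t) =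
      xG chevB2 hB2 (chevB2.simple (swB2 i).val) (t ^ (if i.val < 1 then 2 else 1)) := by
  rw [b2φ_x _ (simple_lt chevB2 hB2 i.val i.isLt), (b2ρ_simple i).1, (b2lam_simple i).1]

theorem b2φ_neg_simple (i : Fin chevB2.rank) (t : K) :
    b2φ (xG chevB2 hB2 (chevB2.neg (chevB2.simple i.val)) t) =
      xG chevB2 hB2 (chevB2.neg (chevB2.simple (swB2 i).val))
        (t ^ (if i.val < 1 then 2 else 1)) := by
  rw [b2φ_x _ (neg_lt chevB2 hB2 _ (simple_lt chevB2 hB2 i.val i.isLt)).1, (b2ρ_simple i).2,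
    (b2lam_simple i).2]

theorem b2φ_surjective (hperf : ∀ x : K, ∃ y : K, y ^ 2 = x) :
    Function.Surjective (b2φ (K := K)) := by
  have hroot : ∀ (j : Fin chevB2.rank) (t : K), ∃ s : K, s ^ (if j.val < 1 then 2 else 1) = t := by
    intro j t
    by_cases hj : j.val < 1
    · rw [if_pos hj]
      exact hperf t
    · rw [if_neg hj]
      exact ⟨t, pow_one t⟩
  have hle : chevB2.group K ≤ (b2φ (K := K)).range.map (chevB2.group K).subtype := by
    apply group_le_of_simple chevB2 hB2
    intro i hi t g hg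
    obtain ⟨s, hs⟩ := hroot (swB2 ⟨i, hi⟩) t
    rcases hg with hg | hg
    · rw [eq_xU chevB2 hB2 _ t g hg]
      refine ⟨xG chevB2 hB2 (chevB2.simple i) t,
        ⟨xG chevB2 hB2 (chevB2.simple (swB2 ⟨i, hi⟩).val) s, ?_⟩, rfl⟩
      rw [b2φ_simple, swB_swB, hs]
    · rw [eq_xU chevB2 hB2 _ t g hg]
      refine ⟨xG chevB2 hB2 (chevB2.neg (chevB2.simple i)) t,
        ⟨xG chevB2 hB2 (chevB2.neg (chevB2.simple (swB2 ⟨i, hi⟩).val)) s, ?_⟩, rfl⟩
      rw [b2φ_neg_simple, swB_swB, hs]
  intro y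
  obtain ⟨z, ⟨w, hw⟩, hz⟩ := hle y.2
  refine ⟨w, ?_⟩
  rw [hw]
  exact Subtype.ext hz

/-- the exceptional graph automorphism of `B₂(q)`, `q` even -/
noncomputable def gB2 [Finite K] : MulAut ↥(chevB2.group K) :=
  MulEquiv.ofBijective (b2φ (K := K))
    ⟨Finite.injective_iff_surjective.mpr (b2φ_surjective perfect_two_of_finite),
      b2φ_surjective perfect_two_of_finite⟩

theorem gB2_root [Finite K] (r : ℕ) (hr : r < 8) (t : K) :
    gB2 (xG chevB2 hB2 r t) = xG chevB2 hB2 (b2ρ r) (t ^ b2lam r) :=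
  b2φ_x r hr t

theorem b2ρ_sign : ∀ r < 8, (chevB2.IsPosRoot r → chevB2.IsPosRoot (b2ρ r)) ∧
    (chevB2.IsNegRoot r → chevB2.IsNegRoot (b2ρ r)) := by decide

end

end Cfsg.Agent.Lib.Helper36
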