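import Cfsg.Agent.Lib.Helper36.ChevDecS
import Cfsg.Agent.Lib.Helper36.ChevDecG
import Cfsg.Agent.Lib.Helper36.ChevGrB2b
import Cfsg.Agent.Lib.Helper36.ChevAutF4

set_option autoImplicit false

/-!
# Decomposition of the automorphisms of `B₂(q)`

In odd characteristic every automorphism is inner * diagonal * field; in characteristic 2 the
exceptional graph automorphism also occurs (and the torus is injective, so no diagonal part).
-/

namespace Cfsg.Agent.Lib.Helper36

open Cfsg Cfsg.Lie Cfsg.Agent.Lib.Helper18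

universe u

variable {F : Type u} [Field F]

theorem dynOK_B2 : DynOK chevB2 :=
  dynOK_of_chk chevB2 0 [(1, 0)] (by decide) (by decide) (by decide)

theorem posNegOK_B2 : PosNegOK chevB2 F hB2 := posNegOK_of_chk chevB2 hB2 (by decide)

theorem link_B2 (i j : Fin chevB2.rank) (hij : i ≠ j)
    (_ : chevB2.cartan i.val (chevB2.simple j.val) ≠ 0) :
    LinkOK chevB2 i.val j.val ∨ LinkOK chevB2 j.val i.val := by
  have h01 : LinkOK chevB2 0 1 := by decide
  obtain ⟨i, hi⟩ := i
  obtain ⟨j, hj⟩ := j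
  have hi' : i < 2 := hi
  have hj' : j < 2 := hj
  interval_cases i <;> interval_cases j
  · exact absurd rfl hij
  · exact Or.inl h01
  · exact Or.inr h01
  · exact absurd rfl hij

theorem b2_fin {P : Fin chevB2.rank → Prop} (h0 : P ⟨0, by decide⟩) (h1 : P ⟨1, by decide⟩) :
    ∀ i, P i := by
  intro i
  obtain ⟨k, hk⟩ := i
  have hk' : k < 2 := hk
  interval_cases k
  · exact h0
  · exact h1

theorem perm_B2 (π : Fin chevB2.rank → Fin chevB2.rank) (hinj : Function.Injective π) :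
    (∀ i, π i = i) ∨ (∀ i, π i = swB2 i) := by
  have key : ∀ a b : Fin chevB2.rank, a ≠ b →
      (a = ⟨0, by decide⟩ ∧ b = ⟨1, by decide⟩) ∨ (a = ⟨1, by decide⟩ ∧ b = ⟨0, by decide⟩) := by
    decide
  have hne : π ⟨0, by decide⟩ ≠ π ⟨1, by decide⟩ := fun e => absurd (hinj e) (by decide)
  rcases key _ _ hne with ⟨h0, h1⟩ | ⟨h0, h1⟩
  · exact Or.inl (b2_fin (P := fun i => π i = i) h0 h1)
  · exact Or.inr (b2_fin (P := fun i => π i = swB2 i) h0 h1)

/-! ### characters of the root lattice -/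

/-- the coefficient of the short fundamental root -/
def b2ca (r : ℕ) : ℤ := [-2, -1, -1, 0, 0, 1, 1, 2].getD r 0

/-- the coefficient of the long fundamental root -/
def b2cb (r : ℕ) : ℤ := [-1, -1, 0, -1, 1, 0, 1, 1].getD r 0

/-- the character of the root lattice with prescribed values on the fundamental roots -/
def b2chi (x y : Fˣ) : ℕ → Fˣ := fun r => x ^ b2ca r * y ^ b2cb r

theorem b2chi_isRootCharacter (x y : Fˣ) : chevB2.IsRootCharacter (b2chi x y) := by
  have hn : ∀ r < 8, b2ca (chevB2.neg r) = - b2ca r ∧ b2cb (chevB2.neg r) = - b2cb r := by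
    decide
  have ha : ∀ r < 8, ∀ s < 8, ∀ k ∈ (chevB2.chainRoot r s 1).toList,
      b2ca k = b2ca r + b2ca s ∧ b2cb k = b2cb r + b2cb s := by decide
  constructor
  · intro r hr
    show x ^ b2ca (chevB2.neg r) * y ^ b2cb (chevB2.neg r) = (x ^ b2ca r * y ^ b2cb r)⁻¹
    rw [(hn r hr).1, (hn r hr).2, zpow_neg, zpow_neg, mul_inv]
  · intro r s k hr hs hk
    have h1 := ha r hr s hs k (by rw [hk]; simp)
    show x ^ b2ca k * y ^ b2cb k = x ^ b2ca r * y ^ b2cb r * (x ^ b2ca s * y ^ b2cb s)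
    rw [h1.1, h1.2, zpow_add, zpow_add, mul_mul_mul_comm]

theorem b2_hchar (d : Fin chevB2.rank → Fˣ) : ∃ χ : ℕ → Fˣ, chevB2.IsRootCharacter χ ∧
    ∀ i : Fin chevB2.rank, χ (chevB2.simple i.val) = d i := by
  refine ⟨b2chi (d ⟨0, by decide⟩) (d ⟨1, by decide⟩), b2chi_isRootCharacter _ _, ?_⟩
  apply b2_fin
  · show d ⟨0, by decide⟩ ^ b2ca 5 * d ⟨1, by decide⟩ ^ b2cb 5 = _
    have e1 : b2ca 5 = 1 := by decide
    have e2 : b2cb 5 = 0 := by decide
    rw [e1, e2, zpow_one, zpow_zero, mul_one]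
  · show d ⟨0, by decide⟩ ^ b2ca 4 * d ⟨1, by decide⟩ ^ b2cb 4 = _
    have e1 : b2ca 4 = 0 := by decide
    have e2 : b2cb 4 = 1 := by decide
    rw [e1, e2, zpow_one, zpow_zero, one_mul]

/-! ### odd characteristic: no graph automorphism -/

/-- in odd characteristic no automorphism stabilising `U` and `V` exchanges the two
fundamental root subgroups -/
theorem b2_no_swap [Fintype F] (h2 : (2 : F) ≠ 0)
    {θ : MulAut ↥(chevB2.group F)} (h : StabUV chevB2 θ)
    (hpos : ∀ i : Fin chevB2.rank, MapsSub chevB2 θ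
      (chevB2.rootSubgroup F (chevB2.simple i.val))
      (chevB2.rootSubgroup F (chevB2.simple (swB2 i).val)))
    (hneg : ∀ i : Fin chevB2.rank, MapsSub chevB2 θ
      (chevB2.rootSubgroup F (chevB2.neg (chevB2.simple i.val)))
      (chevB2.rootSubgroup F (chevB2.neg (chevB2.simple (swB2 i).val)))) : False := by
  have hn1 := h.map_nG_odd hB2 h2 ⟨1, by decide⟩ ⟨0, by decide⟩ (hpos ⟨1, by decide⟩)
    (hneg ⟨1, by decide⟩)
  have m0 : MapsSub chevB2 θ (chevB2.rootSubgroup F 5) (chevB2.rootSubgroup F 4) :=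
    hpos ⟨0, by decide⟩
  have m1 : MapsSub chevB2 θ (chevB2.rootSubgroup F 6) (chevB2.rootSubgroup F 7) :=
    MapsSub.reflect hB2 ⟨1, by decide⟩ ⟨0, by decide⟩ 5 4 (by decide) (by decide) hn1 m0
  obtain ⟨c, hc⟩ := m0.exists_param hB2 (1 : F)
  obtain ⟨c', hc'⟩ := m1.exists_param hB2 (1 : F)
  have e1 : xG chevB2 hB2 6 (1 : F) * xG chevB2 hB2 5 1 =
      xG chevB2 hB2 5 1 * xG chevB2 hB2 6 1 * xG chevB2 hB2 7 (((2 : ℤ) : F) * (-1) * 1) :=
    Subtype.ext (comm_of_terms_one chevB2 hB2 5 6 7 2 (by decide) (by decide) (by decide)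
      (by decide) (by decide) 1 1)
  have e2 := congrArg θ e1
  rw [map_mul, map_mul, map_mul, hc, hc'] at e2
  have e3 : xG chevB2 hB2 7 c' * xG chevB2 hB2 4 c = xG chevB2 hB2 4 c * xG chevB2 hB2 7 c' :=
    Subtype.ext (comm_of_terms_nil chevB2 hB2 4 7 (by decide) (by decide) (by decide)
      (by decide) (by decide) c c')
  rw [e3] at e2
  have e4 : θ (xG chevB2 hB2 7 (((2 : ℤ) : F) * (-1) * 1)) = 1 :=
    mul_left_cancel (a := xG chevB2 hB2 4 c * xG chevB2 hB2 7 c')
      (e2.symm.trans (mul_one _).symm)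
  have e5 : xG chevB2 hB2 7 (((2 : ℤ) : F) * (-1) * 1) = 1 := by
    apply θ.injective
    rw [e4, map_one]
  have e6 := (xU_eq_one_iff chevB2 hB2 7 (by decide) _).mp (congrArg Subtype.val e5)
  rw [Int.cast_ofNat, mul_one, mul_neg, mul_one, neg_eq_zero] at e6
  exact h2 e6

/-! ### characteristic 2 -/

theorem b2_chiL (c : Fin chevB2.rank → Fˣ) (s : ℕ) :
    chiL chevB2 (cx chevB2 c) (List.range chevB2.rank) s =
      ((c ⟨0, by decide⟩ : Fˣ) : F) ^ chevB2.cartan 0 s *
        ((c ⟨1, by decide⟩ : Fˣ) : F) ^ chevB2.cartan 1 s := by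
  have hr : List.range chevB2.rank = [0, 1] := by decide
  have h0 : cx chevB2 c 0 = ((c ⟨0, by decide⟩ : Fˣ) : F) := by
    unfold cx
    rw [dif_pos (by decide)]
  have h1 : cx chevB2 c 1 = ((c ⟨1, by decide⟩ : Fˣ) : F) := by
    unfold cx
    rw [dif_pos (by decide)]
  rw [hr]
  unfold chiL
  rw [List.map_cons, List.map_cons, List.map_nil, List.prod_cons, List.prod_cons, List.prod_nil,
    mul_one, h0, h1]

theorem torus_inj_B2 [CharP F 2] : Function.Injective (torusHom (F := F) chevB2) := by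
  rw [injective_iff_map_eq_one]
  intro c hc
  have key : ∀ s < 8, chiL chevB2 (cx chevB2 c) (List.range chevB2.rank) s = 1 := by
    intro s hs
    have e1 := torus_conj chevB2 hB2 c s hs (1 : F)
    rw [hc, one_mul, inv_one, mul_one] at e1
    have e2 := xU_injective chevB2 hB2 s hs _ _ e1
    rw [mul_one] at e2
    exact e2.symm
  have k7 := key 7 (by decide)
  have k6 := key 6 (by decide)
  rw [b2_chiL] at k7 k6
  have c07 : chevB2.cartan 0 7 = 2 := by decide
  have c17 : chevB2.cartan 1 7 = 0 := by decide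
  have c06 : chevB2.cartan 0 6 = 0 := by decide
  have c16 : chevB2.cartan 1 6 = 1 := by decide
  rw [c07, c17, zpow_zero, mul_one] at k7
  rw [c06, c16, zpow_zero, one_mul, zpow_one] at k6
  have h2 : (2 : F) = 0 := by
    have h := CharP.cast_eq_zero F 2
    exact_mod_cast h
  have k0 : ((c ⟨0, by decide⟩ : Fˣ) : F) = 1 := by
    have e3 : (((c ⟨0, by decide⟩ : Fˣ) : F) - 1) ^ 2 = 0 := by
      have e4 : (((c ⟨0, by decide⟩ : Fˣ) : F) - 1) ^ 2 =
          ((c ⟨0, by decide⟩ : Fˣ) : F) ^ (2 : ℤ) - 2 * ((c ⟨0, by decide⟩ : Fˣ) : F) + 1 := by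
        rw [zpow_ofNat]
        ring
      rw [e4, k7, h2, zero_mul, sub_zero, one_add_one_eq_two]
      exact h2
    exact sub_eq_zero.mp ((pow_eq_zero_iff two_ne_zero).mp e3)
  funext i
  revert i
  apply b2_fin
  · exact Units.ext k0
  · exact Units.ext k6

section two

variable [CharP F 2]

theorem gB2_stabUV [Finite F] : StabUV chevB2 (gB2 (K := F)) := by
  constructor
  · refine mapsSub_closure chevB2 gB2 {g : GL chevB2.Idx F | ∃ (r : ℕ) (t : F),
      chevB2.IsPosRoot r ∧ (g : Matrix chevB2.Idx chevB2.Idx F) = chevB2.x F r t}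
      (posUnipotent_le_group chevB2 hB2) (chevB2.posUnipotent F) ?_
    rintro g ⟨r, t, hr, hx⟩
    have e : (⟨g, posUnipotent_le_group chevB2 hB2 (Subgroup.subset_closure ⟨r, t, hr, hx⟩)⟩ :
        ↥(chevB2.group F)) = xG chevB2 hB2 r t := Subtype.ext (eq_xU chevB2 hB2 r t g hx)
    rw [e, gB2_root r hr.1]
    exact Subgroup.subset_closure ⟨_, _, (b2ρ_sign r hr.1).1 hr, coe_xU chevB2 hB2 _ _⟩
  · refine mapsSub_closure chevB2 gB2 {g : GL chevB2.Idx F | ∃ (r : ℕ) (t : F),
      chevB2.IsNegRoot r ∧ (g : Matrix chevB2.Idx chevB2.Idx F) = chevB2.x F r t}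
      (negUnipotent_le_group chevB2 hB2) (chevB2.negUnipotent F) ?_
    rintro g ⟨r, t, hr, hx⟩
    have e : (⟨g, negUnipotent_le_group chevB2 hB2 (Subgroup.subset_closure ⟨r, t, hr, hx⟩)⟩ :
        ↥(chevB2.group F)) = xG chevB2 hB2 r t := Subtype.ext (eq_xU chevB2 hB2 r t g hx)
    rw [e, gB2_root r hr.1]
    exact Subgroup.subset_closure ⟨_, _, (b2ρ_sign r hr.1).2 hr, coe_xU chevB2 hB2 _ _⟩

theorem gB2_mapsPos [Finite F] (i : Fin chevB2.rank) :
    MapsSub chevB2 (gB2 (K := F)) (chevB2.rootSubgroup F (chevB2.simple i.val))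
      (chevB2.rootSubgroup F (chevB2.simple (swB2 i).val)) := by
  intro y hy
  obtain ⟨t, ht⟩ := (mem_rootSubgroup_iff chevB2 hB2 _ _).mp hy
  have e : y = xG chevB2 hB2 (chevB2.simple i.val) t := Subtype.ext ht
  rw [e, gB2_root _ (simple_lt chevB2 hB2 i.val i.isLt), (b2ρ_simple i).1]
  exact xG_mem_root chevB2 hB2 _ _

theorem gB2_mapsNeg [Finite F] (i : Fin chevB2.rank) :
    MapsSub chevB2 (gB2 (K := F)) (chevB2.rootSubgroup F (chevB2.neg (chevB2.simple i.val)))
      (chevB2.rootSubgroup F (chevB2.neg (chevB2.simple (swB2 i).val))) := by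
  intro y hy
  obtain ⟨t, ht⟩ := (mem_rootSubgroup_iff chevB2 hB2 _ _).mp hy
  have e : y = xG chevB2 hB2 (chevB2.neg (chevB2.simple i.val)) t := Subtype.ext ht
  rw [e, gB2_root _ (neg_lt chevB2 hB2 _ (simple_lt chevB2 hB2 i.val i.isLt)).1,
    (b2ρ_simple i).2]
  exact xG_mem_root chevB2 hB2 _ _

theorem isGraphAut_gB2 [Finite F] : chevB2.IsGraphAut (gB2 (K := F)) := by
  refine isGraphAut_of_simple hB2 gB2 (Function.Involutive.toPerm swB2 swB_swB) ?_
    (fun i => if i.val < 1 then 2 else 1) ?_ ?_ ?_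
  · intro i j hij
    show chevB2.bonds (swB2 i).val (swB2 j).val = chevB2.bonds i.val j.val
    revert i j
    decide
  · intro i
    show chevB2.graphExp (ringChar F) i.val (swB2 i).val = _
    rw [ringChar.eq F 2]
    revert i
    decide
  · intro i t
    exact b2φ_simple i t
  · intro i t
    exact b2φ_neg_simple i t

end two

/-- the graph automorphism attached to the permutation of the fundamental root subgroups
induced by an automorphism of `B₂(q)` stabilising `U` and `V` -/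
theorem b2_graph [Fintype F] (p : ℕ) [Fact p.Prime] [CharP F p]
    (θ₁ : MulAut ↥(chevB2.group F)) (hS : StabUV chevB2 θ₁) :
    ∃ (π : Fin chevB2.rank → Fin chevB2.rank) (γ : MulAut ↥(chevB2.group F)),
      Function.Injective π ∧
      (∀ i, MapsSub chevB2 θ₁ (chevB2.rootSubgroup F (chevB2.simple i.val))
        (chevB2.rootSubgroup F (chevB2.simple (π i).val))) ∧
      (∀ i, MapsSub chevB2 θ₁ (chevB2.rootSubgroup F (chevB2.neg (chevB2.simple i.val)))
        (chevB2.rootSubgroup F (chevB2.neg (chevB2.simple (π i).val)))) ∧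
      StabUV chevB2 γ ∧ chevB2.IsGraphAut γ ∧
      (∀ i, MapsSub chevB2 γ (chevB2.rootSubgroup F (chevB2.simple i.val))
        (chevB2.rootSubgroup F (chevB2.simple (π i).val))) ∧
      (∀ i, MapsSub chevB2 γ (chevB2.rootSubgroup F (chevB2.neg (chevB2.simple i.val)))
        (chevB2.rootSubgroup F (chevB2.neg (chevB2.simple (π i).val)))) := by
  obtain ⟨π, hinj, hpos, hneg⟩ := hS.exists_perm' hB2 posNegOK_B2
  rcases perm_B2 π hinj with hπ | hπ
  · obtain ⟨a, b, c, d⟩ := one_good (F := F) chevB2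
    exact ⟨π, 1, hinj, hpos, hneg, a, b, fun i => by rw [hπ i]; exact c i,
      fun i => by rw [hπ i]; exact d i⟩
  · by_cases h2 : (2 : F) = 0
    · have hp2 : p = 2 := by
        have h' : ((2 : ℕ) : F) = 0 := by exact_mod_cast h2
        rw [CharP.cast_eq_zero_iff F p] at h'
        exact (Nat.prime_dvd_prime_iff_eq (Fact.out : p.Prime) Nat.prime_two).mp h'
      subst hp2
      exact ⟨π, gB2, hinj, hpos, hneg, gB2_stabUV, isGraphAut_gB2,
        fun i => by rw [hπ i]; exact gB2_mapsPos i, fun i => by rw [hπ i]; exact gB2_mapsNeg i⟩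
    · exact (b2_no_swap h2 hS (fun i => by have h1 := hpos i; rwa [hπ i] at h1)
        (fun i => by have h1 := hneg i; rwa [hπ i] at h1)).elim

/-- every automorphism of `B₂(q)` is inner * diagonal * graph * field -/
theorem decomp_B2 [Fintype F] (p : ℕ) [Fact p.Prime] [CharP F p]
    (θ : MulAut ↥(chevB2.group F)) :
    ∃ (x : ↥(chevB2.group F)) (d g f : ↥(chevB2.group F) ≃* ↥(chevB2.group F)),
      chevB2.IsDiagonalAut d ∧ chevB2.IsGraphAut g ∧ chevB2.IsFieldAut f ∧
        ∀ y : ↥(chevB2.group F), θ y = x * d (g (f y)) * x⁻¹ := by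
  refine decomp_main hB2 p (b2_graph p) (fun θ' hS hpos hneg => ?_) θ
  by_cases h2 : (2 : F) = 0
  · have hp2 : p = 2 := by
      have h' : ((2 : ℕ) : F) = 0 := by exact_mod_cast h2
      rw [CharP.cast_eq_zero_iff F p] at h'
      exact (Nat.prime_dvd_prime_iff_eq (Fact.out : p.Prime) Nat.prime_two).mp h'
    subst hp2
    exact dfield_of_conj hB2 (hS.eq_conj_field'' hB2 dynOK_B2 link_B2 torus_inj_B2 hpos hneg)
  · exact dfield_of_diag hB2 (hS.eq_diag_field_sq hB2 dynOK_B2 link_B2 h2 b2_hchar hpos hneg)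

end Cfsg.Agent.Lib.Helper36
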