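import Cfsg.Agent.Lib.Helper36.ChevDecD4
import Cfsg.Agent.Lib.Helper36.ChevDecB2
import Cfsg.Agent.Lib.Helper36.ChevAutE6
import Cfsg.Agent.Lib.Helper36.ChevAutE7
import Cfsg.Agent.Lib.Helper36.ChevAutG2

set_option autoImplicit false

/-!
# Decomposition of the automorphisms of `E₆(q)`, `E₇(q)`, `E₈(q)`, `G₂(q)`, `F₄(q)`

Every automorphism is inner * diagonal * graph * field.
-/

namespace Cfsg.Agent.Lib.Helper36

open Cfsg Cfsg.Lie Cfsg.Agent.Lib.Helper18

universe u

variable {F : Type u} [Field F]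

/-! ### `E₈` -/

theorem decomp_E8 [Fintype F] (p : ℕ) [Fact p.Prime] [CharP F p]
    (θ : MulAut ↥(chevE8.group F)) :
    ∃ (x : ↥(chevE8.group F)) (d g f : ↥(chevE8.group F) ≃* ↥(chevE8.group F)),
      chevE8.IsDiagonalAut d ∧ chevE8.IsGraphAut g ∧ chevE8.IsFieldAut f ∧
        ∀ y : ↥(chevE8.group F), θ y = x * d (g (f y)) * x⁻¹ := by
  have hD : chevE8 ∈ [chevG2, chevB2, chevD4, chevF4, chevE6, chevE7, chevE8] := by simp
  have hO : SimpOK chevE8 F hD := simpOK_of_chk chevE8 hD simpleChk_E8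
  have hT : Function.Injective (torusHom (F := F) chevE8) :=
    torusHom_injective_of_cert _ hD _ kerCertE8_check rfl
  refine decomp_main hD p (fun θ₁ hS => ?_) (fun θ' hS hpos hneg =>
    dfield_of_conj hD (hS.eq_conj_field hD hO dynOK_E8 hT hpos hneg)) θ
  obtain ⟨π, hinj, hadj, hpos, hneg⟩ := hS.exists_perm hD hO
  have hπ := e8_rigid π hinj hadj
  obtain ⟨a, b, c, d⟩ := one_good (F := F) chevE8
  exact ⟨π, 1, hinj, hpos, hneg, a, b, fun i => by rw [hπ i]; exact c i,
    fun i => by rw [hπ i]; exact d i⟩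

/-! ### `E₇` -/

theorem decomp_E7 [Fintype F] (p : ℕ) [Fact p.Prime] [CharP F p]
    (θ : MulAut ↥(chevE7.group F)) :
    ∃ (x : ↥(chevE7.group F)) (d g f : ↥(chevE7.group F) ≃* ↥(chevE7.group F)),
      chevE7.IsDiagonalAut d ∧ chevE7.IsGraphAut g ∧ chevE7.IsFieldAut f ∧
        ∀ y : ↥(chevE7.group F), θ y = x * d (g (f y)) * x⁻¹ := by
  have hO : SimpOK chevE7 F hE7 := simpOK_of_chk chevE7 hE7 simpleChk_E7
  refine decomp_main hE7 p (fun θ₁ hS => ?_) (fun θ' hS hpos hneg =>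
    dfield_of_dAut hE7 rcOK_E7 (hS.eq_diag_field hE7 hO dynOK_E7 rcOK_E7 hpos hneg)) θ
  obtain ⟨π, hinj, hadj, hpos, hneg⟩ := hS.exists_perm hE7 hO
  have hπ := e7_rigid π hinj hadj
  obtain ⟨a, b, c, d⟩ := one_good (F := F) chevE7
  exact ⟨π, 1, hinj, hpos, hneg, a, b, fun i => by rw [hπ i]; exact c i,
    fun i => by rw [hπ i]; exact d i⟩

/-! ### `E₆` -/

set_option maxRecDepth 100000 in
theorem e6_notLong : ∀ i : Fin chevE6.rank, chevE6.isLong (chevE6.simple i.val) = false := by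
  decide +kernel

set_option maxRecDepth 100000 in
theorem e6_bonds : ∀ i j : Fin chevE6.rank, i ≠ j →
    chevE6.bonds (rhoE6 i).val (rhoE6 j).val = chevE6.bonds i.val j.val := by
  decide +kernel

theorem isGraphAut_gE6 : chevE6.IsGraphAut (gE6 (F := F)) := by
  refine isGraphAut_of_simple hE6 gE6 (Function.Involutive.toPerm rhoE6 rho_rho) ?_
    (fun _ => 1) ?_ ?_ ?_
  · intro i j hij
    exact e6_bonds i j hij
  · intro i
    show chevE6.graphExp (ringChar F) i.val (rhoE6 i).val = 1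
    unfold ChevalleyDatum.graphExp
    rw [e6_notLong]
    rfl
  · intro i t
    rw [pow_one]
    exact gE6_simple i t
  · intro i t
    rw [pow_one]
    exact gE6_neg_simple i t

theorem decomp_E6 [Fintype F] (p : ℕ) [Fact p.Prime] [CharP F p]
    (θ : MulAut ↥(chevE6.group F)) :
    ∃ (x : ↥(chevE6.group F)) (d g f : ↥(chevE6.group F) ≃* ↥(chevE6.group F)),
      chevE6.IsDiagonalAut d ∧ chevE6.IsGraphAut g ∧ chevE6.IsFieldAut f ∧
        ∀ y : ↥(chevE6.group F), θ y = x * d (g (f y)) * x⁻¹ := by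
  have hO : SimpOK chevE6 F hE6 := simpOK_of_chk chevE6 hE6 simpleChk_E6
  refine decomp_main hE6 p (fun θ₁ hS => ?_) (fun θ' hS hpos hneg =>
    dfield_of_dAut hE6 rcOK_E6 (hS.eq_diag_field hE6 hO dynOK_E6 rcOK_E6 hpos hneg)) θ
  obtain ⟨π, hinj, hadj, hpos, hneg⟩ := hS.exists_perm hE6 hO
  rcases e6_rigid π hinj hadj with hπ | hπ
  · obtain ⟨a, b, c, d⟩ := one_good (F := F) chevE6
    exact ⟨π, 1, hinj, hpos, hneg, a, b, fun i => by rw [hπ i]; exact c i,
      fun i => by rw [hπ i]; exact d i⟩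
  · exact ⟨π, gE6, hinj, hpos, hneg, gE6_stabUV, isGraphAut_gE6,
      fun i => by rw [hπ i]; exact gE6_mapsPos i, fun i => by rw [hπ i]; exact gE6_mapsNeg i⟩

/-! ### `G₂` -/

/-- in characteristic other than 3 no automorphism stabilising `U` and `V` exchanges the two
fundamental root subgroups (all finite fields) -/
theorem g2_no_swap' [Fintype F] (h3 : (3 : F) ≠ 0)
    {θ : MulAut ↥(chevG2.group F)} (h : StabUV chevG2 θ)
    (hpos : ∀ i : Fin chevG2.rank, MapsSub chevG2 θ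
      (chevG2.rootSubgroup F (chevG2.simple i.val))
      (chevG2.rootSubgroup F (chevG2.simple (swG2 i).val)))
    (hneg : ∀ i : Fin chevG2.rank, MapsSub chevG2 θ
      (chevG2.rootSubgroup F (chevG2.neg (chevG2.simple i.val)))
      (chevG2.rootSubgroup F (chevG2.neg (chevG2.simple (swG2 i).val)))) : False := by
  have hn0 := h.map_nG' g2mem ⟨0, by decide⟩ ⟨1, by decide⟩ (hpos ⟨0, by decide⟩)
    (hneg ⟨0, by decide⟩)
  have hn1 := h.map_nG' g2mem ⟨1, by decide⟩ ⟨0, by decide⟩ (hpos ⟨1, by decide⟩)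
    (hneg ⟨1, by decide⟩)
  have m0 : MapsSub chevG2 θ (chevG2.rootSubgroup F 6) (chevG2.rootSubgroup F 7) :=
    hpos ⟨1, by decide⟩
  have m1 : MapsSub chevG2 θ (chevG2.rootSubgroup F 10) (chevG2.rootSubgroup F 8) :=
    MapsSub.reflect g2mem ⟨0, by decide⟩ ⟨1, by decide⟩ 6 7 (by decide) (by decide) hn0 m0
  have m2 : MapsSub chevG2 θ (chevG2.rootSubgroup F 11) (chevG2.rootSubgroup F 9) :=
    MapsSub.reflect g2mem ⟨1, by decide⟩ ⟨0, by decide⟩ 10 8 (by decide) (by decide) hn1 m1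
  obtain ⟨c, hc⟩ := m0.exists_param g2mem (1 : F)
  obtain ⟨c', hc'⟩ := m2.exists_param g2mem (1 : F)
  have hc0 : c ≠ 0 := param_ne_zero g2mem (by decide : 6 < chevG2.nroots) one_ne_zero hc
  have hc'0 : c' ≠ 0 := param_ne_zero g2mem (by decide : 11 < chevG2.nroots) one_ne_zero hc'
  have e1 : xG chevG2 g2mem 11 (1 : F) * xG chevG2 g2mem 6 1 =
      xG chevG2 g2mem 6 1 * xG chevG2 g2mem 11 1 :=
    Subtype.ext (comm_of_terms_nil chevG2 g2mem 6 11 (by decide) (by decide) (by decide)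
      (by decide) (by decide) 1 1)
  have e2 := congrArg θ e1
  rw [map_mul, map_mul, hc, hc'] at e2
  have e3 : xU chevG2 g2mem 9 c' * xU chevG2 g2mem 7 c =
      xU chevG2 g2mem 7 c * xU chevG2 g2mem 9 c' := congrArg Subtype.val e2
  have e4 := comm_of_terms_one chevG2 g2mem 7 9 10 3 (by decide) (by decide) (by decide)
    (by decide) (by decide) c c'
  rw [e3] at e4
  have e5 : xU chevG2 g2mem 10 (((3 : ℤ) : F) * (-c) * c') = 1 := by
    have e6 : xU chevG2 g2mem 7 c * xU chevG2 g2mem 9 c' * 1 =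
        xU chevG2 g2mem 7 c * xU chevG2 g2mem 9 c' *
          xU chevG2 g2mem 10 (((3 : ℤ) : F) * (-c) * c') := by
      rw [mul_one]
      exact e4
    exact (mul_left_cancel e6).symm
  have e7 := (xU_eq_one_iff chevG2 g2mem 10 (by decide) _).mp e5
  rw [Int.cast_ofNat] at e7
  rcases mul_eq_zero.mp e7 with h' | h'
  · rcases mul_eq_zero.mp h' with h'' | h''
    · exact h3 h''
    · exact hc0 (neg_eq_zero.mp h'')
  · exact hc'0 h'

theorem g2lam_neg : ∀ i : Fin chevG2.rank,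
    g2lam (chevG2.neg (chevG2.simple i.val)) = g2lam (chevG2.simple i.val) := by decide

theorem isGraphAut_gG2 [CharP F 3] [Finite F] : chevG2.IsGraphAut (gG2 (F := F)) := by
  refine isGraphAut_of_simple g2mem gG2 (Function.Involutive.toPerm swG2 sw_sw) ?_
    (fun i => g2lam (chevG2.simple i.val)) ?_ ?_ ?_
  · intro i j hij
    show chevG2.bonds (swG2 i).val (swG2 j).val = chevG2.bonds i.val j.val
    revert i j
    decide
  · intro i
    show chevG2.graphExp (ringChar F) i.val (swG2 i).val = _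
    rw [ringChar.eq F 3]
    revert i
    decide
  · intro i t
    show gG2 (xG chevG2 g2mem (chevG2.simple i.val) t) =
      xG chevG2 g2mem (chevG2.simple (swG2 i).val) (t ^ g2lam (chevG2.simple i.val))
    rw [gG2_root _ (simple_lt chevG2 g2mem i.val i.isLt), (g2ρ_simple i).1]
  · intro i t
    show gG2 (xG chevG2 g2mem (chevG2.neg (chevG2.simple i.val)) t) =
      xG chevG2 g2mem (chevG2.neg (chevG2.simple (swG2 i).val))
        (t ^ g2lam (chevG2.simple i.val))
    rw [gG2_root _ (neg_lt chevG2 g2mem _ (simple_lt chevG2 g2mem i.val i.isLt)).1,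
      (g2ρ_simple i).2, g2lam_neg i]

theorem decomp_G2 [Fintype F] (p : ℕ) [Fact p.Prime] [CharP F p]
    (θ : MulAut ↥(chevG2.group F)) :
    ∃ (x : ↥(chevG2.group F)) (d g f : ↥(chevG2.group F) ≃* ↥(chevG2.group F)),
      chevG2.IsDiagonalAut d ∧ chevG2.IsGraphAut g ∧ chevG2.IsFieldAut f ∧
        ∀ y : ↥(chevG2.group F), θ y = x * d (g (f y)) * x⁻¹ := by
  refine decomp_main g2mem p (fun θ₁ hS => ?_) (fun θ' hS hpos hneg =>
    dfield_of_conj g2mem (hS.eq_conj_field'' g2mem dynOK_G2 link_G2 torus_inj_G2 hpos hneg)) θ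
  obtain ⟨π, hinj, hpos, hneg⟩ := hS.exists_perm' g2mem posNegOK_G2
  rcases perm_G2 π hinj with hπ | hπ
  · obtain ⟨a, b, c, d⟩ := one_good (F := F) chevG2
    exact ⟨π, 1, hinj, hpos, hneg, a, b, fun i => by rw [hπ i]; exact c i,
      fun i => by rw [hπ i]; exact d i⟩
  · by_cases h3 : (3 : F) = 0
    · have hp3 : p = 3 := by
        have h' : ((3 : ℕ) : F) = 0 := by exact_mod_cast h3
        rw [CharP.cast_eq_zero_iff F p] at h'
        exact (Nat.prime_dvd_prime_iff_eq (Fact.out : p.Prime) Nat.prime_three).mp h'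
      subst hp3
      exact ⟨π, gG2, hinj, hpos, hneg, gG2_stabUV, isGraphAut_gG2,
        fun i => by rw [hπ i]; exact gG2_mapsPos i, fun i => by rw [hπ i]; exact gG2_mapsNeg i⟩
    · exact (g2_no_swap' h3 hS (fun i => by have h1 := hpos i; rwa [hπ i] at h1)
        (fun i => by have h1 := hneg i; rwa [hπ i] at h1)).elim

/-! ### `F₄` -/

set_option maxRecDepth 100000 in
theorem f4_graphExp : ∀ i : Fin chevF4.rank,
    chevF4.graphExp 2 i.val (swF4 i).val = (if i.val < 2 then 2 else 1) := by decide +kernel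

theorem isGraphAut_gF4 [CharP F 2] [Finite F] : chevF4.IsGraphAut (gF4 (F := F)) := by
  refine isGraphAut_of_simple hF4 gF4 (Function.Involutive.toPerm swF4 sw4_sw4) ?_
    (fun i => if i.val < 2 then 2 else 1) ?_ ?_ ?_
  · intro i j hij
    show chevF4.bonds (swF4 i).val (swF4 j).val = chevF4.bonds i.val j.val
    revert i j
    decide
  · intro i
    show chevF4.graphExp (ringChar F) i.val (swF4 i).val = _
    rw [ringChar.eq F 2]
    exact f4_graphExp i
  · intro i t
    exact f4φ_simple i t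
  · intro i t
    exact f4φ_neg_simple i t

theorem decomp_F4 [Fintype F] (p : ℕ) [Fact p.Prime] [CharP F p]
    (θ : MulAut ↥(chevF4.group F)) :
    ∃ (x : ↥(chevF4.group F)) (d g f : ↥(chevF4.group F) ≃* ↥(chevF4.group F)),
      chevF4.IsDiagonalAut d ∧ chevF4.IsGraphAut g ∧ chevF4.IsFieldAut f ∧
        ∀ y : ↥(chevF4.group F), θ y = x * d (g (f y)) * x⁻¹ := by
  refine decomp_main hF4 p (fun θ₁ hS => ?_) (fun θ' hS hpos hneg =>
    dfield_of_conj hF4 (hS.eq_conj_field'' hF4 dynOK_F4 link_F4 torus_inj_F4 hpos hneg)) θ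
  obtain ⟨π, hinj, hpos, hneg⟩ := hS.exists_perm' hF4 posNegOK_F4
  have hna := fun i j hij hn =>
    StabUV.perm_nonadj hF4 posNegOK_F4 nonAdjOK_F4 π hinj hpos i j hij hn
  rcases perm_F4 π hinj hna with hπ | hπ
  · obtain ⟨a, b, c, d⟩ := one_good (F := F) chevF4
    exact ⟨π, 1, hinj, hpos, hneg, a, b, fun i => by rw [hπ i]; exact c i,
      fun i => by rw [hπ i]; exact d i⟩
  · by_cases h2 : (2 : F) = 0
    · have hp2 : p = 2 := by
        have h' : ((2 : ℕ) : F) = 0 := by exact_mod_cast h2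
        rw [CharP.cast_eq_zero_iff F p] at h'
        exact (Nat.prime_dvd_prime_iff_eq (Fact.out : p.Prime) Nat.prime_two).mp h'
      subst hp2
      exact ⟨π, gF4, hinj, hpos, hneg, gF4_stabUV, isGraphAut_gF4,
        fun i => by rw [hπ i]; exact gF4_mapsPos i, fun i => by rw [hπ i]; exact gF4_mapsNeg i⟩
    · have hq : ∃ u₀ : F, u₀ ≠ 0 ∧ u₀ ≠ 1 := by
        refine ⟨-1, by simp, fun h => h2 ?_⟩
        have e : (2 : F) = 1 - (-1) := by ring
        rw [e, h, sub_self]
      exact (f4_no_swap h2 hq hS (fun i => by have h1 := hpos i; rwa [hπ i] at h1)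
        (fun i => by have h1 := hneg i; rwa [hπ i] at h1)).elim

end Cfsg.Agent.Lib.Helper36
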