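import Cfsg.Agent.Lib.Helper36.ChevDec

set_option autoImplicit false

/-!
# Decomposition of the automorphisms of Chevalley groups: Weyl elements and squares

The image of the Weyl elements `n_i` under an automorphism stabilising `U` and `V` without
torus hypotheses, and the field automorphism attached to a normalised automorphism when the
torus only scales by squares (odd characteristic).
-/

namespace Cfsg.Agent.Lib.Helper36

open Cfsg Cfsg.Lie Cfsg.Agent.Lib.Helper18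

universe u

variable {F : Type u} [Field F]

set_option maxRecDepth 100000 in
theorem cartan_simple_self (D : ChevalleyDatum)
    (hD : D ∈ [chevG2, chevB2, chevD4, chevF4, chevE6, chevE7, chevE8]) (k : ℕ)
    (hk : k < D.rank) : D.cartan k (D.simple k) = 2 := by
  simp only [List.mem_cons, List.mem_nil_iff, or_false] at hD
  rcases hD with rfl | rfl | rfl | rfl | rfl | rfl | rfl
  all_goals (revert k; decide +kernel)

/-- scaling of a fundamental root subgroup by squares -/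
theorem scale_sq (D : ChevalleyDatum)
    (hD : D ∈ [chevG2, chevB2, chevD4, chevF4, chevE6, chevE7, chevE8]) (k : Fin D.rank) (u : F)
    (hu : u ≠ 0) :
    ∃ h ∈ D.diagonalSubgroup F, ∀ t : F,
      h * xU D hD (D.simple k.val) t * h⁻¹ = xU D hD (D.simple k.val) (u ^ 2 * t) := by
  refine ⟨torusHom D (Pi.mulSingle k (Units.mk0 u hu)), ?_, fun t => ?_⟩
  · rw [diagonalSubgroup_eq_range D hD]
    exact ⟨_, rfl⟩
  · rw [torus_conj D hD _ _ (simple_lt D hD k.val k.isLt) t, chiL_eq_mono, mono_mulSingle,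
      cartan_simple_self D hD k.val k.isLt]
    rfl

/-- over the field with two elements the image of `n_i` is `n_k` -/
theorem map_nG_two {D : ChevalleyDatum}
    (hD : D ∈ [chevG2, chevB2, chevD4, chevF4, chevE6, chevE7, chevE8])
    (h2 : ∀ t : F, t = 0 ∨ t = 1) {θ : MulAut ↥(D.group F)} (i k : Fin D.rank)
    (hpos : MapsSub D θ (D.rootSubgroup F (D.simple i.val)) (D.rootSubgroup F (D.simple k.val)))
    (hneg : MapsSub D θ (D.rootSubgroup F (D.neg (D.simple i.val)))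
      (D.rootSubgroup F (D.neg (D.simple k.val)))) :
    ∃ h₁ ∈ D.diagonalSubgroup F,
      ((θ (nG D hD i) : ↥(D.group F)) : GL D.Idx F) = h₁ * nU D hD k := by
  have hsi := simple_lt D hD i.val i.isLt
  obtain ⟨t₁, ht₁⟩ := hpos.exists_param hD (1 : F)
  obtain ⟨s, hs⟩ := hneg.exists_param hD (-(1 : F)⁻¹)
  have hm0 : -(1 : F)⁻¹ ≠ 0 := neg_ne_zero.mpr (inv_ne_zero one_ne_zero)
  have ht0 : t₁ ≠ 0 := param_ne_zero hD hsi one_ne_zero ht₁
  have hs0 : s ≠ 0 := param_ne_zero hD (neg_lt D hD _ hsi).1 hm0 hs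
  have ht1 : t₁ = 1 := (h2 t₁).resolve_left ht0
  have hs1 : s = -(1 : F)⁻¹ := by
    rw [(h2 s).resolve_left hs0, (h2 (-(1 : F)⁻¹)).resolve_left hm0]
  refine ⟨1, one_mem _, ?_⟩
  have e1 : nG D hD i = xG D hD (D.simple i.val) (1 : F) *
      xG D hD (D.neg (D.simple i.val)) (-(1 : F)⁻¹) *
      xG D hD (D.simple i.val) (1 : F) := Subtype.ext (nU_eq_xU D hD i)
  rw [e1, map_mul, map_mul, ht₁, hs, ht1, hs1, one_mul, nU_eq_xU D hD k]
  rfl

/-- the image of `n_i` in characteristic different from 2 (no torus hypothesis) -/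
theorem StabUV.map_nG_odd [Fintype F] {D : ChevalleyDatum}
    (hD : D ∈ [chevG2, chevB2, chevD4, chevF4, chevE6, chevE7, chevE8]) (h2 : (2 : F) ≠ 0)
    {θ : MulAut ↥(D.group F)} (h : StabUV D θ) (i k : Fin D.rank)
    (hpos : MapsSub D θ (D.rootSubgroup F (D.simple i.val)) (D.rootSubgroup F (D.simple k.val)))
    (hneg : MapsSub D θ (D.rootSubgroup F (D.neg (D.simple i.val)))
      (D.rootSubgroup F (D.neg (D.simple k.val)))) :
    ∃ h₁ ∈ D.diagonalSubgroup F,
      ((θ (nG D hD i) : ↥(D.group F)) : GL D.Idx F) = h₁ * nU D hD k := by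
  have hS := sgnOK_all D hD
  have hsk := simple_lt D hD k.val k.isLt
  have hsi := simple_lt D hD i.val i.isLt
  obtain ⟨n₀, hn₀⟩ := exists_isW0 (F := F) D hD
  have hdiag := h.diag hD n₀ hn₀
  obtain ⟨t₁, ht₁⟩ := hpos.exists_param hD (1 : F)
  obtain ⟨s, hs⟩ := hneg.exists_param hD (-(1 : F)⁻¹)
  have hs0 : s ≠ 0 := param_ne_zero hD (neg_lt D hD _ hsi).1
    (neg_ne_zero.mpr (inv_ne_zero (one_ne_zero (α := F)))) hs
  have e1 : nG D hD i = xG D hD (D.simple i.val) (1 : F) *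
      xG D hD (D.neg (D.simple i.val)) (-(1 : F)⁻¹) *
      xG D hD (D.simple i.val) (1 : F) := Subtype.ext (nU_eq_xU D hD i)
  have e2 : θ (nG D hD i) = xG D hD (D.simple k.val) t₁ * xG D hD (D.neg (D.simple k.val)) s *
      xG D hD (D.simple k.val) t₁ := by
    rw [e1, map_mul, map_mul, ht₁, hs]
  obtain ⟨h₁, hh₁, e3⟩ := neg_eq_bruhat D hD k s hs0
  have e4 : ((θ (nG D hD i) : ↥(D.group F)) : GL D.Idx F) =
      xU D hD (D.simple k.val) (t₁ + s⁻¹) * (h₁ * nU D hD k) *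
        xU D hD (D.simple k.val) (t₁ + s⁻¹) := by
    rw [e2]
    show xU D hD (D.simple k.val) t₁ * xU D hD (D.neg (D.simple k.val)) s *
      xU D hD (D.simple k.val) t₁ = _
    rw [e3]
    have e5 : xU D hD (D.simple k.val) (t₁ + s⁻¹) =
        xU D hD (D.simple k.val) t₁ * xU D hD (D.simple k.val) s⁻¹ := (xU_mul D hD _ _ _).symm
    have e6 : xU D hD (D.simple k.val) (t₁ + s⁻¹) =
        xU D hD (D.simple k.val) s⁻¹ * xU D hD (D.simple k.val) t₁ := by
      rw [xU_mul, add_comm]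
    have e7 : ∀ (A S M : GL D.Idx F), A * (S * M * S) * A = (A * S) * M * (S * A) := by
      intro A S M
      group
    rw [e7, ← e5, ← e6]
  have hsq : ((θ (nG D hD i) : ↥(D.group F)) : GL D.Idx F) *
      ((θ (nG D hD i) : ↥(D.group F)) : GL D.Idx F) ∈ D.diagonalSubgroup F := by
    have h1 := hdiag (nG D hD i * nG D hD i) (nU_sq_mem D hD i)
    rw [map_mul] at h1
    exact h1
  obtain ⟨η₀, hη₀, hnconj⟩ := nU_conj_simple (F := F) D hD k
  have hXU : ∀ t : F, xU D hD (D.simple k.val) t ∈ D.posUnipotent F := fun t =>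
    Subgroup.subset_closure ⟨_, _, hS.pos_simple k.val k.isLt, coe_xU D hD _ _⟩
  have hUB : D.posUnipotent F ≤ D.borelSubgroup F := le_sup_left
  have hHB : D.diagonalSubgroup F ≤ D.borelSubgroup F := le_sup_right
  have hnn := nU_sq_mem (F := F) D hD k
  have hh₁' : nU D hD k * h₁ * (nU D hD k)⁻¹ ∈ D.diagonalSubgroup F :=
    conj_mem_of_mem_normalizer _ (nU_mem_normalizer D hD k) hh₁
  have hAA : xU D hD (D.simple k.val) (t₁ + s⁻¹) * xU D hD (D.simple k.val) (t₁ + s⁻¹) =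
      xU D hD (D.simple k.val) ((t₁ + s⁻¹) + (t₁ + s⁻¹)) := xU_mul D hD _ _ _
  have key : xU D hD (D.neg (D.simple k.val)) (η₀ * ((t₁ + s⁻¹) + (t₁ + s⁻¹))) =
      h₁⁻¹ * (xU D hD (D.simple k.val) (t₁ + s⁻¹))⁻¹ *
        (((θ (nG D hD i) : ↥(D.group F)) : GL D.Idx F) *
          ((θ (nG D hD i) : ↥(D.group F)) : GL D.Idx F)) *
        (xU D hD (D.simple k.val) (t₁ + s⁻¹))⁻¹ * (nU D hD k * nU D hD k)⁻¹ *
        (nU D hD k * h₁ * (nU D hD k)⁻¹)⁻¹ := by
    rw [← hnconj, ← hAA, e4]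
    generalize xU D hD (D.simple k.val) (t₁ + s⁻¹) = A
    generalize nU (F := F) D hD k = n
    group
  have hV : xU D hD (D.neg (D.simple k.val)) (η₀ * ((t₁ + s⁻¹) + (t₁ + s⁻¹))) ∈
      D.negUnipotent F :=
    Subgroup.subset_closure ⟨_, _, hS.neg_simple k.val k.isLt, coe_xU D hD _ _⟩
  have hB : xU D hD (D.neg (D.simple k.val)) (η₀ * ((t₁ + s⁻¹) + (t₁ + s⁻¹))) ∈
      D.borelSubgroup F := by
    rw [key]
    refine Subgroup.mul_mem _ (Subgroup.mul_mem _ (Subgroup.mul_mem _ (Subgroup.mul_mem _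
      (Subgroup.mul_mem _ ?_ ?_) (hHB hsq)) ?_) ?_) ?_
    · exact hHB (Subgroup.inv_mem _ hh₁)
    · exact hUB (Subgroup.inv_mem _ (hXU _))
    · exact hUB (Subgroup.inv_mem _ (hXU _))
    · exact hHB (Subgroup.inv_mem _ hnn)
    · exact hHB (Subgroup.inv_mem _ hh₁')
  have hbot : xU D hD (D.neg (D.simple k.val)) (η₀ * ((t₁ + s⁻¹) + (t₁ + s⁻¹))) ∈
      D.borelSubgroup F ⊓ D.negUnipotent F := ⟨hB, hV⟩
  rw [(Cfsg.Agent.S1037.result (F := F) D hD).1, Subgroup.mem_bot] at hbot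
  have h0 := (xU_eq_one_iff D hD _ (neg_lt D hD _ hsk).1 _).mp hbot
  have hd : t₁ + s⁻¹ = 0 := by
    have hη0 : η₀ ≠ 0 := by
      rcases hη₀ with h | h <;> rw [h] <;> simp
    have h1 : (t₁ + s⁻¹) + (t₁ + s⁻¹) = 0 := by
      rcases mul_eq_zero.mp h0 with h2' | h2'
      · exact absurd h2' hη0
      · exact h2'
    rw [← two_mul] at h1
    rcases mul_eq_zero.mp h1 with h2' | h2'
    · exact absurd h2' h2
    · exact h2'
  refine ⟨h₁, hh₁, ?_⟩
  rw [e4, hd, Cfsg.Agent.Lib.Helper18.xU_zero, one_mul, mul_one]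

/-- the image of `n_i` under an automorphism stabilising `U`, `V` and mapping `X_{±α_i}` to
`X_{±α_k}` lies in `H n_k` (all types, all finite fields) -/
theorem StabUV.map_nG' [Fintype F] {D : ChevalleyDatum}
    (hD : D ∈ [chevG2, chevB2, chevD4, chevF4, chevE6, chevE7, chevE8])
    {θ : MulAut ↥(D.group F)} (h : StabUV D θ) (i k : Fin D.rank)
    (hpos : MapsSub D θ (D.rootSubgroup F (D.simple i.val)) (D.rootSubgroup F (D.simple k.val)))
    (hneg : MapsSub D θ (D.rootSubgroup F (D.neg (D.simple i.val)))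
      (D.rootSubgroup F (D.neg (D.simple k.val)))) :
    ∃ h₁ ∈ D.diagonalSubgroup F,
      ((θ (nG D hD i) : ↥(D.group F)) : GL D.Idx F) = h₁ * nU D hD k := by
  by_cases h2 : (2 : F) = 0
  · by_cases hq : ∃ u₀ : F, u₀ ≠ 0 ∧ u₀ ≠ 1
    · obtain ⟨u, hu0, hu1⟩ := hq
      obtain ⟨h₀, hh₀, hc⟩ := scale_sq D hD k u hu0
      refine h.map_nG hD i k hpos hneg ⟨u ^ 2, h₀, pow_ne_zero 2 hu0, ?_, hh₀, hc⟩
      intro e
      have e2 : (u - 1) ^ 2 = 0 := by
        have e3 : (u - 1) ^ 2 = u ^ 2 - 2 * u + 1 := by ring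
        rw [e3, e, h2, zero_mul, sub_zero, one_add_one_eq_two]
        exact h2
      exact hu1 (sub_eq_zero.mp ((pow_eq_zero_iff two_ne_zero).mp e2))
    · have h2' : ∀ t : F, t = 0 ∨ t = 1 := by
        intro t
        by_contra hc
        push_neg at hc
        exact hq ⟨t, hc.1, hc.2⟩
      exact map_nG_two hD h2' i k hpos hneg
  · exact h.map_nG_odd hD h2 i k hpos hneg

end Cfsg.Agent.Lib.Helper36
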