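import Cfsg.Agent.Lib.Helper36.ChevDecN

set_option autoImplicit false

/-!
# Decomposition of the automorphisms of Chevalley groups: odd characteristic

In characteristic different from 2, an automorphism stabilising `U`, `V` and the fundamental
root subgroups is the product of a diagonal and a field automorphism, as soon as the values of
a character of the root lattice on the fundamental roots can be prescribed.  Only the scaling
of the fundamental root subgroups by squares is used.
-/

namespace Cfsg.Agent.Lib.Helper36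

open Cfsg Cfsg.Lie Cfsg.Agent.Lib.Helper18

universe u

variable {F : Type u} [Field F]

theorem diagAut_stabUV (D : ChevalleyDatum)
    (hD : D ∈ [chevG2, chevB2, chevD4, chevF4, chevE6, chevE7, chevE8]) (χ : ℕ → Fˣ)
    (hχ : D.IsRootCharacter χ) : StabUV D (diagAut (F := F) D hD χ hχ) := by
  constructor
  · have h1 : MapsSub D (diagAut D hD χ hχ) (Subgroup.closure {g : GL D.Idx F |
        ∃ (r : ℕ) (t : F), D.IsPosRoot r ∧ (g : Matrix D.Idx D.Idx F) = D.x F r t})
        (D.posUnipotent F) := fun y hy => conj_mem_closure _ (D.posUnipotent F) _ (by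
      rintro x ⟨r, t, hr, hx⟩
      rw [eq_xU D hD r t x hx, charDiagU_conj D hD _ hχ r hr.1 t]
      exact Subgroup.subset_closure ⟨r, _, hr, coe_xU D hD _ _⟩) y.1 hy
    exact h1
  · have h1 : MapsSub D (diagAut D hD χ hχ) (Subgroup.closure {g : GL D.Idx F |
        ∃ (r : ℕ) (t : F), D.IsNegRoot r ∧ (g : Matrix D.Idx D.Idx F) = D.x F r t})
        (D.negUnipotent F) := fun y hy => conj_mem_closure _ (D.negUnipotent F) _ (by
      rintro x ⟨r, t, hr, hx⟩
      rw [eq_xU D hD r t x hx, charDiagU_conj D hD _ hχ r hr.1 t]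
      exact Subgroup.subset_closure ⟨r, _, hr, coe_xU D hD _ _⟩) y.1 hy
    exact h1

theorem diagAut_mapsRoot (D : ChevalleyDatum)
    (hD : D ∈ [chevG2, chevB2, chevD4, chevF4, chevE6, chevE7, chevE8]) (χ : ℕ → Fˣ)
    (hχ : D.IsRootCharacter χ) (r : ℕ) (hr : r < D.nroots) :
    MapsSub D (diagAut D hD χ hχ) (D.rootSubgroup F r) (D.rootSubgroup F r) := by
  intro y hy
  obtain ⟨t, ht⟩ := (mem_rootSubgroup_iff D hD r _).mp hy
  have e : y = xG D hD r t := Subtype.ext ht
  rw [e, diagAut_xG D hD χ hχ r hr]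
  exact xG_mem_root D hD r _

theorem sq_sub_sq_half (h2 : (2 : F) ≠ 0) (x : F) :
    x = ((x + 1) / 2) ^ 2 - ((x - 1) / 2) ^ 2 := by
  field_simp
  ring

/-- a normalised automorphism stabilising `U`, `V` and the fundamental root subgroups acts on
the fundamental root elements and their negatives through a field automorphism
(characteristic different from 2, all types) -/
theorem StabUV.field_of_normalized_sq [Fintype F] {D : ChevalleyDatum}
    (hD : D ∈ [chevG2, chevB2, chevD4, chevF4, chevE6, chevE7, chevE8])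
    (hY : DynOK D)
    (hlink : ∀ i j : Fin D.rank, i ≠ j → D.cartan i.val (D.simple j.val) ≠ 0 →
      LinkOK D i.val j.val ∨ LinkOK D j.val i.val)
    (h2 : (2 : F) ≠ 0)
    {θ : MulAut ↥(D.group F)} (h : StabUV D θ)
    (hpos : ∀ i : Fin D.rank, MapsSub D θ (D.rootSubgroup F (D.simple i.val))
      (D.rootSubgroup F (D.simple i.val)))
    (hneg : ∀ i : Fin D.rank, MapsSub D θ (D.rootSubgroup F (D.neg (D.simple i.val)))
      (D.rootSubgroup F (D.neg (D.simple i.val))))
    (hnorm : ∀ i : Fin D.rank, θ (xG D hD (D.simple i.val) 1) = xG D hD (D.simple i.val) 1) :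
    ∃ σ : F ≃+* F, ∀ (i : Fin D.rank) (t : F),
      θ (xG D hD (D.simple i.val) t) = xG D hD (D.simple i.val) (σ t) ∧
      θ (xG D hD (D.neg (D.simple i.val)) t) = xG D hD (D.neg (D.simple i.val)) (σ t) := by
  have hsl : ∀ i : Fin D.rank, D.simple i.val < D.nroots := fun i => simple_lt D hD i.val i.isLt
  have hnl : ∀ i : Fin D.rank, D.neg (D.simple i.val) < D.nroots :=
    fun i => (neg_lt D hD _ (hsl i)).1
  obtain ⟨n₀, hn₀⟩ := exists_isW0 (F := F) D hD
  have hdiag := h.diag hD n₀ hn₀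
  choose f hf using fun (i : Fin D.rank) (t : F) => (hpos i).exists_param hD t
  choose g hg using fun (i : Fin D.rank) (t : F) => (hneg i).exists_param hD t
  have xG_inj : ∀ (r : ℕ) (_ : r < D.nroots) (a b : F), xG D hD r a = xG D hD r b → a = b :=
    fun r hr a b e => xU_injective D hD r hr a b (congrArg Subtype.val e)
  have hf1 : ∀ i, f i 1 = 1 := by
    intro i
    have h1 := hf i 1
    rw [hnorm i] at h1
    exact (xG_inj _ (hsl i) _ _ h1).symm
  have hfadd : ∀ i s t, f i (s + t) = f i s + f i t := by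
    intro i s t
    have h1 := hf i (s + t)
    rw [← xG_mul, map_mul, hf, hf, xG_mul] at h1
    exact (xG_inj _ (hsl i) _ _ h1).symm
  have hf0 : ∀ i, f i 0 = 0 := by
    intro i
    have h1 := hfadd i 0 0
    rw [add_zero] at h1
    exact add_eq_left.mp h1.symm
  have hfneg : ∀ i t, f i (-t) = -f i t := by
    intro i t
    have h1 := hfadd i (-t) t
    rw [neg_add_cancel, hf0] at h1
    exact eq_neg_of_add_eq_zero_left h1.symm
  have hfsub : ∀ i s t, f i (s - t) = f i s - f i t := by
    intro i s t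
    rw [sub_eq_add_neg, hfadd, hfneg, ← sub_eq_add_neg]
  have hfmulsq : ∀ i u t, f i (u ^ 2 * t) = f i (u ^ 2) * f i t := by
    intro i u t
    by_cases hu : u = 0
    · rw [hu, zero_pow two_ne_zero, zero_mul, hf0, zero_mul]
    · obtain ⟨hh, hhH, hconj⟩ := scale_sq D hD i u hu
      have hhG := diagonalSubgroup_le_group D hD hhH
      have h1 := hdiag ⟨hh, hhG⟩ hhH
      rw [diagonalSubgroup_eq_range D hD] at h1
      obtain ⟨c', hc'⟩ := h1
      have hm : ∀ s : F, ((θ ⟨hh, hhG⟩ : ↥(D.group F)) : GL D.Idx F) *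
          xU D hD (D.simple i.val) s * ((θ ⟨hh, hhG⟩ : ↥(D.group F)) : GL D.Idx F)⁻¹ =
          xU D hD (D.simple i.val)
            (chiL D (cx D c') (List.range D.rank) (D.simple i.val) * s) := by
        intro s
        rw [← hc']
        exact torus_conj D hD c' _ (hsl i) s
      have key : ∀ t' : F, f i (u ^ 2 * t') =
          chiL D (cx D c') (List.range D.rank) (D.simple i.val) * f i t' := by
        intro t'
        have e1 : (⟨hh, hhG⟩ : ↥(D.group F)) * xG D hD (D.simple i.val) t' *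
            (⟨hh, hhG⟩ : ↥(D.group F))⁻¹ = xG D hD (D.simple i.val) (u ^ 2 * t') :=
          Subtype.ext (hconj t')
        have e2 := congrArg θ e1
        rw [map_mul, map_mul, map_inv, hf, hf] at e2
        have e3 : ((θ ⟨hh, hhG⟩ : ↥(D.group F)) : GL D.Idx F) *
            xU D hD (D.simple i.val) (f i t') * ((θ ⟨hh, hhG⟩ : ↥(D.group F)) : GL D.Idx F)⁻¹ =
            xU D hD (D.simple i.val) (f i (u ^ 2 * t')) := congrArg Subtype.val e2
        exact xU_injective D hD _ (hsl i) _ _ (e3.symm.trans (hm (f i t')))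
      have k1 := key 1
      rw [mul_one, hf1, mul_one] at k1
      rw [key t, ← k1]
  have hfmul : ∀ i u t, f i (u * t) = f i u * f i t := by
    intro i u t
    have e := sq_sub_sq_half h2 u
    rw [e, sub_mul, hfsub, hfmulsq, hfmulsq, hfsub, sub_mul]
  have hN : ∀ i : Fin D.rank, ∃ h₁ ∈ D.diagonalSubgroup F,
      ((θ (nG D hD i) : ↥(D.group F)) : GL D.Idx F) = h₁ * nU D hD i :=
    fun i => h.map_nG_odd hD h2 i i (hpos i) (hneg i)
  have hlksq : ∀ i j : Fin D.rank, LinkOK D i.val j.val → ∀ u : F, u ≠ 0 →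
      f i (u ^ 2) = f j (u ^ 2) := by
    intro i j hL u hu
    obtain ⟨η, hη⟩ := nU_smap (F := F) D hD j
    obtain ⟨κ, hκ, hs⟩ := reflect_param hD j (D.simple i.val) (hsl i) (f i) (hf i) (hfneg i)
      (hN j)
    obtain ⟨hh, hhH, hconj⟩ := scale_sq D hD j u hu
    have hhG := diagonalSubgroup_le_group D hD hhH
    have h1 := hdiag ⟨hh, hhG⟩ hhH
    rw [diagonalSubgroup_eq_range D hD] at h1 hhH
    obtain ⟨c', hc'⟩ := h1
    obtain ⟨c, hc⟩ := hhH
    subst hc
    have hχj : chiL D (cx D c) (List.range D.rank) (D.simple j.val) = u ^ 2 := by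
      have e1 := torus_conj D hD c _ (hsl j) (1 : F)
      rw [hconj 1] at e1
      have e2 := xU_injective D hD _ (hsl j) _ _ e1
      rw [mul_one, mul_one] at e2
      exact e2.symm
    have k1 := torus_char_image hD c c' hhG hc'.symm _ (hsl i) 1 one_ne_zero (f i) (hf1 i)
      (by intro t; rw [one_mul]; exact hf i t)
    have k2 := torus_char_image hD c c' hhG hc'.symm _ (hsl j) 1 one_ne_zero (f j) (hf1 j)
      (by intro t; rw [one_mul]; exact hf j t)
    have k3 := torus_char_image hD c c' hhG hc'.symm _ (hη.lt _ (hsl i)) κ hκ (f i) (hf1 i) hs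
    have a1 := chiL_of_add D (cx D c) (List.range D.rank) (fun k _ => cx_ne_zero D c k) _ _ _
      (fun k hk => hL k (List.mem_range.mp hk))
    have a2 := chiL_of_add D (cx D c') (List.range D.rank) (fun k _ => cx_ne_zero D c' k) _ _ _
      (fun k hk => hL k (List.mem_range.mp hk))
    rw [a1, a2, k1, k2, hfmul, hχj] at k3
    have hne : f i (chiL D (cx D c) (List.range D.rank) (D.simple i.val)) ≠ 0 := by
      intro e0
      have e1 := hfmul i (chiL D (cx D c) (List.range D.rank) (D.simple i.val))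
        (chiL D (cx D c) (List.range D.rank) (D.simple i.val))⁻¹
      rw [mul_inv_cancel₀ (chiL_ne_zero D _ _ (fun k _ => cx_ne_zero D c k) _), hf1, e0,
        zero_mul] at e1
      exact one_ne_zero e1
    exact (mul_left_cancel₀ hne k3).symm
  have hlk : ∀ i j : Fin D.rank, LinkOK D i.val j.val → ∀ a, f i a = f j a := by
    intro i j hL a
    have key : ∀ u : F, f i (u ^ 2) = f j (u ^ 2) := by
      intro u
      by_cases hu : u = 0
      · rw [hu, zero_pow two_ne_zero, hf0, hf0]
      · exact hlksq i j hL u hu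
    have e := sq_sub_sq_half h2 a
    rw [e, hfsub, hfsub, key, key]
  have hadjeq : ∀ i j : Fin D.rank, i ≠ j → D.cartan i.val (D.simple j.val) ≠ 0 →
      ∀ a, f i a = f j a := by
    intro i j hij hc a
    rcases hlink i j hij hc with hL | hL
    · exact hlk i j hL a
    · exact (hlk j i hL a).symm
  obtain ⟨i₀, hi₀, hconn⟩ := hY.conn
  have hall : ∀ (i : Fin D.rank) (a : F), f i a = f ⟨i₀, hi₀⟩ a := by
    have h1 := hconn (fun k => ∀ hk : k < D.rank, ∀ a, f ⟨k, hk⟩ a = f ⟨i₀, hi₀⟩ a) (by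
      intro c par hc hp hne hcart hQ hk a
      rw [← hQ hp a]
      exact (hadjeq ⟨par, hp⟩ ⟨c, hc⟩ (fun e => hne (congrArg Fin.val e).symm) hcart a).symm)
      (fun _ _ => rfl)
    exact fun i => h1 i.val i.isLt i.isLt
  let σ₀ : F →+* F :=
    { toFun := f ⟨i₀, hi₀⟩
      map_one' := hf1 _
      map_mul' := hfmul _
      map_zero' := hf0 _
      map_add' := hfadd _ }
  have hσ : ∀ (i : Fin D.rank) (a : F), f i a = σ₀ a := hall
  refine ⟨RingEquiv.ofBijective σ₀
    ⟨σ₀.injective, Finite.injective_iff_surjective.mp σ₀.injective⟩, fun i t => ⟨?_, ?_⟩⟩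
  · rw [hf, hσ]
    rfl
  · rw [hg]
    congr 1
    show g i t = σ₀ t
    by_cases ht : t = 0
    · subst ht
      have h1 := hg i 0
      have h0 : xG D hD (D.neg (D.simple i.val)) (0 : F) = 1 :=
        Subtype.ext (Cfsg.Agent.Lib.Helper18.xU_zero D hD _)
      rw [h0, map_one] at h1
      have e := xG_inj _ (hnl i) _ _ (h0.trans h1)
      rw [← e, map_zero]
    · have hgt : g i t ≠ 0 := param_ne_zero hD (hnl i) ht (hg i t)
      obtain ⟨h₁, hh₁, e1⟩ := neg_eq_bruhat D hD i t ht
      obtain ⟨h₃, hh₃, e3⟩ := neg_eq_bruhat D hD i (g i t) hgt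
      obtain ⟨h₂, hh₂, e2⟩ := hN i
      have hh₁G := diagonalSubgroup_le_group D hD hh₁
      have e4 : xG D hD (D.neg (D.simple i.val)) t = xG D hD (D.simple i.val) t⁻¹ *
          ((⟨h₁, hh₁G⟩ : ↥(D.group F)) * nG D hD i) * xG D hD (D.simple i.val) t⁻¹ :=
        Subtype.ext e1
      have e5 := congrArg θ e4
      rw [hg, map_mul, map_mul, map_mul, hf] at e5
      have e6 : xU D hD (D.simple i.val) (g i t)⁻¹ * (h₃ * nU D hD i) *
          xU D hD (D.simple i.val) (g i t)⁻¹ =
          xU D hD (D.simple i.val) (f i t⁻¹) *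
            ((((θ ⟨h₁, hh₁G⟩ : ↥(D.group F)) : GL D.Idx F) * h₂) * nU D hD i) *
            xU D hD (D.simple i.val) (f i t⁻¹) := by
        rw [← e3, mul_assoc _ h₂, ← e2]
        exact congrArg Subtype.val e5
      have hm := Subgroup.mul_mem _ (hdiag ⟨h₁, hh₁G⟩ hh₁) hh₂
      have e7 := rank_one_unique D hD i _ _ _ _ hh₃ hm e6
      rw [hσ, map_inv₀] at e7
      exact inv_injective e7

/-- in characteristic different from 2 an automorphism stabilising `U`, `V` and the fundamental
root subgroups is the product of a diagonal and a field automorphism -/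
theorem StabUV.eq_diag_field_sq [Fintype F] {D : ChevalleyDatum}
    (hD : D ∈ [chevG2, chevB2, chevD4, chevF4, chevE6, chevE7, chevE8])
    (hY : DynOK D)
    (hlink : ∀ i j : Fin D.rank, i ≠ j → D.cartan i.val (D.simple j.val) ≠ 0 →
      LinkOK D i.val j.val ∨ LinkOK D j.val i.val)
    (h2 : (2 : F) ≠ 0)
    (hchar : ∀ d : Fin D.rank → Fˣ, ∃ χ : ℕ → Fˣ, D.IsRootCharacter χ ∧
      ∀ i : Fin D.rank, χ (D.simple i.val) = d i)
    {θ : MulAut ↥(D.group F)} (h : StabUV D θ)
    (hpos : ∀ i : Fin D.rank, MapsSub D θ (D.rootSubgroup F (D.simple i.val))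
      (D.rootSubgroup F (D.simple i.val)))
    (hneg : ∀ i : Fin D.rank, MapsSub D θ (D.rootSubgroup F (D.neg (D.simple i.val)))
      (D.rootSubgroup F (D.neg (D.simple i.val)))) :
    ∃ (χ : ℕ → Fˣ) (hχ : D.IsRootCharacter χ) (σ : F ≃+* F),
      ∀ φ : MulAut ↥(D.group F), FieldRel D φ σ → θ = diagAut D hD χ hχ * φ := by
  have hsl : ∀ i : Fin D.rank, D.simple i.val < D.nroots := fun i => simple_lt D hD i.val i.isLt
  have hnl : ∀ i : Fin D.rank, D.neg (D.simple i.val) < D.nroots :=
    fun i => (neg_lt D hD _ (hsl i)).1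
  choose a ha using fun i : Fin D.rank => (hpos i).exists_param hD (1 : F)
  have ha0 : ∀ i, a i ≠ 0 := fun i => param_ne_zero hD (hsl i) one_ne_zero (ha i)
  obtain ⟨χ, hχR, hχs⟩ := hchar (fun i => Units.mk0 (a i) (ha0 i))
  have hδS : StabUV D (diagAut (F := F) D hD χ hχR) := diagAut_stabUV D hD χ hχR
  have hS : StabUV D ((diagAut D hD χ hχR)⁻¹ * θ) := (hδS.inv hD).mul h
  have hp : ∀ i : Fin D.rank, MapsSub D ((diagAut D hD χ hχR)⁻¹ * θ)
      (D.rootSubgroup F (D.simple i.val)) (D.rootSubgroup F (D.simple i.val)) := fun i =>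
    MapsSub.mul ((diagAut_mapsRoot D hD χ hχR _ (hsl i)).inv (rootSubgroup_le_group D hD _) rfl)
      (hpos i)
  have hn : ∀ i : Fin D.rank, MapsSub D ((diagAut D hD χ hχR)⁻¹ * θ)
      (D.rootSubgroup F (D.neg (D.simple i.val))) (D.rootSubgroup F (D.neg (D.simple i.val))) :=
    fun i => MapsSub.mul
      ((diagAut_mapsRoot D hD χ hχR _ (hnl i)).inv (rootSubgroup_le_group D hD _) rfl) (hneg i)
  have hnorm : ∀ i : Fin D.rank, ((diagAut D hD χ hχR)⁻¹ * θ) (xG D hD (D.simple i.val) 1) =
      xG D hD (D.simple i.val) 1 := by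
    intro i
    have e1 : diagAut D hD χ hχR (xG D hD (D.simple i.val) (1 : F)) =
        xG D hD (D.simple i.val) (a i) := by
      rw [diagAut_xG D hD χ hχR _ (hsl i), hχs i, mul_one]
      rfl
    show (diagAut D hD χ hχR)⁻¹ (θ (xG D hD (D.simple i.val) 1)) = _
    rw [ha i, ← e1]
    exact MulAut.inv_apply_self _ _ _
  obtain ⟨σ, hσ⟩ := hS.field_of_normalized_sq hD hY hlink h2 hp hn hnorm
  refine ⟨χ, hχR, σ, fun φ hφ => ?_⟩
  have e : (diagAut D hD χ hχR)⁻¹ * θ = φ := by
    apply aut_ext_simple D hD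
    intro i t
    exact ⟨by rw [(hσ i t).1, fieldRel_xG hD hφ _ (hsl i)],
      by rw [(hσ i t).2, fieldRel_xG hD hφ _ (hnl i)]⟩
  rw [← e]
  group

end Cfsg.Agent.Lib.Helper36
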