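import Cfsg.Agent.Lib.Helper18.ReeSigma

set_option autoImplicit false

/-!
# Exceptional graph endomorphisms of Chevalley groups: the generic construction

In characteristic `p` (`p = 2` for `B₂`, `F₄`, `p = 3` for `G₂`) the span `I` of the short root
vectors and the short fundamental coroots is invariant under the Chevalley group, and the
action on the quotient by `I` is, in the basis given by an index involution `τ`, the action on
`I` twisted by `x_r(t) ↦ x_{ρ r}(t ^ λ r)`.  When the group acts faithfully on `I` this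
defines an endomorphism.  (Generic version of the construction of `Helper18.ReeSigma`.)
-/

namespace Cfsg.Agent.Lib.Helper36

open Cfsg Cfsg.Lie Cfsg.Agent.Lib.Helper18

/-- data of an exceptional graph endomorphism: the root permutation, the exponents, the
indices of the invariant subspace and the index involution -/
structure GrData (D : ChevalleyDatum) where
  /-- the root permutation -/
  ρ : ℕ → ℕ
  /-- the exponents -/
  lam : ℕ → ℕ
  /-- membership in the invariant subspace -/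
  I : D.Idx → Bool
  /-- the index involution -/
  τ : D.Idx → D.Idx

namespace GrData

variable {D : ChevalleyDatum} (X : GrData D)

/-- `ρ` on the root indices -/
def ρF (r : Fin D.nroots) : Fin D.nroots :=
  if h : X.ρ r.val < D.nroots then ⟨X.ρ r.val, h⟩ else r

/-- the finite checks making the data work in characteristic `p` (entries of degree `< n`) -/
structure OK (p n : ℕ) : Prop where
  pos : 0 < p
  ρ_lt : ∀ r : Fin D.nroots, X.ρ r.val < D.nroots
  τ_inv : ∀ c : D.Idx, X.τ (X.τ c) = c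
  τ_I : ∀ c : D.Idx, X.I (X.τ c) = !X.I c
  deg : ∀ r : Fin D.nroots, ∀ row col : D.Idx, ∀ km ∈ xTerms D r row col, km.1 < n
  bt : ∀ r : Fin D.nroots, ∀ c i : D.Idx, X.I c = false → X.I i = true →
    ∀ k < n, coefTerms (xTerms D r c i) k % (p : ℤ) = 0
  lam_le : ∀ r : Fin D.nroots, X.lam r.val ≤ p
  rel : ∀ r : Fin D.nroots, ∀ c c' : D.Idx, X.I c = false → X.I c' = false → ∀ k < p * n,
    (coefTerms (scaleTerms (X.lam r.val) (xTerms D (X.ρF r) (X.τ c) (X.τ c'))) k -
      coefTerms (xTerms D r c c') k) % (p : ℤ) = 0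

section

variable {K : Type*} [Field K]

/-- block triangular: the subspace is invariant -/
def BT (g : Matrix D.Idx D.Idx K) : Prop :=
  ∀ c i, X.I c = false → X.I i = true → g c i = 0

/-- the action of `g` on the quotient is the action of `g'` on the subspace -/
def Rel (g g' : Matrix D.Idx D.Idx K) : Prop :=
  ∀ c c', X.I c = false → X.I c' = false → g' (X.τ c) (X.τ c') = g c c'

theorem BT_one : X.BT (1 : Matrix D.Idx D.Idx K) := by
  intro c i hc hi
  apply Matrix.one_apply_ne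
  rintro rfl
  rw [hc] at hi
  exact Bool.noConfusion hi

theorem BT_mul {g h : Matrix D.Idx D.Idx K} (hg : X.BT g) (hh : X.BT h) : X.BT (g * h) := by
  intro c i hc hi
  rw [Matrix.mul_apply]
  apply Finset.sum_eq_zero
  intro j _
  cases hj : X.I j
  · rw [hh j i hj hi, mul_zero]
  · rw [hg c j hc hj, zero_mul]

theorem Rel_one (hτ : ∀ c : D.Idx, X.τ (X.τ c) = c) : X.Rel (1 : Matrix D.Idx D.Idx K) 1 := by
  intro c c' hc hc'
  rw [Matrix.one_apply, Matrix.one_apply]
  by_cases h : c = c'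
  · rw [if_pos h, if_pos (by rw [h])]
  · rw [if_neg h, if_neg]
    intro h'
    apply h
    have := congrArg X.τ h'
    rwa [hτ c, hτ c'] at this

theorem Rel_mul (hτ : ∀ c : D.Idx, X.τ (X.τ c) = c) (hτI : ∀ c : D.Idx, X.I (X.τ c) = !X.I c)
    {g₁ g₂ g₁' g₂' : Matrix D.Idx D.Idx K} (h₁ : X.Rel g₁ g₁')
    (h₂ : X.Rel g₂ g₂') (hb₁ : X.BT g₁) (hb₂ : X.BT g₂') : X.Rel (g₁ * g₂) (g₁' * g₂') := by
  intro c c' hc hc'
  rw [Matrix.mul_apply, Matrix.mul_apply]
  have hinv : Function.Involutive X.τ := hτ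
  rw [← Equiv.sum_comp (hinv.toPerm X.τ)]
  apply Finset.sum_congr rfl
  intro k _
  rw [Function.Involutive.coe_toPerm]
  cases hk : X.I k
  · rw [h₁ c k hc hk, h₂ k c' hk hc']
  · rw [hb₂ (X.τ k) (X.τ c') (by rw [hτI k, hk]; rfl) (by rw [hτI c', hc']; rfl),
      mul_zero, hb₁ c k hc hk, zero_mul]

variable {p n : ℕ}

theorem x_BT (hX : X.OK p n) [CharP K p] (r : ℕ) (hr : r < D.nroots) (t : K) :
    X.BT (D.x K r t) := by
  intro c i hc hi
  unfold ChevalleyDatum.x
  rw [dif_pos hr, xMat_entry]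
  have h0 : evalTerms ([] : List (ℕ × ℤ)) t = 0 := rfl
  rw [← h0]
  apply evalTerms_congr p _ _ n (hX.deg ⟨r, hr⟩ c i) (by simp)
  intro k hk
  rw [coefTerms_nil, sub_zero]
  exact Int.dvd_of_emod_eq_zero (hX.bt ⟨r, hr⟩ c i hc hi k hk)

theorem x_Rel (hX : X.OK p n) [CharP K p] (r : ℕ) (hr : r < D.nroots) (t : K) :
    X.Rel (D.x K r t) (D.x K (X.ρ r) (t ^ X.lam r)) := by
  intro c c' hc hc'
  have hρ : X.ρ r < D.nroots := hX.ρ_lt ⟨r, hr⟩
  have hρF : X.ρF ⟨r, hr⟩ = ⟨X.ρ r, hρ⟩ := by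
    unfold GrData.ρF
    rw [dif_pos hρ]
  unfold ChevalleyDatum.x
  rw [dif_pos hr, dif_pos hρ, xMat_entry, xMat_entry, ← evalTerms_scale]
  apply evalTerms_congr p _ _ (p * n)
  · intro km hkm
    unfold scaleTerms at hkm
    obtain ⟨km', hkm', rfl⟩ := List.mem_map.mp hkm
    have h1 := hX.deg _ _ _ km' hkm'
    have h2 : X.lam r ≤ p := hX.lam_le ⟨r, hr⟩
    show X.lam r * km'.1 < p * n
    exact lt_of_le_of_lt (Nat.mul_le_mul_right _ h2) ((Nat.mul_lt_mul_left hX.pos).mpr h1)
  · intro km hkm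
    exact lt_of_lt_of_le (hX.deg _ _ _ km hkm) (Nat.le_mul_of_pos_left n hX.pos)
  · intro k hk
    have h3 := hX.rel ⟨r, hr⟩ c c' hc hc' k hk
    rw [hρF] at h3
    exact Int.dvd_of_emod_eq_zero h3

theorem group_BT (hD : D ∈ [chevG2, chevB2, chevD4, chevF4, chevE6, chevE7, chevE8])
    (hX : X.OK p n) [CharP K p] (g : GL D.Idx K) (hg : g ∈ D.group K) :
    X.BT (g : Matrix D.Idx D.Idx K) :=
  chev_group_induction D hD
    (p := fun g => X.BT (g : Matrix D.Idx D.Idx K))
    (by rw [Units.val_one]; exact X.BT_one)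
    (fun r hr t => by rw [coe_xU]; exact X.x_BT hX r hr t)
    (fun a b ha hb => by rw [Units.val_mul]; exact X.BT_mul ha hb) g hg

theorem exists_rel (hD : D ∈ [chevG2, chevB2, chevD4, chevF4, chevE6, chevE7, chevE8])
    (hX : X.OK p n) [CharP K p] (g : GL D.Idx K) (hg : g ∈ D.group K) :
    ∃ g' ∈ D.group K, X.Rel (g : Matrix D.Idx D.Idx K) (g' : Matrix D.Idx D.Idx K) := by
  have key := chev_group_induction D hD
    (p := fun g => g ∈ D.group K ∧ ∃ g' ∈ D.group K,
      X.Rel (g : Matrix D.Idx D.Idx K) (g' : Matrix D.Idx D.Idx K))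
    ⟨one_mem _, 1, one_mem _, by rw [Units.val_one]; exact X.Rel_one hX.τ_inv⟩
    (fun r hr t => ⟨xU_mem_group D hD r t, xU D hD (X.ρ r) (t ^ X.lam r),
      xU_mem_group D hD _ _, by rw [coe_xU, coe_xU]; exact X.x_Rel hX r hr t⟩)
    (fun a b ha hb => by
      obtain ⟨haG, a', ha', hra⟩ := ha
      obtain ⟨hbG, b', hb', hrb⟩ := hb
      refine ⟨mul_mem haG hbG, a' * b', mul_mem ha' hb', ?_⟩
      rw [Units.val_mul, Units.val_mul]
      exact X.Rel_mul hX.τ_inv hX.τ_I hra hrb (X.group_BT hD hX a haG)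
        (X.group_BT hD hX b' hb')) g hg
  exact key.2

/-- the action on the invariant subspace -/
noncomputable def act (hD : D ∈ [chevG2, chevB2, chevD4, chevF4, chevE6, chevE7, chevE8])
    (hX : X.OK p n) [CharP K p] : ↥(D.group K) →*
    Matrix {i : D.Idx // X.I i = true} {i : D.Idx // X.I i = true} K where
  toFun g := ((g : GL D.Idx K) : Matrix D.Idx D.Idx K).submatrix Subtype.val Subtype.val
  map_one' := by
    ext i j
    simp [Matrix.one_apply, Subtype.ext_iff]
  map_mul' g h := by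
    ext i j
    simp only [Matrix.submatrix_apply, Subgroup.coe_mul, Units.val_mul, Matrix.mul_apply]
    have hb := X.group_BT hD hX h.1 h.2
    rw [← Finset.sum_subtype (Finset.univ.filter fun k : D.Idx => X.I k = true)
      (by simp) (fun k => ((g : GL D.Idx K) : Matrix D.Idx D.Idx K) i.1 k *
        ((h : GL D.Idx K) : Matrix D.Idx D.Idx K) k j.1)]
    symm
    apply Finset.sum_filter_of_ne
    intro k _ hne
    by_contra hk
    apply hne
    rw [hb k j.1 (by simpa using hk) j.2, mul_zero]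

theorem act_apply (hD : D ∈ [chevG2, chevB2, chevD4, chevF4, chevE6, chevE7, chevE8])
    (hX : X.OK p n) [CharP K p] (g : ↥(D.group K))
    (i j : {i : D.Idx // X.I i = true}) :
    X.act hD hX g i j = ((g : GL D.Idx K) : Matrix D.Idx D.Idx K) i.1 j.1 := rfl

theorem rel_unique (hD : D ∈ [chevG2, chevB2, chevD4, chevF4, chevE6, chevE7, chevE8])
    (hX : X.OK p n) [CharP K p] (hker : (X.act (K := K) hD hX).ker = ⊥)
    (g : Matrix D.Idx D.Idx K) (g' g'' : ↥(D.group K))
    (h' : X.Rel g ((g' : GL D.Idx K) : Matrix D.Idx D.Idx K))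
    (h'' : X.Rel g ((g'' : GL D.Idx K) : Matrix D.Idx D.Idx K)) : g' = g'' := by
  have hA : X.act hD hX g' = X.act hD hX g'' := by
    ext i j
    rw [act_apply, act_apply]
    have hi := hX.τ_inv i.1
    have hj := hX.τ_inv j.1
    have hi2 := hX.τ_I i.1
    have hj2 := hX.τ_I j.1
    have e1 := h' (X.τ i.1) (X.τ j.1) (by rw [hi2, i.2]; rfl) (by rw [hj2, j.2]; rfl)
    have e2 := h'' (X.τ i.1) (X.τ j.1) (by rw [hi2, i.2]; rfl) (by rw [hj2, j.2]; rfl)
    rw [hi, hj] at e1 e2
    rw [e1, e2]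
  have hk : g'⁻¹ * g'' ∈ (X.act (K := K) hD hX).ker := by
    rw [MonoidHom.mem_ker, map_mul, ← hA, ← map_mul, inv_mul_cancel, map_one]
  rw [hker, Subgroup.mem_bot] at hk
  exact inv_mul_eq_one.mp hk

/-- the exceptional graph endomorphism, as a function -/
noncomputable def φFun (hD : D ∈ [chevG2, chevB2, chevD4, chevF4, chevE6, chevE7, chevE8])
    (hX : X.OK p n) [CharP K p] (g : ↥(D.group K)) : ↥(D.group K) :=
  ⟨Classical.choose (X.exists_rel hD hX g.1 g.2),
    (Classical.choose_spec (X.exists_rel hD hX g.1 g.2)).1⟩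

theorem φFun_rel (hD : D ∈ [chevG2, chevB2, chevD4, chevF4, chevE6, chevE7, chevE8])
    (hX : X.OK p n) [CharP K p] (g : ↥(D.group K)) :
    X.Rel ((g : GL D.Idx K) : Matrix D.Idx D.Idx K)
      ((X.φFun hD hX g : GL D.Idx K) : Matrix D.Idx D.Idx K) :=
  (Classical.choose_spec (X.exists_rel hD hX g.1 g.2)).2

/-- the exceptional graph endomorphism -/
noncomputable def φ (hD : D ∈ [chevG2, chevB2, chevD4, chevF4, chevE6, chevE7, chevE8])
    (hX : X.OK p n) [CharP K p] (hker : (X.act (K := K) hD hX).ker = ⊥) :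
    ↥(D.group K) →* ↥(D.group K) where
  toFun := X.φFun hD hX
  map_one' := X.rel_unique hD hX hker _ _ _ (X.φFun_rel hD hX 1) (X.Rel_one hX.τ_inv)
  map_mul' g h := X.rel_unique hD hX hker _ _ _ (X.φFun_rel hD hX (g * h))
    (X.Rel_mul hX.τ_inv hX.τ_I (X.φFun_rel hD hX g) (X.φFun_rel hD hX h)
      (X.group_BT hD hX g.1 g.2)
      (X.group_BT hD hX (X.φFun hD hX h).1 (X.φFun hD hX h).2))

theorem φ_rel (hD : D ∈ [chevG2, chevB2, chevD4, chevF4, chevE6, chevE7, chevE8])
    (hX : X.OK p n) [CharP K p] (hker : (X.act (K := K) hD hX).ker = ⊥) (g : ↥(D.group K)) :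
    X.Rel ((g : GL D.Idx K) : Matrix D.Idx D.Idx K)
      ((X.φ hD hX hker g : GL D.Idx K) : Matrix D.Idx D.Idx K) :=
  X.φFun_rel hD hX g

theorem φ_x (hD : D ∈ [chevG2, chevB2, chevD4, chevF4, chevE6, chevE7, chevE8])
    (hX : X.OK p n) [CharP K p] (hker : (X.act (K := K) hD hX).ker = ⊥) (r : ℕ)
    (hr : r < D.nroots) (t : K) :
    X.φ hD hX hker (⟨xU D hD r t, xU_mem_group D hD r t⟩ : ↥(D.group K)) =
      ⟨xU D hD (X.ρ r) (t ^ X.lam r), xU_mem_group D hD _ _⟩ := by
  apply X.rel_unique hD hX hker _ _ _ (X.φ_rel hD hX hker _)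
  show X.Rel ((xU D hD r t : GL D.Idx K) : Matrix D.Idx D.Idx K)
    ((xU D hD (X.ρ r) (t ^ X.lam r) : GL D.Idx K) : Matrix D.Idx D.Idx K)
  rw [coe_xU, coe_xU]
  exact X.x_Rel hX r hr t

end

end GrData

end Cfsg.Agent.Lib.Helper36
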