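import Cfsg.Agent.Lib.Helper36.ChevGr
import Cfsg.Agent.Lib.Helper36.ChevAutD
import Cfsg.Agent.Lib.Helper36.ChevMap
import Cfsg.Agent.S1056

set_option autoImplicit false

/-!
# The exceptional graph automorphism of `B₂` in characteristic 2

The data `ρ`, `λ`, `I`, `τ` of the generic construction for type `B₂` and the finite checks.
The fundamental root `p₁` is short and `p₂` is long; `ρ` exchanges the short and the long
roots (`p₁ ↦ p₂`, `p₂ ↦ p₁`, `p₁ + p₂ ↦ 2 p₁ + p₂`, `2 p₁ + p₂ ↦ p₁ + p₂`), with exponent 2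
on the short roots.  Faithfulness of the action on the invariant subspace is obtained over an
algebraic closure, where the group is simple, so that the field with two elements is included.
-/

namespace Cfsg.Agent.Lib.Helper36

open Cfsg Cfsg.Lie Cfsg.Agent.Lib.Helper18

theorem hB2 : chevB2 ∈ [chevG2, chevB2, chevD4, chevF4, chevE6, chevE7, chevE8] := by simp

/-- the root permutation of the exceptional graph automorphism of `B₂` -/
def b2ρ (r : ℕ) : ℕ := [1, 0, 3, 2, 5, 4, 7, 6].getD r 0

/-- the exponents of the exceptional graph automorphism: `2` on the short roots -/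
def b2lam (r : ℕ) : ℕ := [1, 2, 2, 1, 1, 2, 2, 1].getD r 1

theorem b2ρ_lt : ∀ r < 8, b2ρ r < 8 := by decide

/-- `ρ` on the root indices -/
def b2ρF (r : Fin chevB2.nroots) : Fin chevB2.nroots := ⟨b2ρ r.val, b2ρ_lt r.val r.isLt⟩

/-- membership in the invariant subspace: the short fundamental coroot and the short root
vectors -/
def b2I : chevB2.Idx → Bool
  | Sum.inl i => decide (i.val < 1)
  | Sum.inr s => b2lam s.val == 2

/-- the index involution exchanging the subspace and its complement -/
def b2τ : chevB2.Idx → chevB2.Idx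
  | Sum.inl i => Sum.inl ⟨1 - i.val, Nat.lt_of_le_of_lt (Nat.sub_le 1 i.val) (by decide)⟩
  | Sum.inr s => Sum.inr (b2ρF s)

/-- the data of the exceptional graph endomorphism of `B₂` -/
def b2X : GrData chevB2 := ⟨b2ρ, b2lam, b2I, b2τ⟩

set_option maxRecDepth 100000 in
theorem b2X_deg : ∀ r : Fin chevB2.nroots, ∀ row col : chevB2.Idx,
    ∀ km ∈ xTerms chevB2 r row col, km.1 < 3 := by decide +kernel

set_option maxRecDepth 100000 in
theorem b2X_bt : ∀ r : Fin chevB2.nroots, ∀ c i : chevB2.Idx, b2X.I c = false →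
    b2X.I i = true → ∀ k < 3, coefTerms (xTerms chevB2 r c i) k % ((2 : ℕ) : ℤ) = 0 := by
  decide +kernel

set_option maxRecDepth 100000 in
theorem b2X_rel : ∀ r : Fin chevB2.nroots, ∀ c c' : chevB2.Idx, b2X.I c = false →
    b2X.I c' = false → ∀ k < 2 * 3,
      (coefTerms (scaleTerms (b2X.lam r.val) (xTerms chevB2 (b2X.ρF r) (b2X.τ c) (b2X.τ c'))) k -
        coefTerms (xTerms chevB2 r c c') k) % ((2 : ℕ) : ℤ) = 0 := by decide +kernel

theorem b2X_ok : b2X.OK 2 3 where
  pos := by decide
  ρ_lt := by decide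
  τ_inv := by decide
  τ_I := by decide
  deg := b2X_deg
  bt := b2X_bt
  lam_le := by decide
  rel := b2X_rel

end Cfsg.Agent.Lib.Helper36
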