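import Cfsg.Agent.Lib.Helper36.ChevGr
import Cfsg.Agent.S1054

set_option autoImplicit false

/-!
# The exceptional graph endomorphism of `F₄` in characteristic 2

The data `ρ`, `λ`, `I`, `τ` of the generic construction for type `F₄` and the finite checks.
The fundamental roots `p₁, p₂` are short and `p₃, p₄` are long; `ρ` is induced by the linear map
`p₁ ↦ p₄`, `p₂ ↦ p₃`, `p₃ ↦ 2 p₂`, `p₄ ↦ 2 p₁` (divided by 2 on the long roots).
-/

namespace Cfsg.Agent.Lib.Helper36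

open Cfsg Cfsg.Lie Cfsg.Agent.Lib.Helper18

theorem hF4 : chevF4 ∈ [chevG2, chevB2, chevD4, chevF4, chevE6, chevE7, chevE8] := by simp

/-- the root permutation of the exceptional graph automorphism of `F₄` -/
def f4ρ (r : ℕ) : ℕ := [3, 7, 8, 0, 9, 11, 18, 1, 2, 4, 15, 5, 16, 21, 23, 10, 12, 19, 6, 17,
  22, 13, 20, 14, 33, 27, 34, 25, 30, 41, 28, 35, 37, 24, 26, 31, 42, 32, 43, 45, 46, 29, 36,
  38, 47, 39, 40, 44].getD r 0

/-- the exponents of the exceptional graph automorphism: `2` on the short roots -/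
def f4lam (r : ℕ) : ℕ := [1, 1, 1, 2, 1, 1, 1, 2, 2, 2, 2, 2, 2, 2, 2, 1, 1, 1, 2, 2, 2, 1, 1, 1,
  1, 1, 1, 2, 2, 2, 1, 1, 1, 2, 2, 2, 2, 2, 2, 2, 2, 1, 1, 1, 2, 1, 1, 1].getD r 1

theorem f4ρ_lt : ∀ r < 48, f4ρ r < 48 := by decide

/-- `ρ` on the root indices -/
def f4ρF (r : Fin chevF4.nroots) : Fin chevF4.nroots := ⟨f4ρ r.val, f4ρ_lt r.val r.isLt⟩

/-- membership in the invariant subspace: the short fundamental coroots and the short root
vectors -/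
def f4I : chevF4.Idx → Bool
  | Sum.inl i => decide (i.val < 2)
  | Sum.inr s => f4lam s.val == 2

/-- the index involution exchanging the subspace and its complement -/
def f4τ : chevF4.Idx → chevF4.Idx
  | Sum.inl i => Sum.inl ⟨3 - i.val, Nat.lt_of_le_of_lt (Nat.sub_le 3 i.val) (by decide)⟩
  | Sum.inr s => Sum.inr (f4ρF s)

/-- the data of the exceptional graph endomorphism of `F₄` -/
def f4X : GrData chevF4 := ⟨f4ρ, f4lam, f4I, f4τ⟩

set_option maxRecDepth 100000 in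
theorem f4X_deg_0 : ∀ r : Fin chevF4.nroots, 0 ≤ r.val → r.val < 8 → ∀ row col : chevF4.Idx,
    ∀ km ∈ xTerms chevF4 r row col, km.1 < 3 := by decide +kernel

set_option maxRecDepth 100000 in
theorem f4X_deg_8 : ∀ r : Fin chevF4.nroots, 8 ≤ r.val → r.val < 16 → ∀ row col : chevF4.Idx,
    ∀ km ∈ xTerms chevF4 r row col, km.1 < 3 := by decide +kernel

set_option maxRecDepth 100000 in
theorem f4X_deg_16 : ∀ r : Fin chevF4.nroots, 16 ≤ r.val → r.val < 24 → ∀ row col : chevF4.Idx,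
    ∀ km ∈ xTerms chevF4 r row col, km.1 < 3 := by decide +kernel

set_option maxRecDepth 100000 in
theorem f4X_deg_24 : ∀ r : Fin chevF4.nroots, 24 ≤ r.val → r.val < 32 → ∀ row col : chevF4.Idx,
    ∀ km ∈ xTerms chevF4 r row col, km.1 < 3 := by decide +kernel

set_option maxRecDepth 100000 in
theorem f4X_deg_32 : ∀ r : Fin chevF4.nroots, 32 ≤ r.val → r.val < 40 → ∀ row col : chevF4.Idx,
    ∀ km ∈ xTerms chevF4 r row col, km.1 < 3 := by decide +kernel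

set_option maxRecDepth 100000 in
theorem f4X_deg_40 : ∀ r : Fin chevF4.nroots, 40 ≤ r.val → r.val < 48 → ∀ row col : chevF4.Idx,
    ∀ km ∈ xTerms chevF4 r row col, km.1 < 3 := by decide +kernel

theorem f4X_deg : ∀ r : Fin chevF4.nroots, ∀ row col : chevF4.Idx,
    ∀ km ∈ xTerms chevF4 r row col, km.1 < 3 := by
  intro r
  have hr : r.val < 48 := r.isLt
  have h : r.val < 8 ∨ (8 ≤ r.val ∧ r.val < 16) ∨ (16 ≤ r.val ∧ r.val < 24) ∨
      (24 ≤ r.val ∧ r.val < 32) ∨ (32 ≤ r.val ∧ r.val < 40) ∨ (40 ≤ r.val ∧ r.val < 48) := by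
    omega
  rcases h with h | ⟨h, h'⟩ | ⟨h, h'⟩ | ⟨h, h'⟩ | ⟨h, h'⟩ | ⟨h, h'⟩
  · exact f4X_deg_0 r (Nat.zero_le _) h
  · exact f4X_deg_8 r h h'
  · exact f4X_deg_16 r h h'
  · exact f4X_deg_24 r h h'
  · exact f4X_deg_32 r h h'
  · exact f4X_deg_40 r h h'

set_option maxRecDepth 100000 in
theorem f4X_bt_0 : ∀ r : Fin chevF4.nroots, 0 ≤ r.val → r.val < 8 → ∀ c i : chevF4.Idx, f4X.I c = false →
    f4X.I i = true → ∀ k < 3, coefTerms (xTerms chevF4 r c i) k % ((2 : ℕ) : ℤ) = 0 := by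
  decide +kernel

set_option maxRecDepth 100000 in
theorem f4X_bt_8 : ∀ r : Fin chevF4.nroots, 8 ≤ r.val → r.val < 16 → ∀ c i : chevF4.Idx, f4X.I c = false →
    f4X.I i = true → ∀ k < 3, coefTerms (xTerms chevF4 r c i) k % ((2 : ℕ) : ℤ) = 0 := by
  decide +kernel

set_option maxRecDepth 100000 in
theorem f4X_bt_16 : ∀ r : Fin chevF4.nroots, 16 ≤ r.val → r.val < 24 → ∀ c i : chevF4.Idx, f4X.I c = false →
    f4X.I i = true → ∀ k < 3, coefTerms (xTerms chevF4 r c i) k % ((2 : ℕ) : ℤ) = 0 := by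
  decide +kernel

set_option maxRecDepth 100000 in
theorem f4X_bt_24 : ∀ r : Fin chevF4.nroots, 24 ≤ r.val → r.val < 32 → ∀ c i : chevF4.Idx, f4X.I c = false →
    f4X.I i = true → ∀ k < 3, coefTerms (xTerms chevF4 r c i) k % ((2 : ℕ) : ℤ) = 0 := by
  decide +kernel

set_option maxRecDepth 100000 in
theorem f4X_bt_32 : ∀ r : Fin chevF4.nroots, 32 ≤ r.val → r.val < 40 → ∀ c i : chevF4.Idx, f4X.I c = false →
    f4X.I i = true → ∀ k < 3, coefTerms (xTerms chevF4 r c i) k % ((2 : ℕ) : ℤ) = 0 := by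
  decide +kernel

set_option maxRecDepth 100000 in
theorem f4X_bt_40 : ∀ r : Fin chevF4.nroots, 40 ≤ r.val → r.val < 48 → ∀ c i : chevF4.Idx, f4X.I c = false →
    f4X.I i = true → ∀ k < 3, coefTerms (xTerms chevF4 r c i) k % ((2 : ℕ) : ℤ) = 0 := by
  decide +kernel

theorem f4X_bt : ∀ r : Fin chevF4.nroots, ∀ c i : chevF4.Idx, f4X.I c = false →
    f4X.I i = true → ∀ k < 3, coefTerms (xTerms chevF4 r c i) k % ((2 : ℕ) : ℤ) = 0 := by
  intro r
  have hr : r.val < 48 := r.isLt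
  have h : r.val < 8 ∨ (8 ≤ r.val ∧ r.val < 16) ∨ (16 ≤ r.val ∧ r.val < 24) ∨
      (24 ≤ r.val ∧ r.val < 32) ∨ (32 ≤ r.val ∧ r.val < 40) ∨ (40 ≤ r.val ∧ r.val < 48) := by
    omega
  rcases h with h | ⟨h, h'⟩ | ⟨h, h'⟩ | ⟨h, h'⟩ | ⟨h, h'⟩ | ⟨h, h'⟩
  · exact f4X_bt_0 r (Nat.zero_le _) h
  · exact f4X_bt_8 r h h'
  · exact f4X_bt_16 r h h'
  · exact f4X_bt_24 r h h'
  · exact f4X_bt_32 r h h'
  · exact f4X_bt_40 r h h'

set_option maxRecDepth 100000 in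
theorem f4X_rel_0 : ∀ r : Fin chevF4.nroots, 0 ≤ r.val → r.val < 8 → ∀ c c' : chevF4.Idx, f4X.I c = false →
    f4X.I c' = false → ∀ k < 2 * 3,
      (coefTerms (scaleTerms (f4X.lam r.val) (xTerms chevF4 (f4X.ρF r) (f4X.τ c) (f4X.τ c'))) k -
        coefTerms (xTerms chevF4 r c c') k) % ((2 : ℕ) : ℤ) = 0 := by decide +kernel

set_option maxRecDepth 100000 in
theorem f4X_rel_8 : ∀ r : Fin chevF4.nroots, 8 ≤ r.val → r.val < 16 → ∀ c c' : chevF4.Idx, f4X.I c = false →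
    f4X.I c' = false → ∀ k < 2 * 3,
      (coefTerms (scaleTerms (f4X.lam r.val) (xTerms chevF4 (f4X.ρF r) (f4X.τ c) (f4X.τ c'))) k -
        coefTerms (xTerms chevF4 r c c') k) % ((2 : ℕ) : ℤ) = 0 := by decide +kernel

set_option maxRecDepth 100000 in
theorem f4X_rel_16 : ∀ r : Fin chevF4.nroots, 16 ≤ r.val → r.val < 24 → ∀ c c' : chevF4.Idx, f4X.I c = false →
    f4X.I c' = false → ∀ k < 2 * 3,
      (coefTerms (scaleTerms (f4X.lam r.val) (xTerms chevF4 (f4X.ρF r) (f4X.τ c) (f4X.τ c'))) k -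
        coefTerms (xTerms chevF4 r c c') k) % ((2 : ℕ) : ℤ) = 0 := by decide +kernel

set_option maxRecDepth 100000 in
theorem f4X_rel_24 : ∀ r : Fin chevF4.nroots, 24 ≤ r.val → r.val < 32 → ∀ c c' : chevF4.Idx, f4X.I c = false →
    f4X.I c' = false → ∀ k < 2 * 3,
      (coefTerms (scaleTerms (f4X.lam r.val) (xTerms chevF4 (f4X.ρF r) (f4X.τ c) (f4X.τ c'))) k -
        coefTerms (xTerms chevF4 r c c') k) % ((2 : ℕ) : ℤ) = 0 := by decide +kernel

set_option maxRecDepth 100000 in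
theorem f4X_rel_32 : ∀ r : Fin chevF4.nroots, 32 ≤ r.val → r.val < 40 → ∀ c c' : chevF4.Idx, f4X.I c = false →
    f4X.I c' = false → ∀ k < 2 * 3,
      (coefTerms (scaleTerms (f4X.lam r.val) (xTerms chevF4 (f4X.ρF r) (f4X.τ c) (f4X.τ c'))) k -
        coefTerms (xTerms chevF4 r c c') k) % ((2 : ℕ) : ℤ) = 0 := by decide +kernel

set_option maxRecDepth 100000 in
theorem f4X_rel_40 : ∀ r : Fin chevF4.nroots, 40 ≤ r.val → r.val < 48 → ∀ c c' : chevF4.Idx, f4X.I c = false →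
    f4X.I c' = false → ∀ k < 2 * 3,
      (coefTerms (scaleTerms (f4X.lam r.val) (xTerms chevF4 (f4X.ρF r) (f4X.τ c) (f4X.τ c'))) k -
        coefTerms (xTerms chevF4 r c c') k) % ((2 : ℕ) : ℤ) = 0 := by decide +kernel

theorem f4X_rel : ∀ r : Fin chevF4.nroots, ∀ c c' : chevF4.Idx, f4X.I c = false →
    f4X.I c' = false → ∀ k < 2 * 3,
      (coefTerms (scaleTerms (f4X.lam r.val) (xTerms chevF4 (f4X.ρF r) (f4X.τ c) (f4X.τ c'))) k -
        coefTerms (xTerms chevF4 r c c') k) % ((2 : ℕ) : ℤ) = 0 := by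
  intro r
  have hr : r.val < 48 := r.isLt
  have h : r.val < 8 ∨ (8 ≤ r.val ∧ r.val < 16) ∨ (16 ≤ r.val ∧ r.val < 24) ∨
      (24 ≤ r.val ∧ r.val < 32) ∨ (32 ≤ r.val ∧ r.val < 40) ∨ (40 ≤ r.val ∧ r.val < 48) := by
    omega
  rcases h with h | ⟨h, h'⟩ | ⟨h, h'⟩ | ⟨h, h'⟩ | ⟨h, h'⟩ | ⟨h, h'⟩
  · exact f4X_rel_0 r (Nat.zero_le _) h
  · exact f4X_rel_8 r h h'
  · exact f4X_rel_16 r h h'
  · exact f4X_rel_24 r h h'
  · exact f4X_rel_32 r h h'
  · exact f4X_rel_40 r h h'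

theorem f4X_ok : f4X.OK 2 3 where
  pos := by decide
  ρ_lt := by decide
  τ_inv := by decide
  τ_I := by decide
  deg := f4X_deg
  bt := f4X_bt
  lam_le := by decide
  rel := f4X_rel

end Cfsg.Agent.Lib.Helper36
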