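import Mathlib

set_option autoImplicit false

/-!
# Structure of a quotient `A / N` generated by three kinds of elements (abstract part)

`A` is a group with a normal subgroup `N`, `SΔ` and `SΦ` are sets of elements ("diagonal" and
"field" elements) and `G` is a set of "graph" elements such that every element of `A` is
`n * d * f * γ`.  Under the natural commutation hypotheses, the images of the subgroups generated
by `SΔ` and by `SΔ ∪ SΦ` are normal in `A / N`, and the index of the latter is the number of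
classes of graph elements.
-/

namespace Cfsg.Agent.Lib.Helper36

open Subgroup
open scoped commutatorElement

variable {A : Type*} [Group A]

/-- normality of the subgroups generated by the diagonal elements and by the diagonal and
field elements, together with `N` -/
theorem outStruct_normal (N : Subgroup A) [hN : N.Normal] (SΔ SΦ G : Set A)
    (hdec : ∀ θ : A, ∃ n ∈ N, ∃ d ∈ SΔ, ∃ f ∈ SΦ, ∃ γ ∈ G, θ = n * d * f * γ)
    (hγd : ∀ γ ∈ G, ∀ d ∈ SΔ, γ * d * γ⁻¹ ∈ closure SΔ ⊔ N)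
    (hfd : ∀ f ∈ SΦ, ∀ d ∈ SΔ, f * d * f⁻¹ ∈ closure SΔ ⊔ N)
    (hγf : ∀ γ ∈ G, ∀ f ∈ SΦ, γ * f = f * γ) :
    (closure SΔ ⊔ N).Normal ∧ (closure SΔ ⊔ closure SΦ ⊔ N).Normal := by
  have hMK : closure SΔ ⊔ N ≤ closure SΔ ⊔ closure SΦ ⊔ N :=
    sup_le (le_sup_of_le_left le_sup_left) le_sup_right
  -- conjugation by `g` preserves `M` as soon as it maps the diagonal generators into `M`
  have stepM : ∀ g : A, (∀ d ∈ SΔ, g * d * g⁻¹ ∈ closure SΔ ⊔ N) →
      ∀ m ∈ closure SΔ ⊔ N, g * m * g⁻¹ ∈ closure SΔ ⊔ N := by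
    intro g hg
    have h1 : closure SΔ ⊔ N ≤ (closure SΔ ⊔ N).comap (MulAut.conj g).toMonoidHom :=
      sup_le ((closure_le _).mpr (fun d hd => hg d hd))
        (fun n hn => (le_sup_right : N ≤ closure SΔ ⊔ N) (hN.conj_mem n hn g))
    exact fun m hm => h1 hm
  have stepK : ∀ g : A, (∀ d ∈ SΔ, g * d * g⁻¹ ∈ closure SΔ ⊔ closure SΦ ⊔ N) →
      (∀ f ∈ SΦ, g * f * g⁻¹ ∈ closure SΔ ⊔ closure SΦ ⊔ N) →
      ∀ k ∈ closure SΔ ⊔ closure SΦ ⊔ N, g * k * g⁻¹ ∈ closure SΔ ⊔ closure SΦ ⊔ N := by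
    intro g hg hg'
    have h1 : closure SΔ ⊔ closure SΦ ⊔ N ≤
        (closure SΔ ⊔ closure SΦ ⊔ N).comap (MulAut.conj g).toMonoidHom :=
      sup_le (sup_le ((closure_le _).mpr (fun d hd => hg d hd))
        ((closure_le _).mpr (fun f hf => hg' f hf)))
        (fun n hn => (le_sup_right : N ≤ closure SΔ ⊔ closure SΦ ⊔ N) (hN.conj_mem n hn g))
    exact fun k hk => h1 hk
  have own : ∀ (H : Subgroup A) (g : A), g ∈ H → ∀ k ∈ H, g * k * g⁻¹ ∈ H :=
    fun H g hg k hk => H.mul_mem (H.mul_mem hg hk) (H.inv_mem hg)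
  constructor
  · constructor
    intro m hm θ
    obtain ⟨n, hn, d, hd, f, hf, γ, hγ, rfl⟩ := hdec θ
    have h1 := stepM γ (hγd γ hγ) m hm
    have h2 := stepM f (hfd f hf) _ h1
    have h3 := own _ d ((le_sup_left : closure SΔ ≤ closure SΔ ⊔ N) (subset_closure hd)) _ h2
    have h4 := own _ n ((le_sup_right : N ≤ closure SΔ ⊔ N) hn) _ h3
    have e : n * d * f * γ * m * (n * d * f * γ)⁻¹ =
        n * (d * (f * (γ * m * γ⁻¹) * f⁻¹) * d⁻¹) * n⁻¹ := by group
    rw [e]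
    exact h4
  · constructor
    intro k hk θ
    obtain ⟨n, hn, d, hd, f, hf, γ, hγ, rfl⟩ := hdec θ
    have h1 := stepK γ (fun d' hd' => hMK (hγd γ hγ d' hd')) (fun f' hf' => by
      have e : γ * f' * γ⁻¹ = f' := by rw [hγf γ hγ f' hf']; group
      rw [e]
      exact (le_sup_left : closure SΔ ⊔ closure SΦ ≤ closure SΔ ⊔ closure SΦ ⊔ N)
        ((le_sup_right : closure SΦ ≤ closure SΔ ⊔ closure SΦ) (subset_closure hf'))) k hk
    have hfK : f ∈ closure SΔ ⊔ closure SΦ ⊔ N :=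
      (le_sup_left : closure SΔ ⊔ closure SΦ ≤ closure SΔ ⊔ closure SΦ ⊔ N)
        ((le_sup_right : closure SΦ ≤ closure SΔ ⊔ closure SΦ) (subset_closure hf))
    have hdK : d ∈ closure SΔ ⊔ closure SΦ ⊔ N :=
      (le_sup_left : closure SΔ ⊔ closure SΦ ≤ closure SΔ ⊔ closure SΦ ⊔ N)
        ((le_sup_left : closure SΔ ≤ closure SΔ ⊔ closure SΦ) (subset_closure hd))
    have hnK : n ∈ closure SΔ ⊔ closure SΦ ⊔ N := (le_sup_right : N ≤ _) hn
    have h2 := own _ f hfK _ h1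
    have h3 := own _ d hdK _ h2
    have h4 := own _ n hnK _ h3
    have e : n * d * f * γ * k * (n * d * f * γ)⁻¹ =
        n * (d * (f * (γ * k * γ⁻¹) * f⁻¹) * d⁻¹) * n⁻¹ := by group
    rw [e]
    exact h4

/-- the index of a normal subgroup from a system of representatives -/
theorem outStruct_index (K : Subgroup A) [hK : K.Normal] (G : Set A) {ι : Type*} (Γ : ι → A)
    (hdec : ∀ θ : A, ∃ k ∈ K, ∃ γ ∈ G, θ = k * γ)
    (hrep : ∀ γ ∈ G, ∃ i, γ⁻¹ * Γ i ∈ K)
    (hinj : ∀ i j, (Γ i)⁻¹ * Γ j ∈ K → i = j) :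
    K.index = Nat.card ι := by
  rw [Subgroup.index_eq_card]
  symm
  refine Nat.card_congr (Equiv.ofBijective (fun i => (QuotientGroup.mk (Γ i) : A ⧸ K)) ⟨?_, ?_⟩)
  · intro i j hij
    exact hinj i j (QuotientGroup.eq.mp hij)
  · intro q
    induction q using QuotientGroup.induction_on with
    | H θ =>
      obtain ⟨k, hk, γ, hγ, rfl⟩ := hdec θ
      obtain ⟨i, hi⟩ := hrep γ hγ
      refine ⟨i, ?_⟩
      show (QuotientGroup.mk (Γ i) : A ⧸ K) = QuotientGroup.mk (k * γ)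
      rw [QuotientGroup.eq]
      have e : (Γ i)⁻¹ * (k * γ) = (Γ i)⁻¹ * k * (Γ i)⁻¹⁻¹ * (γ⁻¹ * Γ i)⁻¹ := by group
      rw [e]
      exact K.mul_mem (hK.conj_mem k hk _) (K.inv_mem hi)

/-- transfer to the quotient by `N` -/
theorem outStruct_main (N : Subgroup A) [hN : N.Normal] (SΔ SΦ : Set A)
    (hM : (closure SΔ ⊔ N).Normal) (hK : (closure SΔ ⊔ closure SΦ ⊔ N).Normal)
    (Dbar Fbar : Subgroup (A ⧸ N)) (hD : Dbar = (closure SΔ).map (QuotientGroup.mk' N))
    (hF : Fbar = (closure SΦ).map (QuotientGroup.mk' N)) :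
    Dbar.Normal ∧ (Dbar ⊔ Fbar).Normal ∧
      (Dbar ⊔ Fbar).index = (closure SΔ ⊔ closure SΦ ⊔ N).index ∧
      (∀ a b : A, ⁅a, b⁆ ∉ closure SΔ ⊔ closure SΦ ⊔ N → ¬ commutator (A ⧸ N) ≤ Dbar ⊔ Fbar) := by
  have e1 : Dbar = (closure SΔ ⊔ N).map (QuotientGroup.mk' N) := by
    rw [Subgroup.map_sup, QuotientGroup.map_mk'_self, sup_bot_eq, hD]
  have e2 : Dbar ⊔ Fbar = (closure SΔ ⊔ closure SΦ ⊔ N).map (QuotientGroup.mk' N) := by
    rw [Subgroup.map_sup, Subgroup.map_sup, QuotientGroup.map_mk'_self, sup_bot_eq, hD, hF]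
  have hsurj := QuotientGroup.mk'_surjective N
  have hker : (QuotientGroup.mk' N).ker ≤ closure SΔ ⊔ closure SΦ ⊔ N := by
    rw [QuotientGroup.ker_mk']
    exact le_sup_right
  refine ⟨?_, ?_, ?_, ?_⟩
  · rw [e1]
    exact hM.map _ hsurj
  · rw [e2]
    exact hK.map _ hsurj
  · rw [e2]
    exact Subgroup.index_map_eq _ hsurj hker
  · intro a b hab hle
    apply hab
    have h1 : ⁅(QuotientGroup.mk' N) a, (QuotientGroup.mk' N) b⁆ ∈ commutator (A ⧸ N) :=
      Subgroup.commutator_mem_commutator (Subgroup.mem_top _) (Subgroup.mem_top _)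
    have h2 := hle h1
    rw [e2, ← map_commutatorElement] at h2
    obtain ⟨k, hk, hkq⟩ := h2
    have h3 : k⁻¹ * ⁅a, b⁆ ∈ N := QuotientGroup.eq.mp hkq
    have e : ⁅a, b⁆ = k * (k⁻¹ * ⁅a, b⁆) := by group
    rw [e]
    exact Subgroup.mul_mem _ hk ((le_sup_right : N ≤ closure SΔ ⊔ closure SΦ ⊔ N) h3)

/-- the image of the subgroup generated by commuting elements is commutative -/
theorem outStruct_comm (N : Subgroup A) [hN : N.Normal] (SΔ : Set A)
    (hcomm : ∀ a ∈ SΔ, ∀ b ∈ SΔ, a * b = b * a) (Dbar : Subgroup (A ⧸ N))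
    (hD : Dbar = (closure SΔ).map (QuotientGroup.mk' N)) : IsMulCommutative ↥Dbar := by
  have key : ∀ a ∈ closure SΔ, ∀ b ∈ closure SΔ, a * b = b * a := by
    intro a ha b hb
    have h1 : closure SΔ ≤ Subgroup.centralizer SΔ := by
      rw [closure_le]
      intro x hx
      rw [SetLike.mem_coe, Subgroup.mem_centralizer_iff]
      intro y hy
      exact hcomm y hy x hx
    have h2 : closure SΔ ≤ Subgroup.centralizer {a} := by
      rw [closure_le]
      intro x hx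
      rw [SetLike.mem_coe, Subgroup.mem_centralizer_iff]
      intro y hy
      rw [Set.mem_singleton_iff] at hy
      subst hy
      exact ((Subgroup.mem_centralizer_iff.mp (h1 ha)) x hx).symm
    exact (Subgroup.mem_centralizer_iff.mp (h2 hb)) a rfl
  subst hD
  refine ⟨⟨fun x y => ?_⟩⟩
  obtain ⟨x, hx⟩ := x
  obtain ⟨y, hy⟩ := y
  obtain ⟨a, ha, rfl⟩ := hx
  obtain ⟨b, hb, rfl⟩ := hy
  apply Subtype.ext
  show (QuotientGroup.mk' N) a * (QuotientGroup.mk' N) b =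
    (QuotientGroup.mk' N) b * (QuotientGroup.mk' N) a
  rw [← map_mul, ← map_mul, key a ha b hb]

/-- the image of the subgroup generated by the range of a homomorphism from a cyclic group is
cyclic -/
theorem outStruct_cyclic (N : Subgroup A) [hN : N.Normal] (SΦ : Set A) {C : Type*} [Group C]
    [IsCyclic C] (Ψ : C →* A) (hΨ : ∀ c, Ψ c ∈ SΦ) (hS : ∀ f ∈ SΦ, ∃ c, Ψ c = f)
    (Fbar : Subgroup (A ⧸ N)) (hF : Fbar = (closure SΦ).map (QuotientGroup.mk' N)) :
    IsCyclic ↥Fbar := by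
  subst hF
  have hle : closure SΦ ≤ Ψ.range := by
    rw [closure_le]
    intro f hf
    obtain ⟨c, hc⟩ := hS f hf
    exact ⟨c, hc⟩
  let h : C →* ↥((closure SΦ).map (QuotientGroup.mk' N)) :=
    ((QuotientGroup.mk' N).comp Ψ).codRestrict _
      (fun c => Subgroup.mem_map_of_mem _ (subset_closure (hΨ c)))
  refine isCyclic_of_surjective h ?_
  rintro ⟨y, hy⟩
  obtain ⟨φ, hφ, rfl⟩ := hy
  obtain ⟨c, rfl⟩ := hle hφ
  exact ⟨c, Subtype.ext rfl⟩

end Cfsg.Agent.Lib.Helper36
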