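import Cfsg.Agent.Lib.Helper36.ChevDecS
import Cfsg.Agent.Lib.Helper36.ChevDecG
import Cfsg.Agent.Lib.Helper36.OutStruct

set_option autoImplicit false

/-!
# The outer automorphism group of a Chevalley group: generic part

Diagonal automorphisms commute, are normalised by the field automorphisms and (when the
characters of the root lattice can be prescribed on the fundamental roots) by the graph
automorphisms; with an injective torus they are inner.  The field automorphisms form a cyclic
group.  The index of the subgroup generated by the inner, diagonal and field automorphisms is the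
number of permutations of the fundamental root subgroups realised by graph automorphisms.
-/

namespace Cfsg.Agent.Lib.Helper36

open Cfsg Cfsg.Lie Cfsg.Agent.Lib.Helper18
open scoped commutatorElement

universe u

variable {F : Type u} [Field F]

/-! ### diagonal automorphisms -/

theorem exists_diagAut_of_isDiagonalAut {D : ChevalleyDatum}
    (hD : D ∈ [chevG2, chevB2, chevD4, chevF4, chevE6, chevE7, chevE8])
    {d : MulAut ↥(D.group F)} (h : D.IsDiagonalAut d) :
    ∃ (χ : ℕ → Fˣ) (hχ : D.IsRootCharacter χ), d = diagAut D hD χ hχ := by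
  obtain ⟨χ, hχ, h1⟩ := h
  refine ⟨χ, hχ, ?_⟩
  apply MulEquiv.ext
  intro g
  apply Subtype.ext
  apply Units.ext
  rw [h1 g, coe_diagAut, Units.val_mul, Units.val_mul, charDiagU_inv]
  rfl

theorem diagAut_comm (D : ChevalleyDatum)
    (hD : D ∈ [chevG2, chevB2, chevD4, chevF4, chevE6, chevE7, chevE8]) (χ χ' : ℕ → Fˣ)
    (hχ : D.IsRootCharacter χ) (hχ' : D.IsRootCharacter χ') :
    diagAut (F := F) D hD χ hχ * diagAut D hD χ' hχ' =
      diagAut D hD χ' hχ' * diagAut D hD χ hχ := by
  have key : ∀ (r : ℕ) (hr : r < D.nroots) (t : F),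
      (diagAut (F := F) D hD χ hχ * diagAut D hD χ' hχ') (xG D hD r t) =
        (diagAut D hD χ' hχ' * diagAut D hD χ hχ) (xG D hD r t) := by
    intro r hr t
    show diagAut D hD χ hχ (diagAut D hD χ' hχ' (xG D hD r t)) =
      diagAut D hD χ' hχ' (diagAut D hD χ hχ (xG D hD r t))
    rw [diagAut_xG D hD χ' hχ' r hr, diagAut_xG D hD χ hχ r hr, diagAut_xG D hD χ hχ r hr,
      diagAut_xG D hD χ' hχ' r hr]
    congr 1
    ring
  apply aut_ext_simple D hD
  intro i t
  have hs := simple_lt D hD i.val i.isLt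
  have hn := (neg_lt D hD _ hs).1
  exact ⟨key _ hs t, key _ hn t⟩

theorem isDiagonalAut_comm {D : ChevalleyDatum}
    (hD : D ∈ [chevG2, chevB2, chevD4, chevF4, chevE6, chevE7, chevE8])
    {a b : MulAut ↥(D.group F)} (ha : D.IsDiagonalAut a) (hb : D.IsDiagonalAut b) :
    a * b = b * a := by
  obtain ⟨χ, hχ, rfl⟩ := exists_diagAut_of_isDiagonalAut hD ha
  obtain ⟨χ', hχ', rfl⟩ := exists_diagAut_of_isDiagonalAut hD hb
  exact diagAut_comm D hD χ χ' hχ hχ'

/-- the conjugate of a diagonal automorphism by a field automorphism is diagonal -/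
theorem field_diag_conj {D : ChevalleyDatum}
    (hD : D ∈ [chevG2, chevB2, chevD4, chevF4, chevE6, chevE7, chevE8])
    {f d : MulAut ↥(D.group F)} (hf : D.IsFieldAut f) (hd : D.IsDiagonalAut d) :
    D.IsDiagonalAut (f * d * f⁻¹) := by
  obtain ⟨σ, hσ'⟩ := hf
  have hσ : FieldRel D f σ := hσ'
  obtain ⟨χ, hχ, rfl⟩ := exists_diagAut_of_isDiagonalAut hD hd
  have hχ' : D.IsRootCharacter (fun r => Units.map (σ : F →* F) (χ r)) :=
    ⟨fun r hr => by
        show Units.map (σ : F →* F) (χ (D.neg r)) = (Units.map (σ : F →* F) (χ r))⁻¹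
        rw [hχ.1 r hr, map_inv],
      fun r s k hr hs hk => by
        show Units.map (σ : F →* F) (χ k) =
          Units.map (σ : F →* F) (χ r) * Units.map (σ : F →* F) (χ s)
        rw [hχ.2 r s k hr hs hk, map_mul]⟩
  have key : ∀ (r : ℕ) (hr : r < D.nroots) (t : F),
      (f * diagAut D hD χ hχ) (xG D hD r t) = (diagAut D hD _ hχ' * f) (xG D hD r t) := by
    intro r hr t
    show f (diagAut D hD χ hχ (xG D hD r t)) = diagAut D hD _ hχ' (f (xG D hD r t))
    rw [diagAut_xG D hD χ hχ r hr, fieldRel_xG hD hσ r hr, fieldRel_xG hD hσ r hr,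
      diagAut_xG D hD _ hχ' r hr, map_mul]
    rfl
  have e : f * diagAut D hD χ hχ = diagAut D hD _ hχ' * f := by
    apply aut_ext_simple D hD
    intro i t
    have hs := simple_lt D hD i.val i.isLt
    have hn := (neg_lt D hD _ hs).1
    exact ⟨key _ hs t, key _ hn t⟩
  have e2 : f * diagAut D hD χ hχ * f⁻¹ = diagAut D hD _ hχ' := by
    rw [e]
    group
  rw [e2]
  exact isDiagonalAut_diagAut D hD _ hχ'

/-- with an injective torus every diagonal automorphism is inner -/
theorem diag_inner_of_torus_inj [Finite F] {D : ChevalleyDatum}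
    (hD : D ∈ [chevG2, chevB2, chevD4, chevF4, chevE6, chevE7, chevE8])
    (hT : Function.Injective (torusHom (F := F) D)) {d : MulAut ↥(D.group F)}
    (hd : D.IsDiagonalAut d) : d ∈ Cfsg.Inn ↥(D.group F) := by
  obtain ⟨χ, hχ, rfl⟩ := exists_diagAut_of_isDiagonalAut hD hd
  obtain ⟨c, hc⟩ := exists_torus_of_injective D hD hT (fun j => χ (D.simple j.val))
  refine ⟨⟨torusHom D c, torusHom_mem_group D hD c⟩, ?_⟩
  apply aut_ext_simple D hD
  intro i t
  have hs := simple_lt D hD i.val i.isLt
  have hn := (neg_lt D hD _ hs).1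
  have hrange : ∀ k ∈ List.range D.rank, k < D.rank := fun k hk => List.mem_range.mp hk
  constructor
  · rw [diagAut_xG D hD χ hχ _ hs]
    apply Subtype.ext
    show torusHom D c * xU D hD (D.simple i.val) t * (torusHom (F := F) D c)⁻¹ =
      xU D hD (D.simple i.val) _
    rw [torus_conj D hD c _ hs t, hc i]
  · rw [diagAut_xG D hD χ hχ _ hn]
    apply Subtype.ext
    show torusHom D c * xU D hD (D.neg (D.simple i.val)) t * (torusHom (F := F) D c)⁻¹ =
      xU D hD (D.neg (D.simple i.val)) _
    rw [torus_conj D hD c _ hn t, chiL_neg D hD _ _ hrange _ hs, hc i, hχ.1 _ hs,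
      Units.val_inv_eq_inv_val]

/-- when the characters of the root lattice can be prescribed on the fundamental roots, the
conjugate of a diagonal automorphism by a graph automorphism is diagonal -/
theorem graph_diag_conj {D : ChevalleyDatum}
    (hD : D ∈ [chevG2, chevB2, chevD4, chevF4, chevE6, chevE7, chevE8])
    (hchar : ∀ d : Fin D.rank → Fˣ, ∃ χ : ℕ → Fˣ, D.IsRootCharacter χ ∧
      ∀ i : Fin D.rank, χ (D.simple i.val) = d i)
    {γ d : MulAut ↥(D.group F)} (hγ : D.IsGraphAut γ) (hd : D.IsDiagonalAut d) :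
    D.IsDiagonalAut (γ * d * γ⁻¹) := by
  obtain ⟨π, -, h1⟩ := hγ
  obtain ⟨χ, hχ, rfl⟩ := exists_diagAut_of_isDiagonalAut hD hd
  obtain ⟨χ', hχ', h2⟩ := hchar (fun j => χ (D.simple (π.symm j).val) ^
    D.graphExp (ringChar F) (π.symm j).val j.val)
  have e : γ * diagAut D hD χ hχ = diagAut D hD χ' hχ' * γ := by
    apply aut_ext_simple D hD
    intro i t
    have hs := simple_lt D hD i.val i.isLt
    have hn := (neg_lt D hD _ hs).1
    have hs' := simple_lt D hD (π i).val (π i).isLt
    have hn' := (neg_lt D hD _ hs').1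
    have hpos : ∀ u : F, γ (xG D hD (D.simple i.val) u) =
        xG D hD (D.simple (π i).val) (u ^ D.graphExp (ringChar F) i.val (π i).val) :=
      fun u => Subtype.ext (Units.ext ((h1 (xG D hD (D.simple i.val) u) i u).1 rfl))
    have hneg : ∀ u : F, γ (xG D hD (D.neg (D.simple i.val)) u) =
        xG D hD (D.neg (D.simple (π i).val)) (u ^ D.graphExp (ringChar F) i.val (π i).val) :=
      fun u => Subtype.ext (Units.ext ((h1 (xG D hD (D.neg (D.simple i.val)) u) i u).2 rfl))
    have h3 : χ' (D.simple (π i).val) =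
        χ (D.simple i.val) ^ D.graphExp (ringChar F) i.val (π i).val := by
      rw [h2 (π i), π.symm_apply_apply]
    constructor
    · show γ (diagAut D hD χ hχ (xG D hD (D.simple i.val) t)) =
        diagAut D hD χ' hχ' (γ (xG D hD (D.simple i.val) t))
      rw [diagAut_xG D hD χ hχ _ hs, hpos, hpos, diagAut_xG D hD χ' hχ' _ hs', h3, mul_pow,
        Units.val_pow_eq_pow_val]
    · show γ (diagAut D hD χ hχ (xG D hD (D.neg (D.simple i.val)) t)) =
        diagAut D hD χ' hχ' (γ (xG D hD (D.neg (D.simple i.val)) t))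
      rw [diagAut_xG D hD χ hχ _ hn, hneg, hneg, diagAut_xG D hD χ' hχ' _ hn', hχ'.1 _ hs',
        hχ.1 _ hs, h3, mul_pow, Units.val_inv_eq_inv_val, Units.val_inv_eq_inv_val,
        Units.val_pow_eq_pow_val, inv_pow]
  have e2 : γ * diagAut D hD χ hχ * γ⁻¹ = diagAut D hD χ' hχ' := by
    rw [e]
    group
  rw [e2]
  exact isDiagonalAut_diagAut D hD χ' hχ'

/-! ### field automorphisms -/

theorem fieldRel_unique {D : ChevalleyDatum}
    (hD : D ∈ [chevG2, chevB2, chevD4, chevF4, chevE6, chevE7, chevE8])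
    {φ φ' : MulAut ↥(D.group F)} {σ : F ≃+* F} (h : FieldRel D φ σ) (h' : FieldRel D φ' σ) :
    φ = φ' := by
  apply aut_ext_simple D hD
  intro i t
  have hs := simple_lt D hD i.val i.isLt
  have hn := (neg_lt D hD _ hs).1
  exact ⟨by rw [fieldRel_xG hD h _ hs, fieldRel_xG hD h' _ hs],
    by rw [fieldRel_xG hD h _ hn, fieldRel_xG hD h' _ hn]⟩

theorem fieldRel_mul' {D : ChevalleyDatum} {φ φ' : MulAut ↥(D.group F)} {σ τ : F ≃+* F}
    (h : FieldRel D φ σ) (h' : FieldRel D φ' τ) : FieldRel D (φ * φ') (σ * τ) :=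
  fun g r t hr hg => h (φ' g) r (τ t) hr (h' g r t hr hg)

theorem fieldRel_one' (D : ChevalleyDatum) :
    FieldRel D (1 : MulAut ↥(D.group F)) (1 : F ≃+* F) := fun _ _ _ _ hg => hg

/-- the field automorphisms of the Chevalley group, as a homomorphism from the automorphism
group of the field -/
noncomputable def fieldHom (D : ChevalleyDatum)
    (hD : D ∈ [chevG2, chevB2, chevD4, chevF4, chevE6, chevE7, chevE8]) :
    (F ≃+* F) →* MulAut ↥(D.group F) where
  toFun σ := Classical.choose (exists_fieldRel D hD σ)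
  map_one' := fieldRel_unique hD (Classical.choose_spec (exists_fieldRel D hD 1))
    (fieldRel_one' D)
  map_mul' σ τ := fieldRel_unique hD (Classical.choose_spec (exists_fieldRel D hD (σ * τ)))
    (fieldRel_mul' (Classical.choose_spec (exists_fieldRel D hD σ))
      (Classical.choose_spec (exists_fieldRel D hD τ)))

theorem fieldHom_rel (D : ChevalleyDatum)
    (hD : D ∈ [chevG2, chevB2, chevD4, chevF4, chevE6, chevE7, chevE8]) (σ : F ≃+* F) :
    FieldRel D (fieldHom D hD σ) σ := Classical.choose_spec (exists_fieldRel D hD σ)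

/-- the automorphism group of a finite field is cyclic -/
theorem isCyclic_ringAut [Finite F] : IsCyclic (F ≃+* F) := by
  obtain ⟨p, hp⟩ := CharP.exists F
  have : Fact p.Prime := ⟨CharP.char_is_prime F p⟩
  let _ : Algebra (ZMod p) F := ZMod.algebra F p
  have hcyc : IsCyclic (F ≃ₐ[ZMod p] F) := inferInstance
  let h : (F ≃ₐ[ZMod p] F) →* (F ≃+* F) :=
    { toFun := fun σ => σ.toRingEquiv
      map_one' := rfl
      map_mul' := fun _ _ => rfl }
  refine isCyclic_of_surjective h ?_
  intro σ
  refine ⟨AlgEquiv.ofRingEquiv (f := σ) (fun x => ?_), ?_⟩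
  · have h2 := RingHom.congr_fun
      (Subsingleton.elim ((σ : F →+* F).comp (algebraMap (ZMod p) F))
        (algebraMap (ZMod p) F)) x
    simpa using h2
  · ext x
    rfl

/-! ### the stabiliser of the fundamental root subgroups -/

/-- the automorphisms stabilising `U`, `V` and the fundamental root subgroups -/
def stabSub [Finite F] (D : ChevalleyDatum)
    (hD : D ∈ [chevG2, chevB2, chevD4, chevF4, chevE6, chevE7, chevE8]) :
    Subgroup (MulAut ↥(D.group F)) where
  carrier := {θ | StabUV D θ ∧ ∀ i : Fin D.rank,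
    MapsSub D θ (D.rootSubgroup F (D.simple i.val)) (D.rootSubgroup F (D.simple i.val))}
  mul_mem' := fun ha hb => ⟨ha.1.mul hb.1, fun i => MapsSub.mul (ha.2 i) (hb.2 i)⟩
  one_mem' := ⟨⟨fun _ hy => hy, fun _ hy => hy⟩, fun _ _ hy => hy⟩
  inv_mem' := fun ha => ⟨ha.1.inv hD, fun i => (ha.2 i).inv (rootSubgroup_le_group D hD _) rfl⟩

theorem diag_mem_stabSub [Finite F] {D : ChevalleyDatum}
    (hD : D ∈ [chevG2, chevB2, chevD4, chevF4, chevE6, chevE7, chevE8])
    {d : MulAut ↥(D.group F)} (hd : D.IsDiagonalAut d) : d ∈ stabSub D hD := by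
  obtain ⟨χ, hχ, rfl⟩ := exists_diagAut_of_isDiagonalAut hD hd
  exact ⟨diagAut_stabUV D hD χ hχ,
    fun i => diagAut_mapsRoot D hD χ hχ _ (simple_lt D hD i.val i.isLt)⟩

theorem field_mem_stabSub [Finite F] {D : ChevalleyDatum}
    (hD : D ∈ [chevG2, chevB2, chevD4, chevF4, chevE6, chevE7, chevE8])
    {f : MulAut ↥(D.group F)} (hf : D.IsFieldAut f) : f ∈ stabSub D hD := by
  obtain ⟨σ, hσ'⟩ := hf
  have hσ : FieldRel D f σ := hσ'
  exact ⟨fieldRel_stabUV hD hσ,
    fun i => fieldRel_mapsRoot' hD hσ _ (simple_lt D hD i.val i.isLt)⟩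

/-- the permutation of the fundamental root subgroups induced by an automorphism is unique -/
theorem perm_unique {D : ChevalleyDatum}
    (hD : D ∈ [chevG2, chevB2, chevD4, chevF4, chevE6, chevE7, chevE8]) (hO : PosNegOK D F hD)
    {θ : MulAut ↥(D.group F)} {π π' : Fin D.rank → Fin D.rank}
    (hpos : ∀ i, MapsSub D θ (D.rootSubgroup F (D.simple i.val))
      (D.rootSubgroup F (D.simple (π i).val)))
    (hpos' : ∀ i, MapsSub D θ (D.rootSubgroup F (D.simple i.val))
      (D.rootSubgroup F (D.simple (π' i).val))) : π = π' := by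
  funext i
  by_contra hne
  obtain ⟨a, ha⟩ := (hpos i).exists_param hD (1 : F)
  obtain ⟨a', ha'⟩ := (hpos' i).exists_param hD (1 : F)
  have ha0 : a ≠ 0 := param_ne_zero hD (simple_lt D hD i.val i.isLt) one_ne_zero ha
  have e : xU D hD (D.simple (π' i).val) a' = xU D hD (D.simple (π i).val) a :=
    congrArg Subtype.val (ha'.symm.trans ha)
  exact simple_ne_of_ne' D hD hO (π i) (π' i) (fun h => hne h.symm) a' a ha0 e

/-- two automorphisms stabilising `U` and `V` which differ by an element of the subgroup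
generated by the inner automorphisms and the stabiliser of the fundamental root subgroups induce
the same permutation -/
theorem perm_eq_of_mem [Finite F] {D : ChevalleyDatum}
    (hD : D ∈ [chevG2, chevB2, chevD4, chevF4, chevE6, chevE7, chevE8]) (hO : PosNegOK D F hD)
    {γ γ' : MulAut ↥(D.group F)} {π π' : Fin D.rank → Fin D.rank} (hinj : Function.Injective π)
    (hS : StabUV D γ) (hS' : StabUV D γ')
    (hpos : ∀ i, MapsSub D γ (D.rootSubgroup F (D.simple i.val))
      (D.rootSubgroup F (D.simple (π i).val)))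
    (hpos' : ∀ i, MapsSub D γ' (D.rootSubgroup F (D.simple i.val))
      (D.rootSubgroup F (D.simple (π' i).val)))
    (hK : γ⁻¹ * γ' ∈ stabSub D hD ⊔ Cfsg.Inn ↥(D.group F)) : π = π' := by
  have hsurj : Function.Surjective π := Finite.injective_iff_surjective.mp hinj
  obtain ⟨t, ht, n, hn, e⟩ := Subgroup.mem_sup_of_normal_right.mp hK
  obtain ⟨x, rfl⟩ := hn
  have e2 : MulAut.conj x = t⁻¹ * γ⁻¹ * γ' := by
    rw [mul_assoc, ← e]
    group
  have htS : StabUV D t⁻¹ := StabUV.inv hD ht.1
  have hSx : StabUV D (MulAut.conj x) := by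
    rw [e2]
    exact (htS.mul (hS.inv hD)).mul hS'
  have hsl : ∀ i : Fin D.rank, D.simple i.val < D.nroots := fun i => simple_lt D hD i.val i.isLt
  funext k
  obtain ⟨m, hm⟩ := hsurj (π' k)
  have hmap : MapsSub D (MulAut.conj x) (D.rootSubgroup F (D.simple k.val))
      (D.rootSubgroup F (D.simple m.val)) := by
    rw [e2]
    refine MapsSub.mul (MapsSub.mul ((ht.2 m).inv (rootSubgroup_le_group D hD _) rfl)
      ((hpos m).inv (rootSubgroup_le_group D hD _)
        ((card_rootSubgroup D hD _ (hsl m)).trans (card_rootSubgroup D hD _ (hsl _)).symm))) ?_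
    rw [hm]
    exact hpos' k
  have hmk := inner_stab_root' D hD hO x hSx k m hmap
  rw [← hm, hmk]

end Cfsg.Agent.Lib.Helper36
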