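import Cfsg.Agent.Lib.Helper36.ChevOutA

set_option autoImplicit false

/-!
# The outer automorphism group of a Chevalley group: assembly

From the decomposition of the automorphisms (inner * diagonal * field * graph) the images
`D̄`, `F̄` of the diagonal and field automorphisms in `Out(G)` satisfy: `D̄` is normal and
abelian, `F̄` is cyclic, `D̄F̄` is normal and its index is the number of permutations of the
fundamental root subgroups realised by graph automorphisms.
-/

namespace Cfsg.Agent.Lib.Helper36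

open Cfsg Cfsg.Lie Cfsg.Agent.Lib.Helper18
open scoped commutatorElement

universe u

variable {F : Type u} [Field F]

/-- `γ` is a graph automorphism stabilising `U` and `V` and inducing `π` on the fundamental
root subgroups -/
def GoodPair (D : ChevalleyDatum) (π : Fin D.rank → Fin D.rank) (γ : MulAut ↥(D.group F)) :
    Prop :=
  StabUV D γ ∧ D.IsGraphAut γ ∧
    (∀ i, MapsSub D γ (D.rootSubgroup F (D.simple i.val))
      (D.rootSubgroup F (D.simple (π i).val))) ∧
    (∀ i, MapsSub D γ (D.rootSubgroup F (D.neg (D.simple i.val)))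
      (D.rootSubgroup F (D.neg (D.simple (π i).val))))

/-- every automorphism stabilising `U` and `V` permutes the fundamental root subgroups as some
graph automorphism does -/
def GraphHyp (D : ChevalleyDatum) (F : Type u) [Field F] : Prop :=
  ∀ θ₁ : MulAut ↥(D.group F), StabUV D θ₁ →
    ∃ (π : Fin D.rank → Fin D.rank) (γ : MulAut ↥(D.group F)), Function.Injective π ∧
      (∀ i, MapsSub D θ₁ (D.rootSubgroup F (D.simple i.val))
        (D.rootSubgroup F (D.simple (π i).val))) ∧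
      (∀ i, MapsSub D θ₁ (D.rootSubgroup F (D.neg (D.simple i.val)))
        (D.rootSubgroup F (D.neg (D.simple (π i).val)))) ∧
      StabUV D γ ∧ D.IsGraphAut γ ∧
      (∀ i, MapsSub D γ (D.rootSubgroup F (D.simple i.val))
        (D.rootSubgroup F (D.simple (π i).val))) ∧
      (∀ i, MapsSub D γ (D.rootSubgroup F (D.neg (D.simple i.val)))
        (D.rootSubgroup F (D.neg (D.simple (π i).val))))

/-- every automorphism stabilising `U`, `V` and the fundamental root subgroups is
inner * diagonal * field -/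
def DiagFieldHyp (D : ChevalleyDatum) (F : Type u) [Field F] : Prop :=
  ∀ θ' : MulAut ↥(D.group F), StabUV D θ' →
    (∀ i : Fin D.rank, MapsSub D θ' (D.rootSubgroup F (D.simple i.val))
      (D.rootSubgroup F (D.simple i.val))) →
    (∀ i : Fin D.rank, MapsSub D θ' (D.rootSubgroup F (D.neg (D.simple i.val)))
      (D.rootSubgroup F (D.neg (D.simple i.val)))) →
    ∃ (x : ↥(D.group F)) (d f : MulAut ↥(D.group F)), D.IsDiagonalAut d ∧ D.IsFieldAut f ∧
      θ' = MulAut.conj x * d * f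

/-- the decomposition inner * diagonal * field * graph, keeping the permutation -/
theorem decomp_good [Fintype F] {D : ChevalleyDatum}
    (hD : D ∈ [chevG2, chevB2, chevD4, chevF4, chevE6, chevE7, chevE8]) (p : ℕ) [Fact p.Prime]
    [CharP F p] (hG : GraphHyp D F) (hDF : DiagFieldHyp D F) (θ : MulAut ↥(D.group F)) :
    ∃ (x : ↥(D.group F)) (d f γ : MulAut ↥(D.group F)) (π : Fin D.rank → Fin D.rank),
      D.IsDiagonalAut d ∧ D.IsFieldAut f ∧ Function.Injective π ∧ GoodPair D π γ ∧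
        θ = MulAut.conj x * d * f * γ := by
  obtain ⟨x₁, hx₁⟩ := exists_stabUV D hD p θ
  have hS : StabUV D (MulAut.conj x₁ * θ) := hx₁
  obtain ⟨π, γ, hinj, hpos, hneg, hγS, hγG, hγpos, hγneg⟩ := hG _ hS
  have hsurj : Function.Surjective π := Finite.injective_iff_surjective.mp hinj
  have hsl : ∀ i : Fin D.rank, D.simple i.val < D.nroots := fun i => simple_lt D hD i.val i.isLt
  have hnl : ∀ i : Fin D.rank, D.neg (D.simple i.val) < D.nroots :=
    fun i => (neg_lt D hD _ (hsl i)).1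
  have hS' : StabUV D (MulAut.conj x₁ * θ * γ⁻¹) := hS.mul (hγS.inv hD)
  obtain ⟨x₂, d, f, hd, hf, e⟩ := hDF _ hS'
    (fun j => by
      obtain ⟨i, rfl⟩ := hsurj j
      exact MapsSub.mul (hpos i) ((hγpos i).inv (rootSubgroup_le_group D hD _)
        ((card_rootSubgroup D hD _ (hsl i)).trans (card_rootSubgroup D hD _ (hsl _)).symm)))
    (fun j => by
      obtain ⟨i, rfl⟩ := hsurj j
      exact MapsSub.mul (hneg i) ((hγneg i).inv (rootSubgroup_le_group D hD _)
        ((card_rootSubgroup D hD _ (hnl i)).trans (card_rootSubgroup D hD _ (hnl _)).symm)))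
  refine ⟨x₁⁻¹ * x₂, d, f, γ, π, hd, hf, hinj, ⟨hγS, hγG, hγpos, hγneg⟩, ?_⟩
  rw [map_mul, map_inv]
  calc θ = (MulAut.conj x₁)⁻¹ * (MulAut.conj x₁ * θ * γ⁻¹) * γ := by group
    _ = (MulAut.conj x₁)⁻¹ * (MulAut.conj x₂ * d * f) * γ := by rw [e]
    _ = (MulAut.conj x₁)⁻¹ * MulAut.conj x₂ * d * f * γ := by group

/-- two graph automorphisms inducing the same permutation differ by an element of the subgroup
generated by the inner, diagonal and field automorphisms -/
theorem good_same_perm [Fintype F] {D : ChevalleyDatum}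
    (hD : D ∈ [chevG2, chevB2, chevD4, chevF4, chevE6, chevE7, chevE8])
    (hDF : DiagFieldHyp D F) {π : Fin D.rank → Fin D.rank} {γ γ' : MulAut ↥(D.group F)}
    (hγ : GoodPair D π γ) (hγ' : GoodPair D π γ') :
    γ⁻¹ * γ' ∈ Subgroup.closure {φ : MulAut ↥(D.group F) | D.IsDiagonalAut φ} ⊔
      Subgroup.closure {φ : MulAut ↥(D.group F) | D.IsFieldAut φ} ⊔ Cfsg.Inn ↥(D.group F) := by
  have hsl : ∀ i : Fin D.rank, D.simple i.val < D.nroots := fun i => simple_lt D hD i.val i.isLt
  have hnl : ∀ i : Fin D.rank, D.neg (D.simple i.val) < D.nroots :=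
    fun i => (neg_lt D hD _ (hsl i)).1
  obtain ⟨x, d, f, hd, hf, e⟩ := hDF (γ⁻¹ * γ') ((hγ.1.inv hD).mul hγ'.1)
    (fun i => MapsSub.mul ((hγ.2.2.1 i).inv (rootSubgroup_le_group D hD _)
      ((card_rootSubgroup D hD _ (hsl i)).trans (card_rootSubgroup D hD _ (hsl _)).symm))
      (hγ'.2.2.1 i))
    (fun i => MapsSub.mul ((hγ.2.2.2 i).inv (rootSubgroup_le_group D hD _)
      ((card_rootSubgroup D hD _ (hnl i)).trans (card_rootSubgroup D hD _ (hnl _)).symm))
      (hγ'.2.2.2 i))
  rw [e]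
  have h1 : MulAut.conj x ∈ Subgroup.closure {φ : MulAut ↥(D.group F) | D.IsDiagonalAut φ} ⊔
      Subgroup.closure {φ : MulAut ↥(D.group F) | D.IsFieldAut φ} ⊔ Cfsg.Inn ↥(D.group F) :=
    (le_sup_right : Cfsg.Inn ↥(D.group F) ≤ _) ⟨x, rfl⟩
  have h2 : d ∈ Subgroup.closure {φ : MulAut ↥(D.group F) | D.IsDiagonalAut φ} ⊔
      Subgroup.closure {φ : MulAut ↥(D.group F) | D.IsFieldAut φ} ⊔ Cfsg.Inn ↥(D.group F) :=
    (le_sup_left : Subgroup.closure {φ : MulAut ↥(D.group F) | D.IsDiagonalAut φ} ⊔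
      Subgroup.closure {φ : MulAut ↥(D.group F) | D.IsFieldAut φ} ≤ _)
      ((le_sup_left : Subgroup.closure {φ : MulAut ↥(D.group F) | D.IsDiagonalAut φ} ≤ _)
        (Subgroup.subset_closure hd))
  have h3 : f ∈ Subgroup.closure {φ : MulAut ↥(D.group F) | D.IsDiagonalAut φ} ⊔
      Subgroup.closure {φ : MulAut ↥(D.group F) | D.IsFieldAut φ} ⊔ Cfsg.Inn ↥(D.group F) :=
    (le_sup_left : Subgroup.closure {φ : MulAut ↥(D.group F) | D.IsDiagonalAut φ} ⊔
      Subgroup.closure {φ : MulAut ↥(D.group F) | D.IsFieldAut φ} ≤ _)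
      ((le_sup_right : Subgroup.closure {φ : MulAut ↥(D.group F) | D.IsFieldAut φ} ≤ _)
        (Subgroup.subset_closure hf))
  exact Subgroup.mul_mem _ (Subgroup.mul_mem _ h1 h2) h3

/-- the structure of `Out(G)`, with the index of `D̄F̄` as a number of permutations -/
theorem out_main [Fintype F] {D : ChevalleyDatum}
    (hD : D ∈ [chevG2, chevB2, chevD4, chevF4, chevE6, chevE7, chevE8]) (p : ℕ) [Fact p.Prime]
    [CharP F p] (hO : PosNegOK D F hD) (hG : GraphHyp D F) (hDF : DiagFieldHyp D F)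
    (hγd : ∀ γ d : MulAut ↥(D.group F), D.IsGraphAut γ → D.IsDiagonalAut d →
      γ * d * γ⁻¹ ∈ Subgroup.closure {φ : MulAut ↥(D.group F) | D.IsDiagonalAut φ} ⊔
        Cfsg.Inn ↥(D.group F))
    (Dbar Fbar : Subgroup (Cfsg.Out ↥(D.group F)))
    (hDbar : Dbar = (Subgroup.closure {φ : MulAut ↥(D.group F) | D.IsDiagonalAut φ}).map
      (QuotientGroup.mk' (Cfsg.Inn ↥(D.group F))))
    (hFbar : Fbar = (Subgroup.closure {φ : MulAut ↥(D.group F) | D.IsFieldAut φ}).map
      (QuotientGroup.mk' (Cfsg.Inn ↥(D.group F)))) :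
    Dbar.Normal ∧ IsMulCommutative ↥Dbar ∧ IsCyclic ↥Fbar ∧ (Dbar ⊔ Fbar).Normal ∧
      (Dbar ⊔ Fbar).index = Nat.card {π : Fin D.rank → Fin D.rank //
        Function.Injective π ∧ ∃ γ : MulAut ↥(D.group F), GoodPair D π γ} ∧
      (∀ (a b : MulAut ↥(D.group F)) (πa πb : Fin D.rank → Fin D.rank),
        Function.Injective πa → Function.Injective πb → StabUV D a → StabUV D b →
        (∀ i, MapsSub D a (D.rootSubgroup F (D.simple i.val))
          (D.rootSubgroup F (D.simple (πa i).val))) →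
        (∀ i, MapsSub D b (D.rootSubgroup F (D.simple i.val))
          (D.rootSubgroup F (D.simple (πb i).val))) →
        πa ∘ πb ≠ πb ∘ πa → ¬ commutator (Cfsg.Out ↥(D.group F)) ≤ Dbar ⊔ Fbar) := by
  classical
  have hdec : ∀ θ : MulAut ↥(D.group F), ∃ n ∈ Cfsg.Inn ↥(D.group F),
      ∃ d ∈ {φ : MulAut ↥(D.group F) | D.IsDiagonalAut φ},
      ∃ f ∈ {φ : MulAut ↥(D.group F) | D.IsFieldAut φ},
      ∃ γ ∈ {γ : MulAut ↥(D.group F) | ∃ π : Fin D.rank → Fin D.rank,
        Function.Injective π ∧ GoodPair D π γ}, θ = n * d * f * γ := by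
    intro θ
    obtain ⟨x, d, f, γ, π, hd, hf, hinj, hgood, e⟩ := decomp_good hD p hG hDF θ
    exact ⟨MulAut.conj x, ⟨x, rfl⟩, d, hd, f, hf, γ, ⟨π, hinj, hgood⟩, e⟩
  obtain ⟨hM, hK⟩ := outStruct_normal (Cfsg.Inn ↥(D.group F))
    {φ : MulAut ↥(D.group F) | D.IsDiagonalAut φ} {φ : MulAut ↥(D.group F) | D.IsFieldAut φ}
    {γ : MulAut ↥(D.group F) | ∃ π : Fin D.rank → Fin D.rank,
      Function.Injective π ∧ GoodPair D π γ} hdec
    (fun γ hγ d hd => by
      obtain ⟨π, _, hgood⟩ := hγ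
      exact hγd γ d hgood.2.1 hd)
    (fun f hf d hd =>
      (le_sup_left : Subgroup.closure {φ : MulAut ↥(D.group F) | D.IsDiagonalAut φ} ≤ _)
        (Subgroup.subset_closure (field_diag_conj hD hf hd)))
    (fun γ hγ f hf => by
      obtain ⟨π, _, hgood⟩ := hγ
      apply MulEquiv.ext
      intro y
      exact (Cfsg.Agent.S2160.result D hD f γ hf hgood.2.1 y).symm)
  obtain ⟨h1, h2, h3, h4⟩ := outStruct_main (Cfsg.Inn ↥(D.group F))
    {φ : MulAut ↥(D.group F) | D.IsDiagonalAut φ} {φ : MulAut ↥(D.group F) | D.IsFieldAut φ}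
    hM hK Dbar Fbar hDbar hFbar
  have hKle : Subgroup.closure {φ : MulAut ↥(D.group F) | D.IsDiagonalAut φ} ⊔
      Subgroup.closure {φ : MulAut ↥(D.group F) | D.IsFieldAut φ} ⊔ Cfsg.Inn ↥(D.group F) ≤
      stabSub D hD ⊔ Cfsg.Inn ↥(D.group F) :=
    sup_le (sup_le
      (le_sup_of_le_left ((Subgroup.closure_le _).mpr (fun d hd => diag_mem_stabSub hD hd)))
      (le_sup_of_le_left ((Subgroup.closure_le _).mpr (fun f hf => field_mem_stabSub hD hf))))
      le_sup_right
  refine ⟨h1, outStruct_comm (Cfsg.Inn ↥(D.group F)) _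
    (fun a ha b hb => isDiagonalAut_comm hD ha hb) Dbar hDbar, ?_, h2, ?_, ?_⟩
  · have := isCyclic_ringAut (F := F)
    exact outStruct_cyclic (Cfsg.Inn ↥(D.group F))
      {φ : MulAut ↥(D.group F) | D.IsFieldAut φ} (fieldHom D hD)
      (fun σ => ⟨σ, fieldHom_rel D hD σ⟩) (fun f hf => by
        obtain ⟨σ, hσ⟩ := hf
        exact ⟨σ, fieldRel_unique hD (fieldHom_rel D hD σ) hσ⟩) Fbar hFbar
  · rw [h3]
    haveI := hK
    refine outStruct_index _ {γ : MulAut ↥(D.group F) | ∃ π : Fin D.rank → Fin D.rank,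
      Function.Injective π ∧ GoodPair D π γ}
      (fun i : {π : Fin D.rank → Fin D.rank //
        Function.Injective π ∧ ∃ γ : MulAut ↥(D.group F), GoodPair D π γ} =>
        Classical.choose i.2.2) ?_ ?_ ?_
    · intro θ
      obtain ⟨x, d, f, γ, π, hd, hf, hinj, hgood, e⟩ := decomp_good hD p hG hDF θ
      refine ⟨MulAut.conj x * d * f, ?_, γ, ⟨π, hinj, hgood⟩, e⟩
      have h1 : MulAut.conj x ∈
          Subgroup.closure {φ : MulAut ↥(D.group F) | D.IsDiagonalAut φ} ⊔
          Subgroup.closure {φ : MulAut ↥(D.group F) | D.IsFieldAut φ} ⊔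
            Cfsg.Inn ↥(D.group F) :=
        (le_sup_right : Cfsg.Inn ↥(D.group F) ≤ _) ⟨x, rfl⟩
      have h2 : d ∈ Subgroup.closure {φ : MulAut ↥(D.group F) | D.IsDiagonalAut φ} ⊔
          Subgroup.closure {φ : MulAut ↥(D.group F) | D.IsFieldAut φ} ⊔
            Cfsg.Inn ↥(D.group F) :=
        (le_sup_left : Subgroup.closure {φ : MulAut ↥(D.group F) | D.IsDiagonalAut φ} ⊔
          Subgroup.closure {φ : MulAut ↥(D.group F) | D.IsFieldAut φ} ≤ _)
          ((le_sup_left : Subgroup.closure {φ : MulAut ↥(D.group F) | D.IsDiagonalAut φ} ≤ _)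
            (Subgroup.subset_closure hd))
      have h3 : f ∈ Subgroup.closure {φ : MulAut ↥(D.group F) | D.IsDiagonalAut φ} ⊔
          Subgroup.closure {φ : MulAut ↥(D.group F) | D.IsFieldAut φ} ⊔
            Cfsg.Inn ↥(D.group F) :=
        (le_sup_left : Subgroup.closure {φ : MulAut ↥(D.group F) | D.IsDiagonalAut φ} ⊔
          Subgroup.closure {φ : MulAut ↥(D.group F) | D.IsFieldAut φ} ≤ _)
          ((le_sup_right : Subgroup.closure {φ : MulAut ↥(D.group F) | D.IsFieldAut φ} ≤ _)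
            (Subgroup.subset_closure hf))
      exact Subgroup.mul_mem _ (Subgroup.mul_mem _ h1 h2) h3
    · intro γ hγ
      obtain ⟨π, hinj, hgood⟩ := hγ
      refine ⟨⟨π, hinj, γ, hgood⟩, ?_⟩
      exact good_same_perm hD hDF hgood
        (Classical.choose_spec (⟨γ, hgood⟩ : ∃ γ : MulAut ↥(D.group F), GoodPair D π γ))
    · intro i j hij
      have hi := Classical.choose_spec i.2.2
      have hj := Classical.choose_spec j.2.2
      exact Subtype.ext (perm_eq_of_mem hD hO i.2.1 hi.1 hj.1 hi.2.2.1 hj.2.2.1 (hKle hij))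
  · intro a b πa πb hia hib hSa hSb hpa hpb hne
    apply h4 a⁻¹ b⁻¹
    intro hmem
    apply hne
    have e : ⁅a⁻¹, b⁻¹⁆ = (b * a)⁻¹ * (a * b) := by
      rw [commutatorElement_def]
      group
    rw [e] at hmem
    have h5 : πb ∘ πa = πa ∘ πb :=
      perm_eq_of_mem hD hO (hib.comp hia) (hSb.mul hSa) (hSa.mul hSb)
        (fun i => MapsSub.mul (hpb (πa i)) (hpa i)) (fun i => MapsSub.mul (hpa (πb i)) (hpb i))
        (hKle hmem)
    exact h5.symm

theorem card_one_or_two {α : Type*} [Finite α] (a b : α) (h : ∀ x : α, x = a ∨ x = b) :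
    Nat.card α = 1 ∨ Nat.card α = 2 := by
  classical
  have hpos : 0 < Nat.card α := Nat.card_pos_iff.mpr ⟨⟨a⟩, inferInstance⟩
  have hle : Nat.card α ≤ 2 := by
    have hinj : Function.Injective (fun x : α => decide (x = a)) := by
      intro x y hxy
      have hxy' : (x = a) ↔ (y = a) := decide_eq_decide.mp hxy
      rcases h x with hx | hx
      · rw [hx, hxy'.mp hx]
      · rcases h y with hy | hy
        · rw [hxy'.mpr hy, hy]
        · rw [hx, hy]
    have h1 := Nat.card_le_card_of_injective _ hinj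
    rw [Nat.card_eq_fintype_card (α := Bool), Fintype.card_bool] at h1
    exact h1
  omega

/-- the structure of `Out(G)` when at most one nontrivial permutation is realised -/
theorem out_of_two [Fintype F] {D : ChevalleyDatum}
    (hD : D ∈ [chevG2, chevB2, chevD4, chevF4, chevE6, chevE7, chevE8]) (p : ℕ) [Fact p.Prime]
    [CharP F p] (hO : PosNegOK D F hD) (hG : GraphHyp D F) (hDF : DiagFieldHyp D F)
    (hγd : ∀ γ d : MulAut ↥(D.group F), D.IsGraphAut γ → D.IsDiagonalAut d →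
      γ * d * γ⁻¹ ∈ Subgroup.closure {φ : MulAut ↥(D.group F) | D.IsDiagonalAut φ} ⊔
        Cfsg.Inn ↥(D.group F))
    (σ₀ : Fin D.rank → Fin D.rank)
    (hshape : ∀ (γ : MulAut ↥(D.group F)) (π : Fin D.rank → Fin D.rank),
      Function.Injective π → GoodPair D π γ → (∀ i, π i = i) ∨ (∀ i, π i = σ₀ i))
    (Dbar Fbar : Subgroup (Cfsg.Out ↥(D.group F)))
    (hDbar : Dbar = (Subgroup.closure {φ : MulAut ↥(D.group F) | D.IsDiagonalAut φ}).map
      (QuotientGroup.mk' (Cfsg.Inn ↥(D.group F))))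
    (hFbar : Fbar = (Subgroup.closure {φ : MulAut ↥(D.group F) | D.IsFieldAut φ}).map
      (QuotientGroup.mk' (Cfsg.Inn ↥(D.group F)))) :
    Dbar.Normal ∧ IsMulCommutative ↥Dbar ∧ IsCyclic ↥Fbar ∧ (Dbar ⊔ Fbar).Normal ∧
      ((Dbar ⊔ Fbar).index = 1 ∨ (Dbar ⊔ Fbar).index = 2 ∨
        ((Dbar ⊔ Fbar).index = 6 ∧ ¬ commutator (Cfsg.Out ↥(D.group F)) ≤ Dbar ⊔ Fbar)) := by
  obtain ⟨h1, h2, h3, h4, h5, -⟩ := out_main hD p hO hG hDF hγd Dbar Fbar hDbar hFbar
  refine ⟨h1, h2, h3, h4, ?_⟩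
  rw [h5]
  have hid : Function.Injective (fun i : Fin D.rank => i) ∧
      ∃ γ : MulAut ↥(D.group F), GoodPair D (fun i : Fin D.rank => i) γ :=
    ⟨fun _ _ h => h, 1, one_good D⟩
  by_cases hex : Function.Injective σ₀ ∧ ∃ γ : MulAut ↥(D.group F), GoodPair D σ₀ γ
  · rcases card_one_or_two (⟨fun i => i, hid⟩ : {π : Fin D.rank → Fin D.rank //
        Function.Injective π ∧ ∃ γ : MulAut ↥(D.group F), GoodPair D π γ}) ⟨σ₀, hex⟩
        (fun x => by
          obtain ⟨γ', hγ'⟩ := x.2.2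
          rcases hshape γ' x.1 x.2.1 hγ' with h | h
          · exact Or.inl (Subtype.ext (funext h))
          · exact Or.inr (Subtype.ext (funext h))) with h | h
    · exact Or.inl h
    · exact Or.inr (Or.inl h)
  · rcases card_one_or_two (⟨fun i => i, hid⟩ : {π : Fin D.rank → Fin D.rank //
        Function.Injective π ∧ ∃ γ : MulAut ↥(D.group F), GoodPair D π γ}) ⟨fun i => i, hid⟩
        (fun x => by
          obtain ⟨γ', hγ'⟩ := x.2.2
          rcases hshape γ' x.1 x.2.1 hγ' with h | h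
          · exact Or.inl (Subtype.ext (funext h))
          · exfalso
            apply hex
            have e : x.1 = σ₀ := funext h
            rw [← e]
            exact x.2) with h | h
    · exact Or.inl h
    · exact Or.inr (Or.inl h)

end Cfsg.Agent.Lib.Helper36
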