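import Cfsg.Agent.Lib.Helper36.ChevOutB
import Cfsg.Agent.Lib.Helper36.ChevDecE

set_option autoImplicit false

/-!
# The outer automorphism groups of the Chevalley groups of type G₂, B₂, D₄, F₄, E₆, E₇, E₈

For each type: `D̄` is normal abelian, `F̄` is cyclic, `D̄F̄` is normal, of index 1 or 2, except
for type D₄ where the index is 6 and the quotient is not abelian.
-/

namespace Cfsg.Agent.Lib.Helper36

open Cfsg Cfsg.Lie Cfsg.Agent.Lib.Helper18

universe u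

variable {F : Type u} [Field F]

/-- with an injective torus the conjugates of the diagonal automorphisms are inner -/
theorem hγd_of_torus [Finite F] {D : ChevalleyDatum}
    (hD : D ∈ [chevG2, chevB2, chevD4, chevF4, chevE6, chevE7, chevE8])
    (hT : Function.Injective (torusHom (F := F) D)) :
    ∀ γ d : MulAut ↥(D.group F), D.IsGraphAut γ → D.IsDiagonalAut d →
      γ * d * γ⁻¹ ∈ Subgroup.closure {φ : MulAut ↥(D.group F) | D.IsDiagonalAut φ} ⊔
        Cfsg.Inn ↥(D.group F) := by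
  intro γ d _ hd
  exact (le_sup_right : Cfsg.Inn ↥(D.group F) ≤ _)
    ((Cfsg.innNormal ↥(D.group F)).conj_mem d (diag_inner_of_torus_inj hD hT hd) γ)

/-- when the characters can be prescribed, the conjugates of the diagonal automorphisms by the
graph automorphisms are diagonal -/
theorem hγd_of_char {D : ChevalleyDatum}
    (hD : D ∈ [chevG2, chevB2, chevD4, chevF4, chevE6, chevE7, chevE8])
    (hchar : ∀ d : Fin D.rank → Fˣ, ∃ χ : ℕ → Fˣ, D.IsRootCharacter χ ∧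
      ∀ i : Fin D.rank, χ (D.simple i.val) = d i) :
    ∀ γ d : MulAut ↥(D.group F), D.IsGraphAut γ → D.IsDiagonalAut d →
      γ * d * γ⁻¹ ∈ Subgroup.closure {φ : MulAut ↥(D.group F) | D.IsDiagonalAut φ} ⊔
        Cfsg.Inn ↥(D.group F) := by
  intro γ d hγ hd
  exact (le_sup_left : Subgroup.closure {φ : MulAut ↥(D.group F) | D.IsDiagonalAut φ} ≤ _)
    (Subgroup.subset_closure (graph_diag_conj hD hchar hγ hd))

theorem hchar_of_rc (D : ChevalleyDatum) (hR : RcOK D) :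
    ∀ d : Fin D.rank → Fˣ, ∃ χ : ℕ → Fˣ, D.IsRootCharacter χ ∧
      ∀ i : Fin D.rank, χ (D.simple i.val) = d i :=
  fun d => ⟨rootChar D d, rootChar_isRootCharacter D hR d, fun i => rootChar_simple D hR d i⟩

/-! ### `E₈` -/

set_option maxRecDepth 100000 in
theorem posNegChk_E8 : posNegChk chevE8 = true := by decide +kernel

theorem out_E8 [Fintype F] (p : ℕ) [Fact p.Prime] [CharP F p]
    (Dbar Fbar : Subgroup (Cfsg.Out ↥(chevE8.group F)))
    (hDbar : Dbar = (Subgroup.closure {φ : MulAut ↥(chevE8.group F) |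
      chevE8.IsDiagonalAut φ}).map (QuotientGroup.mk' (Cfsg.Inn ↥(chevE8.group F))))
    (hFbar : Fbar = (Subgroup.closure {φ : MulAut ↥(chevE8.group F) |
      chevE8.IsFieldAut φ}).map (QuotientGroup.mk' (Cfsg.Inn ↥(chevE8.group F)))) :
    Dbar.Normal ∧ IsMulCommutative ↥Dbar ∧ IsCyclic ↥Fbar ∧ (Dbar ⊔ Fbar).Normal ∧
      ((Dbar ⊔ Fbar).index = 1 ∨ (Dbar ⊔ Fbar).index = 2 ∨
        ((Dbar ⊔ Fbar).index = 6 ∧ ¬ commutator (Cfsg.Out ↥(chevE8.group F)) ≤ Dbar ⊔ Fbar)) := by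
  have hD : chevE8 ∈ [chevG2, chevB2, chevD4, chevF4, chevE6, chevE7, chevE8] := by simp
  have hO : SimpOK chevE8 F hD := simpOK_of_chk chevE8 hD simpleChk_E8
  have hP : PosNegOK chevE8 F hD := posNegOK_of_chk chevE8 hD posNegChk_E8
  have hT : Function.Injective (torusHom (F := F) chevE8) :=
    torusHom_injective_of_cert _ hD _ kerCertE8_check rfl
  refine out_of_two hD p hP ?_ ?_ (hγd_of_torus hD hT) (fun i => i) ?_ Dbar Fbar hDbar hFbar
  · intro θ₁ hS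
    obtain ⟨π, hinj, hadj, hpos, hneg⟩ := hS.exists_perm hD hO
    have hπ := e8_rigid π hinj hadj
    obtain ⟨a, b, c, d⟩ := one_good (F := F) chevE8
    exact ⟨π, 1, hinj, hpos, hneg, a, b, fun i => by rw [hπ i]; exact c i,
      fun i => by rw [hπ i]; exact d i⟩
  · intro θ' hS hpos hneg
    exact dfield_of_conj hD (hS.eq_conj_field hD hO dynOK_E8 hT hpos hneg)
  · intro γ π hinj hgood
    obtain ⟨π', -, hadj', hpos', -⟩ := hgood.1.exists_perm hD hO
    have e : π = π' := perm_unique hD hP hgood.2.2.1 hpos'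
    subst e
    exact Or.inl (e8_rigid π hinj hadj')

/-! ### `E₇` -/

set_option maxRecDepth 100000 in
theorem posNegChk_E7 : posNegChk chevE7 = true := by decide +kernel

theorem out_E7 [Fintype F] (p : ℕ) [Fact p.Prime] [CharP F p]
    (Dbar Fbar : Subgroup (Cfsg.Out ↥(chevE7.group F)))
    (hDbar : Dbar = (Subgroup.closure {φ : MulAut ↥(chevE7.group F) |
      chevE7.IsDiagonalAut φ}).map (QuotientGroup.mk' (Cfsg.Inn ↥(chevE7.group F))))
    (hFbar : Fbar = (Subgroup.closure {φ : MulAut ↥(chevE7.group F) |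
      chevE7.IsFieldAut φ}).map (QuotientGroup.mk' (Cfsg.Inn ↥(chevE7.group F)))) :
    Dbar.Normal ∧ IsMulCommutative ↥Dbar ∧ IsCyclic ↥Fbar ∧ (Dbar ⊔ Fbar).Normal ∧
      ((Dbar ⊔ Fbar).index = 1 ∨ (Dbar ⊔ Fbar).index = 2 ∨
        ((Dbar ⊔ Fbar).index = 6 ∧ ¬ commutator (Cfsg.Out ↥(chevE7.group F)) ≤ Dbar ⊔ Fbar)) := by
  have hO : SimpOK chevE7 F hE7 := simpOK_of_chk chevE7 hE7 simpleChk_E7
  have hP : PosNegOK chevE7 F hE7 := posNegOK_of_chk chevE7 hE7 posNegChk_E7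
  refine out_of_two hE7 p hP ?_ ?_ (hγd_of_char hE7 (hchar_of_rc chevE7 rcOK_E7)) (fun i => i)
    ?_ Dbar Fbar hDbar hFbar
  · intro θ₁ hS
    obtain ⟨π, hinj, hadj, hpos, hneg⟩ := hS.exists_perm hE7 hO
    have hπ := e7_rigid π hinj hadj
    obtain ⟨a, b, c, d⟩ := one_good (F := F) chevE7
    exact ⟨π, 1, hinj, hpos, hneg, a, b, fun i => by rw [hπ i]; exact c i,
      fun i => by rw [hπ i]; exact d i⟩
  · intro θ' hS hpos hneg
    exact dfield_of_dAut hE7 rcOK_E7 (hS.eq_diag_field hE7 hO dynOK_E7 rcOK_E7 hpos hneg)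
  · intro γ π hinj hgood
    obtain ⟨π', -, hadj', hpos', -⟩ := hgood.1.exists_perm hE7 hO
    have e : π = π' := perm_unique hE7 hP hgood.2.2.1 hpos'
    subst e
    exact Or.inl (e7_rigid π hinj hadj')

/-! ### `E₆` -/

set_option maxRecDepth 100000 in
theorem posNegChk_E6 : posNegChk chevE6 = true := by decide +kernel

theorem out_E6 [Fintype F] (p : ℕ) [Fact p.Prime] [CharP F p]
    (Dbar Fbar : Subgroup (Cfsg.Out ↥(chevE6.group F)))
    (hDbar : Dbar = (Subgroup.closure {φ : MulAut ↥(chevE6.group F) |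
      chevE6.IsDiagonalAut φ}).map (QuotientGroup.mk' (Cfsg.Inn ↥(chevE6.group F))))
    (hFbar : Fbar = (Subgroup.closure {φ : MulAut ↥(chevE6.group F) |
      chevE6.IsFieldAut φ}).map (QuotientGroup.mk' (Cfsg.Inn ↥(chevE6.group F)))) :
    Dbar.Normal ∧ IsMulCommutative ↥Dbar ∧ IsCyclic ↥Fbar ∧ (Dbar ⊔ Fbar).Normal ∧
      ((Dbar ⊔ Fbar).index = 1 ∨ (Dbar ⊔ Fbar).index = 2 ∨
        ((Dbar ⊔ Fbar).index = 6 ∧ ¬ commutator (Cfsg.Out ↥(chevE6.group F)) ≤ Dbar ⊔ Fbar)) := by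
  have hO : SimpOK chevE6 F hE6 := simpOK_of_chk chevE6 hE6 simpleChk_E6
  have hP : PosNegOK chevE6 F hE6 := posNegOK_of_chk chevE6 hE6 posNegChk_E6
  refine out_of_two hE6 p hP ?_ ?_ (hγd_of_char hE6 (hchar_of_rc chevE6 rcOK_E6)) rhoE6
    ?_ Dbar Fbar hDbar hFbar
  · intro θ₁ hS
    obtain ⟨π, hinj, hadj, hpos, hneg⟩ := hS.exists_perm hE6 hO
    rcases e6_rigid π hinj hadj with hπ | hπ
    · obtain ⟨a, b, c, d⟩ := one_good (F := F) chevE6
      exact ⟨π, 1, hinj, hpos, hneg, a, b, fun i => by rw [hπ i]; exact c i,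
        fun i => by rw [hπ i]; exact d i⟩
    · exact ⟨π, gE6, hinj, hpos, hneg, gE6_stabUV, isGraphAut_gE6,
        fun i => by rw [hπ i]; exact gE6_mapsPos i, fun i => by rw [hπ i]; exact gE6_mapsNeg i⟩
  · intro θ' hS hpos hneg
    exact dfield_of_dAut hE6 rcOK_E6 (hS.eq_diag_field hE6 hO dynOK_E6 rcOK_E6 hpos hneg)
  · intro γ π hinj hgood
    obtain ⟨π', -, hadj', hpos', -⟩ := hgood.1.exists_perm hE6 hO
    have e : π = π' := perm_unique hE6 hP hgood.2.2.1 hpos'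
    subst e
    exact e6_rigid π hinj hadj'

/-! ### `G₂` -/

theorem out_G2 [Fintype F] (p : ℕ) [Fact p.Prime] [CharP F p]
    (Dbar Fbar : Subgroup (Cfsg.Out ↥(chevG2.group F)))
    (hDbar : Dbar = (Subgroup.closure {φ : MulAut ↥(chevG2.group F) |
      chevG2.IsDiagonalAut φ}).map (QuotientGroup.mk' (Cfsg.Inn ↥(chevG2.group F))))
    (hFbar : Fbar = (Subgroup.closure {φ : MulAut ↥(chevG2.group F) |
      chevG2.IsFieldAut φ}).map (QuotientGroup.mk' (Cfsg.Inn ↥(chevG2.group F)))) :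
    Dbar.Normal ∧ IsMulCommutative ↥Dbar ∧ IsCyclic ↥Fbar ∧ (Dbar ⊔ Fbar).Normal ∧
      ((Dbar ⊔ Fbar).index = 1 ∨ (Dbar ⊔ Fbar).index = 2 ∨
        ((Dbar ⊔ Fbar).index = 6 ∧ ¬ commutator (Cfsg.Out ↥(chevG2.group F)) ≤ Dbar ⊔ Fbar)) := by
  refine out_of_two g2mem p posNegOK_G2 ?_ ?_ (hγd_of_torus g2mem torus_inj_G2) swG2
    (fun γ π hinj _ => perm_G2 π hinj) Dbar Fbar hDbar hFbar
  · intro θ₁ hS
    obtain ⟨π, hinj, hpos, hneg⟩ := hS.exists_perm' g2mem posNegOK_G2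
    rcases perm_G2 π hinj with hπ | hπ
    · obtain ⟨a, b, c, d⟩ := one_good (F := F) chevG2
      exact ⟨π, 1, hinj, hpos, hneg, a, b, fun i => by rw [hπ i]; exact c i,
        fun i => by rw [hπ i]; exact d i⟩
    · by_cases h3 : (3 : F) = 0
      · have hp3 : p = 3 := by
          have h' : ((3 : ℕ) : F) = 0 := by exact_mod_cast h3
          rw [CharP.cast_eq_zero_iff F p] at h'
          exact (Nat.prime_dvd_prime_iff_eq (Fact.out : p.Prime) Nat.prime_three).mp h'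
        subst hp3
        exact ⟨π, gG2, hinj, hpos, hneg, gG2_stabUV, isGraphAut_gG2,
          fun i => by rw [hπ i]; exact gG2_mapsPos i,
          fun i => by rw [hπ i]; exact gG2_mapsNeg i⟩
      · exact (g2_no_swap' h3 hS (fun i => by have h1 := hpos i; rwa [hπ i] at h1)
          (fun i => by have h1 := hneg i; rwa [hπ i] at h1)).elim
  · intro θ' hS hpos hneg
    exact dfield_of_conj g2mem
      (hS.eq_conj_field'' g2mem dynOK_G2 link_G2 torus_inj_G2 hpos hneg)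

/-! ### `F₄` -/

theorem out_F4 [Fintype F] (p : ℕ) [Fact p.Prime] [CharP F p]
    (Dbar Fbar : Subgroup (Cfsg.Out ↥(chevF4.group F)))
    (hDbar : Dbar = (Subgroup.closure {φ : MulAut ↥(chevF4.group F) |
      chevF4.IsDiagonalAut φ}).map (QuotientGroup.mk' (Cfsg.Inn ↥(chevF4.group F))))
    (hFbar : Fbar = (Subgroup.closure {φ : MulAut ↥(chevF4.group F) |
      chevF4.IsFieldAut φ}).map (QuotientGroup.mk' (Cfsg.Inn ↥(chevF4.group F)))) :
    Dbar.Normal ∧ IsMulCommutative ↥Dbar ∧ IsCyclic ↥Fbar ∧ (Dbar ⊔ Fbar).Normal ∧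
      ((Dbar ⊔ Fbar).index = 1 ∨ (Dbar ⊔ Fbar).index = 2 ∨
        ((Dbar ⊔ Fbar).index = 6 ∧ ¬ commutator (Cfsg.Out ↥(chevF4.group F)) ≤ Dbar ⊔ Fbar)) := by
  refine out_of_two hF4 p posNegOK_F4 ?_ ?_ (hγd_of_torus hF4 torus_inj_F4) swF4
    (fun γ π hinj hgood => perm_F4 π hinj (fun i j hij hn =>
      StabUV.perm_nonadj hF4 posNegOK_F4 nonAdjOK_F4 π hinj hgood.2.2.1 i j hij hn))
    Dbar Fbar hDbar hFbar
  · intro θ₁ hS
    obtain ⟨π, hinj, hpos, hneg⟩ := hS.exists_perm' hF4 posNegOK_F4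
    have hna := fun i j hij hn =>
      StabUV.perm_nonadj hF4 posNegOK_F4 nonAdjOK_F4 π hinj hpos i j hij hn
    rcases perm_F4 π hinj hna with hπ | hπ
    · obtain ⟨a, b, c, d⟩ := one_good (F := F) chevF4
      exact ⟨π, 1, hinj, hpos, hneg, a, b, fun i => by rw [hπ i]; exact c i,
        fun i => by rw [hπ i]; exact d i⟩
    · by_cases h2 : (2 : F) = 0
      · have hp2 : p = 2 := by
          have h' : ((2 : ℕ) : F) = 0 := by exact_mod_cast h2
          rw [CharP.cast_eq_zero_iff F p] at h'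
          exact (Nat.prime_dvd_prime_iff_eq (Fact.out : p.Prime) Nat.prime_two).mp h'
        subst hp2
        exact ⟨π, gF4, hinj, hpos, hneg, gF4_stabUV, isGraphAut_gF4,
          fun i => by rw [hπ i]; exact gF4_mapsPos i,
          fun i => by rw [hπ i]; exact gF4_mapsNeg i⟩
      · have hq : ∃ u₀ : F, u₀ ≠ 0 ∧ u₀ ≠ 1 := by
          refine ⟨-1, by simp, fun h => h2 ?_⟩
          have e : (2 : F) = 1 - (-1) := by ring
          rw [e, h, sub_self]
        exact (f4_no_swap h2 hq hS (fun i => by have h1 := hpos i; rwa [hπ i] at h1)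
          (fun i => by have h1 := hneg i; rwa [hπ i] at h1)).elim
  · intro θ' hS hpos hneg
    exact dfield_of_conj hF4
      (hS.eq_conj_field'' hF4 dynOK_F4 link_F4 torus_inj_F4 hpos hneg)

/-! ### `B₂` -/

theorem out_B2 [Fintype F] (p : ℕ) [Fact p.Prime] [CharP F p]
    (Dbar Fbar : Subgroup (Cfsg.Out ↥(chevB2.group F)))
    (hDbar : Dbar = (Subgroup.closure {φ : MulAut ↥(chevB2.group F) |
      chevB2.IsDiagonalAut φ}).map (QuotientGroup.mk' (Cfsg.Inn ↥(chevB2.group F))))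
    (hFbar : Fbar = (Subgroup.closure {φ : MulAut ↥(chevB2.group F) |
      chevB2.IsFieldAut φ}).map (QuotientGroup.mk' (Cfsg.Inn ↥(chevB2.group F)))) :
    Dbar.Normal ∧ IsMulCommutative ↥Dbar ∧ IsCyclic ↥Fbar ∧ (Dbar ⊔ Fbar).Normal ∧
      ((Dbar ⊔ Fbar).index = 1 ∨ (Dbar ⊔ Fbar).index = 2 ∨
        ((Dbar ⊔ Fbar).index = 6 ∧ ¬ commutator (Cfsg.Out ↥(chevB2.group F)) ≤ Dbar ⊔ Fbar)) := by
  refine out_of_two hB2 p posNegOK_B2 (b2_graph p) ?_ (hγd_of_char hB2 b2_hchar) swB2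
    (fun γ π hinj _ => perm_B2 π hinj) Dbar Fbar hDbar hFbar
  intro θ' hS hpos hneg
  by_cases h2 : (2 : F) = 0
  · have hp2 : p = 2 := by
      have h' : ((2 : ℕ) : F) = 0 := by exact_mod_cast h2
      rw [CharP.cast_eq_zero_iff F p] at h'
      exact (Nat.prime_dvd_prime_iff_eq (Fact.out : p.Prime) Nat.prime_two).mp h'
    subst hp2
    exact dfield_of_conj hB2 (hS.eq_conj_field'' hB2 dynOK_B2 link_B2 torus_inj_B2 hpos hneg)
  · exact dfield_of_diag hB2 (hS.eq_diag_field_sq hB2 dynOK_B2 link_B2 h2 b2_hchar hpos hneg)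

/-! ### `D₄` -/

/-- the six symmetries of the Dynkin diagram of type `D₄` -/
def d4P (k : Fin 6) (i : Fin chevD4.rank) : Fin chevD4.rank :=
  ⟨(([[0, 1, 2, 3], [2, 1, 3, 0], [3, 1, 0, 2], [2, 1, 0, 3], [0, 1, 3, 2],
    [3, 1, 2, 0]] : List (List ℕ)).getD k.val []).getD i.val 0 % 4, Nat.mod_lt _ (by decide)⟩

theorem d4P_inj : Function.Injective d4P := by
  intro a b
  revert a b
  decide

theorem d4P_inj' : ∀ k : Fin 6, Function.Injective (d4P k) := by
  intro k a b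
  revert k a b
  decide

theorem d4P_zero : ∀ i : Fin chevD4.rank, d4P 0 i = i := by decide

theorem d4P_np : (∀ i : Fin chevD4.rank, (d4P 1 i).val = gaD4a.np.getD i.val 0) ∧
    (∀ i : Fin chevD4.rank, (d4P 2 i).val = gaD4b.np.getD i.val 0) ∧
    (∀ i : Fin chevD4.rank, (d4P 3 i).val = gaD4c.np.getD i.val 0) ∧
    (∀ i : Fin chevD4.rank, (d4P 4 i).val = gaD4d.np.getD i.val 0) ∧
    (∀ i : Fin chevD4.rank, (d4P 5 i).val = gaD4e.np.getD i.val 0) := by decide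

theorem d4P_val : ∀ k : Fin 6, ∀ i : Fin chevD4.rank, (d4P k i).val =
    (([[0, 1, 2, 3], [2, 1, 3, 0], [3, 1, 0, 2], [2, 1, 0, 3], [0, 1, 3, 2],
      [3, 1, 2, 0]] : List (List ℕ)).getD k.val []).getD i.val 0 := by decide

/-- the six symmetries are realised by graph automorphisms -/
theorem d4P_good : ∀ k : Fin 6, Function.Injective (d4P k) ∧
    ∃ γ : MulAut ↥(chevD4.group F), GoodPair chevD4 (d4P k) γ := by
  obtain ⟨sa, sb, sc, sd, se⟩ := gaD4_sgn
  obtain ⟨na, nb, nc, nd, ne⟩ := d4P_np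
  have g0 : ∃ γ : MulAut ↥(chevD4.group F), GoodPair chevD4 (d4P 0) γ := by
    obtain ⟨a, b, c, d⟩ := one_good (F := F) chevD4
    exact ⟨1, a, b, fun i => by rw [d4P_zero i]; exact c i,
      fun i => by rw [d4P_zero i]; exact d i⟩
  have g1 : ∃ γ : MulAut ↥(chevD4.group F), GoodPair chevD4 (d4P 1) γ :=
    ⟨_, ga_good (F := F) gaD4a chevD4 hD4 gaD4a_check sa
      (d4_bonds gaD4a (Or.inl rfl)) d4_notLong _ (d4P_inj' _) na⟩
  have g2 : ∃ γ : MulAut ↥(chevD4.group F), GoodPair chevD4 (d4P 2) γ :=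
    ⟨_, ga_good (F := F) gaD4b chevD4 hD4 gaD4b_check sb
      (d4_bonds gaD4b (Or.inr (Or.inl rfl))) d4_notLong _ (d4P_inj' _) nb⟩
  have g3 : ∃ γ : MulAut ↥(chevD4.group F), GoodPair chevD4 (d4P 3) γ :=
    ⟨_, ga_good (F := F) gaD4c chevD4 hD4 gaD4c_check sc
      (d4_bonds gaD4c (Or.inr (Or.inr (Or.inl rfl)))) d4_notLong _ (d4P_inj' _) nc⟩
  have g4 : ∃ γ : MulAut ↥(chevD4.group F), GoodPair chevD4 (d4P 4) γ :=
    ⟨_, ga_good (F := F) gaD4d chevD4 hD4 gaD4d_check sd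
      (d4_bonds gaD4d (Or.inr (Or.inr (Or.inr (Or.inl rfl))))) d4_notLong _ (d4P_inj' _) nd⟩
  have g5 : ∃ γ : MulAut ↥(chevD4.group F), GoodPair chevD4 (d4P 5) γ :=
    ⟨_, ga_good (F := F) gaD4e chevD4 hD4 gaD4e_check se
      (d4_bonds gaD4e (Or.inr (Or.inr (Or.inr (Or.inr rfl))))) d4_notLong _ (d4P_inj' _) ne⟩
  intro k
  refine ⟨d4P_inj' k, ?_⟩
  obtain ⟨k, hk⟩ := k
  interval_cases k
  · exact g0
  · exact g1
  · exact g2
  · exact g3
  · exact g4
  · exact g5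

theorem posNegChk_D4 : posNegChk chevD4 = true := by decide

/-- every permutation realised by a graph automorphism is one of the six symmetries -/
theorem d4_shape [Fintype F] (γ : MulAut ↥(chevD4.group F))
    (π : Fin chevD4.rank → Fin chevD4.rank) (hinj : Function.Injective π)
    (hgood : GoodPair chevD4 π γ) : ∃ k : Fin 6, d4P k = π := by
  have hO : SimpOK chevD4 F hD4 := simpOK_of_chk chevD4 hD4 simpleChk_D4
  have hP : PosNegOK chevD4 F hD4 := posNegOK_of_chk chevD4 hD4 posNegChk_D4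
  obtain ⟨π', -, hadj, hpos', -⟩ := hgood.1.exists_perm hD4 hO
  have e : π = π' := perm_unique hD4 hP hgood.2.2.1 hpos'
  subst e
  have hne : ∀ i j : Fin chevD4.rank, i ≠ j → π i ≠ π j := fun i j h e => h (hinj e)
  have A : ∀ i j : Fin chevD4.rank, i ≠ j → chevD4.cartan i.val (chevD4.simple j.val) ≠ 0 →
      adjB chevD4 (π i).val (π j).val = true := fun i j h1 h2 => decide_eq_true (hadj i j h1 h2)
  have key := d4_rigid_aux (π ⟨0, by decide⟩) (π ⟨1, by decide⟩) (π ⟨2, by decide⟩)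
    (π ⟨3, by decide⟩)
    (hne _ _ (by decide)) (hne _ _ (by decide)) (hne _ _ (by decide)) (hne _ _ (by decide))
    (hne _ _ (by decide)) (hne _ _ (by decide))
    (A ⟨1, by decide⟩ ⟨0, by decide⟩ (by decide) (by decide))
    (A ⟨1, by decide⟩ ⟨2, by decide⟩ (by decide) (by decide))
    (A ⟨1, by decide⟩ ⟨3, by decide⟩ (by decide) (by decide))
  rcases key with ⟨h0, h1, h2, h3⟩ | ⟨h0, h1, h2, h3⟩ | ⟨h0, h1, h2, h3⟩ | ⟨h0, h1, h2, h3⟩ |
    ⟨h0, h1, h2, h3⟩ | ⟨h0, h1, h2, h3⟩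
  · exact ⟨0, funext (d4_fin (P := fun i => d4P 0 i = π i)
      (Fin.ext ((d4P_val 0 _).trans h0.symm)) (Fin.ext ((d4P_val 0 _).trans h1.symm))
      (Fin.ext ((d4P_val 0 _).trans h2.symm)) (Fin.ext ((d4P_val 0 _).trans h3.symm)))⟩
  · exact ⟨1, funext (d4_fin (P := fun i => d4P 1 i = π i)
      (Fin.ext ((d4P_val 1 _).trans h0.symm)) (Fin.ext ((d4P_val 1 _).trans h1.symm))
      (Fin.ext ((d4P_val 1 _).trans h2.symm)) (Fin.ext ((d4P_val 1 _).trans h3.symm)))⟩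
  · exact ⟨2, funext (d4_fin (P := fun i => d4P 2 i = π i)
      (Fin.ext ((d4P_val 2 _).trans h0.symm)) (Fin.ext ((d4P_val 2 _).trans h1.symm))
      (Fin.ext ((d4P_val 2 _).trans h2.symm)) (Fin.ext ((d4P_val 2 _).trans h3.symm)))⟩
  · exact ⟨3, funext (d4_fin (P := fun i => d4P 3 i = π i)
      (Fin.ext ((d4P_val 3 _).trans h0.symm)) (Fin.ext ((d4P_val 3 _).trans h1.symm))
      (Fin.ext ((d4P_val 3 _).trans h2.symm)) (Fin.ext ((d4P_val 3 _).trans h3.symm)))⟩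
  · exact ⟨4, funext (d4_fin (P := fun i => d4P 4 i = π i)
      (Fin.ext ((d4P_val 4 _).trans h0.symm)) (Fin.ext ((d4P_val 4 _).trans h1.symm))
      (Fin.ext ((d4P_val 4 _).trans h2.symm)) (Fin.ext ((d4P_val 4 _).trans h3.symm)))⟩
  · exact ⟨5, funext (d4_fin (P := fun i => d4P 5 i = π i)
      (Fin.ext ((d4P_val 5 _).trans h0.symm)) (Fin.ext ((d4P_val 5 _).trans h1.symm))
      (Fin.ext ((d4P_val 5 _).trans h2.symm)) (Fin.ext ((d4P_val 5 _).trans h3.symm)))⟩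

theorem d4P_noncomm : d4P 3 ∘ d4P 1 ≠ d4P 1 ∘ d4P 3 := by
  intro h
  exact absurd (congrFun h ⟨0, by decide⟩) (by decide)

theorem out_D4 [Fintype F] (p : ℕ) [Fact p.Prime] [CharP F p]
    (Dbar Fbar : Subgroup (Cfsg.Out ↥(chevD4.group F)))
    (hDbar : Dbar = (Subgroup.closure {φ : MulAut ↥(chevD4.group F) |
      chevD4.IsDiagonalAut φ}).map (QuotientGroup.mk' (Cfsg.Inn ↥(chevD4.group F))))
    (hFbar : Fbar = (Subgroup.closure {φ : MulAut ↥(chevD4.group F) |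
      chevD4.IsFieldAut φ}).map (QuotientGroup.mk' (Cfsg.Inn ↥(chevD4.group F)))) :
    Dbar.Normal ∧ IsMulCommutative ↥Dbar ∧ IsCyclic ↥Fbar ∧ (Dbar ⊔ Fbar).Normal ∧
      ((Dbar ⊔ Fbar).index = 1 ∨ (Dbar ⊔ Fbar).index = 2 ∨
        ((Dbar ⊔ Fbar).index = 6 ∧ ¬ commutator (Cfsg.Out ↥(chevD4.group F)) ≤ Dbar ⊔ Fbar)) := by
  have hO : SimpOK chevD4 F hD4 := simpOK_of_chk chevD4 hD4 simpleChk_D4
  have hP : PosNegOK chevD4 F hD4 := posNegOK_of_chk chevD4 hD4 posNegChk_D4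
  obtain ⟨h1, h2, h3, h4, h5, h6⟩ := out_main hD4 p hP d4_graph
    (fun _ hS hpos hneg =>
      dfield_of_dAut hD4 rcOK_D4 (hS.eq_diag_field hD4 hO dynOK_D4 rcOK_D4 hpos hneg))
    (hγd_of_char hD4 (hchar_of_rc chevD4 rcOK_D4)) Dbar Fbar hDbar hFbar
  refine ⟨h1, h2, h3, h4, Or.inr (Or.inr ⟨?_, ?_⟩)⟩
  · rw [h5]
    have hiff : ∀ π : Fin chevD4.rank → Fin chevD4.rank,
        (Function.Injective π ∧ ∃ γ : MulAut ↥(chevD4.group F), GoodPair chevD4 π γ) ↔
          π ∈ Set.range d4P := by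
      intro π
      constructor
      · rintro ⟨hinj, γ, hγ⟩
        exact d4_shape γ π hinj hγ
      · rintro ⟨k, rfl⟩
        exact d4P_good k
    exact (Nat.card_congr (Equiv.subtypeEquivRight hiff)).trans
      ((Nat.card_congr (Equiv.ofInjective d4P d4P_inj)).symm.trans (by simp))
  · obtain ⟨hia, γa, hga⟩ := d4P_good (F := F) 3
    obtain ⟨hib, γb, hgb⟩ := d4P_good (F := F) 1
    exact h6 γa γb (d4P 3) (d4P 1) hia hib hga.1 hgb.1 hga.2.2.1 hgb.2.2.1 d4P_noncomm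

end Cfsg.Agent.Lib.Helper36
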