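import Cfsg.Agent.Lib.Helper36.ChevGen

set_option autoImplicit false

namespace Cfsg.Agent.Lib.Helper36

open Cfsg Cfsg.Lie

variable {F : Type*} [Field F]

/-- the root `r` is obtained from a fundamental root, or from the negative of a fundamental root in
`J`, by reflections in fundamental roots in `J` -/
inductive ReachJ (D : ChevalleyDatum) (J : Set ℕ) : ℕ → Prop
  | simple (j : ℕ) (hj : j < D.rank) : ReachJ D J (D.simple j)
  | negSimple (j : ℕ) (hj : j < D.rank) (hJ : j ∈ J) : ReachJ D J (D.neg (D.simple j))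
  | refl (i : ℕ) (hi : i < D.rank) (hJ : i ∈ J) (s : ℕ) (hs : s < D.nroots) (h : ReachJ D J s) :
      ReachJ D J (D.reflectRoot i s)

/-- check that every root is reached inside its support -/
def reachJChk (D : ChevalleyDatum) (rt : ℕ) (wts : List ℕ) (lv : ℕ → ℕ) : Bool :=
  (List.range D.nroots).all (fun r =>
    (List.range D.rank).any (fun j => Nat.beq r (D.simple j) ||
      (Nat.beq r (D.neg (D.simple j)) && !Nat.beq (dg 16 rt (r * D.rank + j)) 8)) ||
    (List.range D.rank).any (fun i =>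
      !Nat.beq (dg 16 rt (r * D.rank + i)) 8 &&
      Nat.blt (dg 256 (wts.getD i 0) r) D.nroots && Nat.blt (lv (dg 256 (wts.getD i 0) r)) (lv r) &&
        Nat.beq (dg 256 (wts.getD i 0) (dg 256 (wts.getD i 0) r)) r))

theorem coroot_ne_of_dg {D : ChevalleyDatum} {nt ct rt : ℕ} (hp : PackOK D nt ct rt) (r i : ℕ)
    (hr : r < D.nroots) (hi : i < D.rank) (h : dg 16 rt (r * D.rank + i) ≠ 8) :
    (D.coroot.getD r #[]).getD i 0 ≠ 0 := by
  rw [← hp.cor r hr i hi]
  unfold rget
  simp only [Int.ofNat_eq_natCast]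
  omega

theorem mem_of_inRootSub {D : ChevalleyDatum} {nt ct rt : ℕ} (hp : PackOK D nt ct rt) (J : Set ℕ)
    (r i : ℕ) (hi : i < D.rank) (h : dg 16 rt (r * D.rank + i) ≠ 8) (hJ : D.InRootSub J r) :
    i ∈ J := by
  by_contra hiJ
  exact coroot_ne_of_dg hp r i hJ.1 hi h (hJ.2 i hi hiJ)

theorem reachJ_of_chk (D : ChevalleyDatum) (nt ct rt : ℕ) (hp : PackOK D nt ct rt) (wts : List ℕ)
    (lv : ℕ → ℕ) (hw : ∀ i < D.rank, ∃ et, NData D i (wts.getD i 0) et)
    (h : reachJChk D rt wts lv = true) (J : Set ℕ) :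
    ∀ r < D.nroots, D.InRootSub J r → ReachJ D J r := by
  intro r hr
  induction hn : lv r using Nat.strong_induction_on generalizing r with
  | _ n ih =>
    intro hJ
    have h1 := List.all_eq_true.mp h r (List.mem_range.mpr hr)
    rw [Bool.or_eq_true, List.any_eq_true, List.any_eq_true] at h1
    rcases h1 with ⟨j, hj, h2⟩ | ⟨i, hi, h2⟩
    · rw [List.mem_range] at hj
      simp only [Bool.or_eq_true, Bool.and_eq_true, Nat.beq_eq, Bool.not_eq_true'] at h2
      rcases h2 with rfl | ⟨rfl, h3⟩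
      · exact ReachJ.simple j hj
      · exact ReachJ.negSimple j hj
          (mem_of_inRootSub hp J _ j hj (Nat.ne_of_beq_eq_false h3) hJ)
    · rw [List.mem_range] at hi
      simp only [Bool.and_eq_true, Nat.blt_eq, Nat.beq_eq, Bool.not_eq_true'] at h2
      obtain ⟨⟨⟨h2, h3⟩, h4⟩, h5⟩ := h2
      have hiJ : i ∈ J := mem_of_inRootSub hp J r i hi (Nat.ne_of_beq_eq_false h2) hJ
      obtain ⟨et, hnd⟩ := hw i hi
      have hJ' : D.InRootSub J (dg 256 (wts.getD i 0) r) := by
        refine ⟨h3, fun j hj hjJ => ?_⟩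
        have h6 := (hnd.root r hr).coroot j hj
        have hne : j ≠ i := fun e => hjJ (e ▸ hiJ)
        rw [if_neg hne, add_zero] at h6
        rw [h6]
        exact hJ.2 j hj hjJ
      have := ih _ (hn ▸ h4) _ h3 rfl hJ'
      have h6 := ReachJ.refl i hi hiJ _ h3 this
      rw [← hnd.w_eq _ h3, h5] at h6
      exact h6

/-- a subgroup containing the fundamental root elements and `n_p` for `p` in `J` contains every root
element reached inside `J` -/
theorem mem_of_reachJ (D : ChevalleyDatum)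
    (hD : D ∈ [chevG2, chevB2, chevD4, chevF4, chevE6, chevE7, chevE8]) (J : Set ℕ)
    (K : Subgroup (GL D.Idx F))
    (hK : ∀ i, i < D.rank → ∀ (t : F) (g : GL D.Idx F),
      (g : Matrix D.Idx D.Idx F) = D.x F (D.simple i) t → g ∈ K)
    (hn : ∀ i, i < D.rank → i ∈ J → ∀ n : GL D.Idx F,
      (n : Matrix D.Idx D.Idx F) = D.nMat F (D.simple i) 1 → n ∈ K)
    (r : ℕ) (hr : ReachJ D J r) :
    ∀ (t : F) (g : GL D.Idx F), (g : Matrix D.Idx D.Idx F) = D.x F r t → g ∈ K := by
  have step : ∀ (i : ℕ) (hi : i < D.rank) (hiJ : i ∈ J) (s : ℕ) (hs : s < D.nroots),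
      (∀ (t : F) (g : GL D.Idx F), (g : Matrix D.Idx D.Idx F) = D.x F s t → g ∈ K) →
      ∀ (t : F) (g : GL D.Idx F), (g : Matrix D.Idx D.Idx F) = D.x F (D.reflectRoot i s) t →
        g ∈ K := by
    intro i hi hiJ s hs ih t g hg
    obtain ⟨wt, et, h⟩ := exists_ndata D hD i hi
    obtain ⟨n, hnn⟩ := isUnit_nMat_simple D hD i hi (1 : F) one_ne_zero
    have hnK : n ∈ K := hn i hi hiJ n hnn
    have hconj := h.conj (F := F) s hs ((eta et s : F) * t)
    have hsq : ((eta et s : ℤ) : F) * ((eta et s : F) * t) = t := by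
      rcases eta_cases et s with h1 | h1 <;> rw [h1] <;> simp
    rw [hsq, ← hg, ← hnn] at hconj
    have hmat : ((n⁻¹ * g * n : GL D.Idx F) : Matrix D.Idx D.Idx F) =
        D.x F s ((eta et s : F) * t) := by
      rw [Units.val_mul, Units.val_mul, mul_assoc, ← hconj, ← mul_assoc, ← Units.val_mul,
        inv_mul_cancel, Units.val_one, one_mul]
    have h1 := ih _ _ hmat
    have h2 : g = n * (n⁻¹ * g * n) * n⁻¹ := by group
    rw [h2]
    exact K.mul_mem (K.mul_mem hnK h1) (K.inv_mem hnK)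
  induction hr with
  | simple j hj => intro t g hg; exact hK j hj t g hg
  | negSimple j hj hJ =>
    have h0 : D.reflectRoot j (D.simple j) = D.neg (D.simple j) := by
      simp [ChevalleyDatum.reflectRoot]
    rw [← h0]
    exact step j hj hJ _ (simple_lt D hD j hj) (hK j hj)
  | refl i hi hJ s hs _ ih => exact step i hi hJ s hs ih

/-- table facts on the fundamental roots -/
def simpChk (D : ChevalleyDatum) : Bool :=
  (List.range D.rank).all (fun j => decide (D.IsPosRoot (D.simple j)) &&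
    (List.range D.rank).all (fun i => Nat.beq i j ||
      decide ((D.coroot.getD (D.neg (D.simple j)) #[]).getD i 0 = 0)))

theorem simpChk_sound (D : ChevalleyDatum) (h : simpChk D = true) (j : ℕ) (hj : j < D.rank) :
    D.IsPosRoot (D.simple j) ∧
      ∀ i < D.rank, i ≠ j → (D.coroot.getD (D.neg (D.simple j)) #[]).getD i 0 = 0 := by
  simp only [simpChk, List.all_eq_true, List.mem_range, Bool.and_eq_true, decide_eq_true_eq,
    Bool.or_eq_true, Nat.beq_eq] at h
  exact ⟨(h j hj).1, fun i hi hne => ((h j hj).2 i hi).resolve_left hne⟩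

/-- the parabolic subgroup `P_J` is generated by `H` and the root subgroups of the roots that are
positive or in `Φ_J` -/
theorem parabolic_eq (D : ChevalleyDatum)
    (hD : D ∈ [chevG2, chevB2, chevD4, chevF4, chevE6, chevE7, chevE8])
    (hs : simpChk D = true)
    (hreach : ∀ J : Set ℕ, ∀ r < D.nroots, D.InRootSub J r → ReachJ D J r) (J : Set ℕ) :
    D.parabolicSubgroup F J = D.diagonalSubgroup F ⊔
      Subgroup.closure {g : GL D.Idx F | ∃ (r : ℕ) (t : F), (D.IsPosRoot r ∨ D.InRootSub J r) ∧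
        (g : Matrix D.Idx D.Idx F) = D.x F r t} := by
  apply le_antisymm
  · unfold ChevalleyDatum.parabolicSubgroup ChevalleyDatum.borelSubgroup
    refine sup_le (sup_le ?_ le_sup_left) ?_
    · refine le_trans ?_ le_sup_right
      unfold ChevalleyDatum.posUnipotent
      apply Subgroup.closure_mono
      rintro g ⟨r, t, hr, hg⟩
      exact ⟨r, t, Or.inl hr, hg⟩
    · refine le_trans ?_ le_sup_right
      rw [Subgroup.closure_le]
      rintro g ⟨j, hjJ, hj, hg⟩
      obtain ⟨a, ha⟩ := isUnit_x_simple D hD j hj (1 : F)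
      obtain ⟨b, hb⟩ := isUnit_x_neg_simple D hD j hj (-(1 : F)⁻¹)
      have hgab : g = a * b * a := by
        apply Units.ext
        rw [hg, nMat_eq_mul, Units.val_mul, Units.val_mul, ha, hb]
      rw [hgab]
      have hsj := simpChk_sound D hs j hj
      have ha' : a ∈ Subgroup.closure {g : GL D.Idx F | ∃ (r : ℕ) (t : F),
          (D.IsPosRoot r ∨ D.InRootSub J r) ∧ (g : Matrix D.Idx D.Idx F) = D.x F r t} :=
        Subgroup.subset_closure ⟨_, _, Or.inl hsj.1, ha⟩
      have hb' : b ∈ Subgroup.closure {g : GL D.Idx F | ∃ (r : ℕ) (t : F),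
          (D.IsPosRoot r ∨ D.InRootSub J r) ∧ (g : Matrix D.Idx D.Idx F) = D.x F r t} := by
        refine Subgroup.subset_closure ⟨_, _, Or.inr ⟨(neg_lt D hD _ (simple_lt D hD j hj)).1, ?_⟩, hb⟩
        intro i hi hiJ
        exact hsj.2 i hi (fun e => hiJ (e ▸ hjJ))
      exact Subgroup.mul_mem _ (Subgroup.mul_mem _ ha' hb') ha'
  · have hB : D.borelSubgroup F ≤ D.parabolicSubgroup F J := le_sup_left
    have hU : D.posUnipotent F ≤ D.parabolicSubgroup F J := le_trans le_sup_left hB
    have hpos : ∀ (r : ℕ) (t : F) (g : GL D.Idx F), D.IsPosRoot r →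
        (g : Matrix D.Idx D.Idx F) = D.x F r t → g ∈ D.parabolicSubgroup F J :=
      fun r t g hr hg => hU (Subgroup.subset_closure ⟨r, t, hr, hg⟩)
    refine sup_le (le_trans le_sup_right hB) ?_
    rw [Subgroup.closure_le]
    rintro g ⟨r, t, hr | hr, hg⟩
    · exact hpos r t g hr hg
    · refine mem_of_reachJ D hD J _ ?_ ?_ r (hreach J r hr.1 hr) t g hg
      · intro i hi t g hg
        exact hpos _ t g (simpChk_sound D hs i hi).1 hg
      · intro i hi hiJ n hn
        exact (le_sup_right : _ ≤ D.parabolicSubgroup F J)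
          (Subgroup.subset_closure ⟨i, hiJ, hi, hn⟩)

end Cfsg.Agent.Lib.Helper36
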