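import Cfsg.Agent.Lib.Helper36.ChevPar

set_option autoImplicit false
set_option maxRecDepth 100000

namespace Cfsg.Agent.Lib.Helper36

open Cfsg Cfsg.Lie

theorem g2_reachJChk : reachJChk chevG2 g2rt g2wts (lvOf g2rt 2) = true := by
  decide +kernel

theorem g2_simpChk : simpChk chevG2 = true := by decide +kernel

theorem b2_reachJChk : reachJChk chevB2 b2rt b2wts (lvOf b2rt 2) = true := by
  decide +kernel

theorem b2_simpChk : simpChk chevB2 = true := by decide +kernel

theorem d4_reachJChk : reachJChk chevD4 d4rt d4wts (lvOf d4rt 4) = true := by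
  decide +kernel

theorem d4_simpChk : simpChk chevD4 = true := by decide +kernel

theorem f4_reachJChk : reachJChk chevF4 f4rt f4wts (lvOf f4rt 4) = true := by
  decide +kernel

theorem f4_simpChk : simpChk chevF4 = true := by decide +kernel

theorem e6_reachJChk : reachJChk chevE6 e6rt e6wts (lvOf e6rt 6) = true := by
  decide +kernel

theorem e6_simpChk : simpChk chevE6 = true := by decide +kernel

theorem e7_reachJChk : reachJChk chevE7 e7rt e7wts (lvOf e7rt 7) = true := by
  decide +kernel

theorem e7_simpChk : simpChk chevE7 = true := by decide +kernel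

theorem e8_reachJChk : reachJChk chevE8 e8rt e8wts (lvOf e8rt 8) = true := by
  decide +kernel

theorem e8_simpChk : simpChk chevE8 = true := by decide +kernel

/-- table facts on the fundamental roots, all seven types -/
theorem simpChk_all (D : ChevalleyDatum)
    (hD : D ∈ [chevG2, chevB2, chevD4, chevF4, chevE6, chevE7, chevE8]) : simpChk D = true := by
  simp only [List.mem_cons, List.mem_nil_iff, or_false] at hD
  rcases hD with rfl | rfl | rfl | rfl | rfl | rfl | rfl
  · exact g2_simpChk
  · exact b2_simpChk
  · exact d4_simpChk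
  · exact f4_simpChk
  · exact e6_simpChk
  · exact e7_simpChk
  · exact e8_simpChk

/-- every root of `Φ_J` is reached inside `J`, all seven types -/
theorem reachJ_all (D : ChevalleyDatum)
    (hD : D ∈ [chevG2, chevB2, chevD4, chevF4, chevE6, chevE7, chevE8]) (J : Set ℕ) :
    ∀ r < D.nroots, D.InRootSub J r → ReachJ D J r := by
  simp only [List.mem_cons, List.mem_nil_iff, or_false] at hD
  rcases hD with rfl | rfl | rfl | rfl | rfl | rfl | rfl
  · exact reachJ_of_chk _ _ _ _ g2_pack _ _ g2_ndata g2_reachJChk J
  · exact reachJ_of_chk _ _ _ _ b2_pack _ _ b2_ndata b2_reachJChk J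
  · exact reachJ_of_chk _ _ _ _ d4_pack _ _ d4_ndata d4_reachJChk J
  · exact reachJ_of_chk _ _ _ _ f4_pack _ _ f4_ndata f4_reachJChk J
  · exact reachJ_of_chk _ _ _ _ e6_pack _ _ e6_ndata e6_reachJChk J
  · exact reachJ_of_chk _ _ _ _ e7_pack _ _ e7_ndata e7_reachJChk J
  · exact reachJ_of_chk _ _ _ _ e8_pack _ _ e8_ndata e8_reachJChk J

end Cfsg.Agent.Lib.Helper36
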