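import Cfsg.Agent.Lib.Helper36.F4InvF
import Cfsg.Agent.Lib.Helper36.ChevLang2
import Cfsg.Agent.Lib.Helper36.ChevAutI

set_option autoImplicit false

/-!
# Table facts for the unipotent radicals of the parabolic subgroups

The supports (in the fundamental coroots) of the roots of the commutator formula, the coroots of
the fundamental roots, a pair of positive roots `r`, `r + p_j` with a given fundamental root in
their supports, and the positivity of a root with the Cartan integers of a fundamental root.
-/

namespace Cfsg.Agent.Lib.Helper36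

open Cfsg Cfsg.Lie Cfsg.Agent.Lib.Helper18

/-- coefficient of the coroot of `r` at the `k`-th fundamental coroot -/
def pfCor (D : ChevalleyDatum) (r k : ℕ) : ℤ := (D.coroot.getD r #[]).getD k 0

/-- the commutator terms of `r` and a positive `s` keep the support of `s`: rows `[a, a+n)` -/
def pfRadChk (D : ChevalleyDatum) (a n : ℕ) : Bool :=
  (List.range' a n).all fun r => (List.range D.nroots).all fun s =>
    Nat.blt s (D.nroots / 2) || (D.commTerms r s).all fun c => (List.range D.rank).all fun k =>
      decide (pfCor D s k = 0) || !decide (pfCor D c.1 k = 0)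

theorem pfRadChk_add (D : ChevalleyDatum) (a n m : ℕ) (h1 : pfRadChk D a n = true)
    (h2 : pfRadChk D (a + n) m = true) : pfRadChk D a (n + m) = true := by
  unfold pfRadChk at h1 h2 ⊢
  rw [← List.range'_append_1, List.all_append, h1, h2]
  rfl

/-- the coroot of a fundamental root is the fundamental coroot -/
def pfSimpChk (D : ChevalleyDatum) : Bool :=
  (List.range D.rank).all fun j => (List.range D.rank).all fun i =>
    if i = j then !decide (pfCor D (D.simple j) i = 0) else decide (pfCor D (D.simple j) i = 0)

/-- for `i ≠ j` there are positive roots `r`, `r + p_j` with `p_i` in their supports -/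
def pfSumChk (D : ChevalleyDatum) : Bool :=
  (List.range D.rank).all fun i => (List.range D.rank).all fun j => Nat.beq i j ||
    (List.range D.nroots).any fun r =>
      decide (D.IsPosRoot r) && !decide (pfCor D r i = 0) &&
      (decide (D.IsPosRoot ((D.chainRoot (D.simple j) r 1).getD D.nroots)) &&
        !decide (pfCor D ((D.chainRoot (D.simple j) r 1).getD D.nroots) i = 0) &&
        (List.range D.rank).all fun k =>
          decide (D.cartan k ((D.chainRoot (D.simple j) r 1).getD D.nroots) =
            D.cartan k r + D.cartan k (D.simple j)))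

/-- a root with the Cartan integers of a fundamental root is positive -/
def pfPosChk (D : ChevalleyDatum) : Bool :=
  (List.range D.rank).all fun j => (List.range D.nroots).all fun s =>
    (List.range D.rank).any (fun k => !decide (D.cartan k s = D.cartan k (D.simple j))) ||
      decide (D.IsPosRoot s)

/-- the table facts -/
structure PfOK (D : ChevalleyDatum) : Prop where
  rad : ∀ r s, D.nroots / 2 ≤ r → r < D.nroots → D.nroots / 2 ≤ s → s < D.nroots →
    ∀ c ∈ D.commTerms r s, ∀ k < D.rank, pfCor D s k ≠ 0 → pfCor D c.1 k ≠ 0
  simp_self : ∀ k < D.rank, pfCor D (D.simple k) k ≠ 0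
  simp_other : ∀ j < D.rank, ∀ i < D.rank, i ≠ j → pfCor D (D.simple j) i = 0
  sum : ∀ i < D.rank, ∀ j < D.rank, i ≠ j → ∃ r t, D.IsPosRoot r ∧ pfCor D r i ≠ 0 ∧
    D.IsPosRoot t ∧ pfCor D t i ≠ 0 ∧
    ∀ k < D.rank, D.cartan k t = D.cartan k r + D.cartan k (D.simple j)
  pos : ∀ j < D.rank, ∀ s < D.nroots,
    (∀ k < D.rank, D.cartan k s = D.cartan k (D.simple j)) → D.IsPosRoot s

theorem pfOK_of_chk (D : ChevalleyDatum)
    (h1 : pfRadChk D (D.nroots / 2) (D.nroots / 2) = true) (hn : D.nroots / 2 + D.nroots / 2 = D.nroots)
    (h2 : pfSimpChk D = true) (h3 : pfSumChk D = true) (h4 : pfPosChk D = true) : PfOK D := by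
  refine ⟨?_, ?_, ?_, ?_, ?_⟩
  · intro r s hr1 hr2 hs1 hs2 c hc k hk hsk
    simp only [pfRadChk, List.all_eq_true, List.mem_range'_1, List.mem_range, Bool.or_eq_true,
      Nat.blt_eq, decide_eq_true_eq, Bool.not_eq_true', decide_eq_false_iff_not] at h1
    rcases h1 r ⟨hr1, by omega⟩ s hs2 with h | h
    · omega
    · rcases h c hc k hk with h' | h'
      · exact absurd h' hsk
      · exact h'
  · intro k hk
    simp only [pfSimpChk, List.all_eq_true, List.mem_range] at h2
    have := h2 k hk k hk
    rw [if_pos rfl] at this
    simpa using this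
  · intro j hj i hi hij
    simp only [pfSimpChk, List.all_eq_true, List.mem_range] at h2
    have := h2 j hj i hi
    rw [if_neg hij] at this
    simpa using this
  · intro i hi j hj hij
    simp only [pfSumChk, List.all_eq_true, List.mem_range, Bool.or_eq_true, Nat.beq_eq,
      List.any_eq_true, Bool.and_eq_true, decide_eq_true_eq, Bool.not_eq_true',
      decide_eq_false_iff_not] at h3
    rcases h3 i hi j hj with h | ⟨r, -, ⟨hr1, hr2⟩, ⟨ht1, ht2⟩, ht3⟩
    · exact absurd h hij
    · exact ⟨r, _, hr1, hr2, ht1, ht2, ht3⟩
  · intro j hj s hs hc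
    simp only [pfPosChk, List.all_eq_true, List.mem_range, Bool.or_eq_true, List.any_eq_true,
      Bool.not_eq_true', decide_eq_false_iff_not, decide_eq_true_eq] at h4
    rcases h4 j hj s hs with ⟨k, hk, hne⟩ | h
    · exact absurd (hc k hk) hne
    · exact h

set_option maxRecDepth 100000 in
theorem g2_pfOK : PfOK chevG2 :=
  pfOK_of_chk _ (by decide +kernel) (by decide) (by decide +kernel) (by decide +kernel)
    (by decide +kernel)

set_option maxRecDepth 100000 in
theorem b2_pfOK : PfOK chevB2 :=
  pfOK_of_chk _ (by decide +kernel) (by decide) (by decide +kernel) (by decide +kernel)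
    (by decide +kernel)

set_option maxRecDepth 100000 in
theorem d4_pfOK : PfOK chevD4 :=
  pfOK_of_chk _ (by decide +kernel) (by decide) (by decide +kernel) (by decide +kernel)
    (by decide +kernel)

set_option maxRecDepth 100000 in
theorem f4_pfOK : PfOK chevF4 :=
  pfOK_of_chk _ (by decide +kernel) (by decide) (by decide +kernel) (by decide +kernel)
    (by decide +kernel)

set_option maxRecDepth 100000 in
theorem e6_pfOK : PfOK chevE6 :=
  pfOK_of_chk _ (by decide +kernel) (by decide) (by decide +kernel) (by decide +kernel)
    (by decide +kernel)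

end Cfsg.Agent.Lib.Helper36
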