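import Cfsg.Agent.Lib.Helper36.ParFitA

set_option autoImplicit false

/-!
# Table facts for the unipotent radicals of the parabolic subgroups: rows of `E₈`
-/

namespace Cfsg.Agent.Lib.Helper36

open Cfsg Cfsg.Lie Cfsg.Agent.Lib.Helper18

set_option maxRecDepth 100000 in
theorem e8_pfRad4 : pfRadChk chevE8 160 10 = true := by decide +kernel

set_option maxRecDepth 100000 in
theorem e8_pfRad5 : pfRadChk chevE8 170 10 = true := by decide +kernel

set_option maxRecDepth 100000 in
theorem e8_pfRad6 : pfRadChk chevE8 180 10 = true := by decide +kernel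

set_option maxRecDepth 100000 in
theorem e8_pfRad7 : pfRadChk chevE8 190 10 = true := by decide +kernel

end Cfsg.Agent.Lib.Helper36
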