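import Cfsg.Agent.Lib.Helper36.ParFitB
import Cfsg.Agent.Lib.Helper36.ParFitC

set_option autoImplicit false

/-!
# Table facts for the unipotent radicals of the parabolic subgroups: all types
-/

namespace Cfsg.Agent.Lib.Helper36

open Cfsg Cfsg.Lie Cfsg.Agent.Lib.Helper18

set_option maxRecDepth 100000 in
theorem e8_pfRad8 : pfRadChk chevE8 200 10 = true := by decide +kernel

set_option maxRecDepth 100000 in
theorem e8_pfRad9 : pfRadChk chevE8 210 10 = true := by decide +kernel

set_option maxRecDepth 100000 in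
theorem e8_pfRad10 : pfRadChk chevE8 220 10 = true := by decide +kernel

set_option maxRecDepth 100000 in
theorem e8_pfRad11 : pfRadChk chevE8 230 10 = true := by decide +kernel

theorem e7_pfRad : pfRadChk chevE7 63 63 = true :=
  pfRadChk_add _ 63 42 21 (pfRadChk_add _ 63 21 21 e7_pfRad0 e7_pfRad1) e7_pfRad2

theorem e8_pfRad : pfRadChk chevE8 120 120 = true :=
  pfRadChk_add _ 120 110 10 (pfRadChk_add _ 120 100 10 (pfRadChk_add _ 120 90 10
    (pfRadChk_add _ 120 80 10 (pfRadChk_add _ 120 70 10 (pfRadChk_add _ 120 60 10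
    (pfRadChk_add _ 120 50 10 (pfRadChk_add _ 120 40 10 (pfRadChk_add _ 120 30 10
    (pfRadChk_add _ 120 20 10 (pfRadChk_add _ 120 10 10 e8_pfRad0 e8_pfRad1) e8_pfRad2)
    e8_pfRad3) e8_pfRad4) e8_pfRad5) e8_pfRad6) e8_pfRad7) e8_pfRad8) e8_pfRad9) e8_pfRad10)
    e8_pfRad11

set_option maxRecDepth 100000 in
theorem e7_pfOK : PfOK chevE7 :=
  pfOK_of_chk _ e7_pfRad (by decide) (by decide +kernel) (by decide +kernel)
    (by decide +kernel)

set_option maxRecDepth 100000 in
theorem e8_pfOK : PfOK chevE8 :=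
  pfOK_of_chk _ e8_pfRad (by decide) (by decide +kernel) (by decide +kernel)
    (by decide +kernel)

theorem pfOK_all (D : ChevalleyDatum)
    (hD : D ∈ [chevG2, chevB2, chevD4, chevF4, chevE6, chevE7, chevE8]) : PfOK D := by
  simp only [List.mem_cons, List.mem_nil_iff, or_false] at hD
  rcases hD with rfl | rfl | rfl | rfl | rfl | rfl | rfl
  · exact g2_pfOK
  · exact b2_pfOK
  · exact d4_pfOK
  · exact f4_pfOK
  · exact e6_pfOK
  · exact e7_pfOK
  · exact e8_pfOK

end Cfsg.Agent.Lib.Helper36
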