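import Cfsg.Agent.Lib.Helper36.ParFitD
import Cfsg.Agent.Lib.Helper36.ChevBruhat2
import Cfsg.Agent.Lib.Helper36.ChevCent

set_option autoImplicit false

/-!
# The unipotent radical of a parabolic subgroup is normal, and root-filtration lemmas

`U_J` is generated by the root subgroups of the positive roots outside `Φ_J`; it is normalised by
`B` and by the `n_p`, `p ∈ J`.  The subgroups `U_{≥ k}` are normal in `U`, and conjugation by `U`
fixes `x_r(t)` modulo `U_{> r}`.
-/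

namespace Cfsg.Agent.Lib.Helper36

open Cfsg Cfsg.Lie Cfsg.Agent.Lib.Helper18
open Cfsg.Agent.Lib.Helper17 (Ufrom xU_mem_Ufrom LamH exists_lamH commTerms_pos tabOK_of_mem
  posOK_of_mem posOK_props)

universe u

variable {F : Type u} [Field F]

/-- the roots of the unipotent radical `U_J` -/
def RadRoot (D : ChevalleyDatum) (J : Set ℕ) (r : ℕ) : Prop := D.IsPosRoot r ∧ ¬ D.InRootSub J r

theorem unipotentRadical_eq_rootCl (D : ChevalleyDatum) (J : Set ℕ) :
    D.unipotentRadical F J = rootCl D F (RadRoot D J) := by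
  unfold ChevalleyDatum.unipotentRadical rootCl
  congr 1
  ext g
  constructor
  · rintro ⟨r, t, h1, h2, h3⟩
    exact ⟨r, t, ⟨h1, h2⟩, h3⟩
  · rintro ⟨r, t, ⟨h1, h2⟩, h3⟩
    exact ⟨r, t, h1, h2, h3⟩

theorem radRoot_of_cor (D : ChevalleyDatum) (J : Set ℕ) (r i : ℕ) (hr : D.IsPosRoot r)
    (hi : i < D.rank) (hiJ : i ∉ J) (h : pfCor D r i ≠ 0) : RadRoot D J r :=
  ⟨hr, fun hJ => h (hJ.2 i hi hiJ)⟩

theorem exists_cor_of_radRoot (D : ChevalleyDatum) (J : Set ℕ) (r : ℕ) (h : RadRoot D J r) :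
    ∃ i, i < D.rank ∧ i ∉ J ∧ pfCor D r i ≠ 0 := by
  by_contra hc
  push_neg at hc
  exact h.2 ⟨h.1.1, fun i hi hiJ => hc i hi hiJ⟩

theorem pos_ne_neg (D : ChevalleyDatum)
    (hD : D ∈ [chevG2, chevB2, chevD4, chevF4, chevE6, chevE7, chevE8]) (r s : ℕ)
    (hr : D.IsPosRoot r) (hs : D.IsPosRoot s) : s ≠ D.neg r := by
  have hpos := posOK_of_mem D hD
  have h1 := (posOK_props D hpos r hr).2.1
  have h2 := (posOK_props D hpos s hs).1
  intro e
  have : D.neg r = D.negIdx.getD r 0 := rfl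
  omega

/-! ### Normality of `U_J` -/

theorem unip_le_normalizer_rad (D : ChevalleyDatum)
    (hD : D ∈ [chevG2, chevB2, chevD4, chevF4, chevE6, chevE7, chevE8]) (J : Set ℕ) :
    D.posUnipotent F ≤ Subgroup.normalizer (rootCl D F (RadRoot D J) : Set (GL D.Idx F)) := by
  have hO := pfOK_all D hD
  have hpos := posOK_of_mem D hD
  obtain ⟨lam, H⟩ := exists_lamH D hD
  have htab := tabOK_of_mem D hD
  unfold ChevalleyDatum.posUnipotent
  rw [Subgroup.closure_le]
  rintro x ⟨r, t, hr, hx⟩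
  rw [eq_xU D hD r t x hx]
  have key : ∀ t : F, ∀ g ∈ {g : GL D.Idx F | ∃ (s : ℕ) (u : F), RadRoot D J s ∧
      (g : Matrix D.Idx D.Idx F) = D.x F s u},
      xU D hD r t * g * (xU D hD r t)⁻¹ ∈ rootCl D F (RadRoot D J) := by
    rintro t g ⟨s, u, hs, hg⟩
    rw [eq_xU D hD s u g hg]
    by_cases hsr : s = r
    · subst hsr
      have e : xU D hD s t * xU D hD s u * (xU D hD s t)⁻¹ = xU D hD s u := by
        rw [xU_mul, add_comm, ← xU_mul]
        group
      rw [e]
      exact xU_mem_rootCl D hD _ s hs u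
    · rw [xU_conj_comm D hD r s hr.1 hs.1.1 hsr (pos_ne_neg D hD r s hr hs.1) t u]
      refine mul_mem (xU_mem_rootCl D hD _ s hs u) (commWord_mem D hD _ r s (-t) u ?_)
      intro c hc v
      obtain ⟨i, hi, hiJ, hci⟩ := exists_cor_of_radRoot D J s hs
      have hcpos := (commTerms_pos H htab r s hr hs.1 c hc).1
      exact xU_mem_rootCl D hD _ c.1 (radRoot_of_cor D J c.1 i hcpos hi hiJ
        (hO.rad r s (posOK_props D hpos r hr).1 hr.1 (posOK_props D hpos s hs.1).1 hs.1.1 c hc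
          i hi hci)) v
  show xU D hD r t ∈ Subgroup.normalizer (Subgroup.closure
    {g : GL D.Idx F | ∃ (s : ℕ) (u : F), RadRoot D J s ∧
      (g : Matrix D.Idx D.Idx F) = D.x F s u} : Set (GL D.Idx F))
  apply mem_normalizer_closure
  · exact key t
  · intro g hg
    rw [xU_inv]
    exact key (-t) g hg

theorem borel_le_normalizer_rad (D : ChevalleyDatum)
    (hD : D ∈ [chevG2, chevB2, chevD4, chevF4, chevE6, chevE7, chevE8]) (J : Set ℕ) :
    D.borelSubgroup F ≤ Subgroup.normalizer (rootCl D F (RadRoot D J) : Set (GL D.Idx F)) :=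
  sup_le (unip_le_normalizer_rad D hD J)
    (diag_le_normalizer_rootCl D hD _ (fun s hs => hs.1.1))

theorem nU_mem_normalizer_rad (D : ChevalleyDatum)
    (hD : D ∈ [chevG2, chevB2, chevD4, chevF4, chevE6, chevE7, chevE8]) (J : Set ℕ)
    (j : Fin D.rank) (hj : j.val ∈ J) :
    nU (F := F) D hD j ∈
      Subgroup.normalizer (rootCl D F (RadRoot D J) : Set (GL D.Idx F)) := by
  have hO := pfOK_all D hD
  obtain ⟨η, hη⟩ := nU_smap (F := F) D hD j
  obtain ⟨wt, et, hnd⟩ := exists_ndata D hD j.val j.isLt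
  have hperm : ∀ s, RadRoot D J s → RadRoot D J (D.reflectRoot j.val s) := by
    intro s hs
    obtain ⟨i, hi, hiJ, hci⟩ := exists_cor_of_radRoot D J s hs
    have hij : ¬ i = j.val := fun e => hiJ (e ▸ hj)
    have hne : s ≠ D.simple j.val := by
      rintro rfl
      exact hci (hO.simp_other j.val j.isLt i hi hij)
    have hpos := reflect_pos D hD j s hs.1 hne
    refine radRoot_of_cor D J _ i hpos hi hiJ ?_
    have h6 := (hnd.root s hs.1.1).coroot i hi
    rw [if_neg hij, add_zero, hnd.w_eq s hs.1.1] at h6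
    show (D.coroot.getD (D.reflectRoot j.val s) #[]).getD i 0 ≠ 0
    rw [h6]
    exact hci
  show _ ∈ Subgroup.normalizer (Subgroup.closure
    {g : GL D.Idx F | ∃ (s : ℕ) (u : F), RadRoot D J s ∧
      (g : Matrix D.Idx D.Idx F) = D.x F s u} : Set (GL D.Idx F))
  apply mem_normalizer_closure
  · rintro g ⟨s, u, hs, hg⟩
    rw [eq_xU D hD s u g hg]
    have e1 := hη.conjU hD s hs.1.1 u
    have e2 : nU (F := F) D hD j * xU D hD s u * (nU (F := F) D hD j)⁻¹ =
        xU D hD (D.reflectRoot j.val s) (η s * u) := by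
      rw [e1]
      group
    rw [e2]
    exact xU_mem_rootCl D hD _ _ (hperm s hs) _
  · rintro g ⟨s, u, hs, hg⟩
    rw [eq_xU D hD s u g hg]
    obtain ⟨t', e⟩ := nU_inv_conj D hD j s hs.1.1 u
    rw [e]
    exact xU_mem_rootCl D hD _ _ (hperm s hs) _

theorem parabolic_le_normalizer_rad (D : ChevalleyDatum)
    (hD : D ∈ [chevG2, chevB2, chevD4, chevF4, chevE6, chevE7, chevE8]) (J : Set ℕ) :
    D.parabolicSubgroup F J ≤
      Subgroup.normalizer (D.unipotentRadical F J : Set (GL D.Idx F)) := by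
  rw [unipotentRadical_eq_rootCl]
  unfold ChevalleyDatum.parabolicSubgroup
  refine sup_le (borel_le_normalizer_rad D hD J) ?_
  rw [Subgroup.closure_le]
  rintro g ⟨j, hjJ, hj, hg⟩
  have e : g = nU (F := F) D hD ⟨j, hj⟩ := Units.ext (by rw [hg, coe_nU])
  rw [e]
  exact nU_mem_normalizer_rad D hD J ⟨j, hj⟩ hjJ

theorem parabolic_le_group (D : ChevalleyDatum)
    (hD : D ∈ [chevG2, chevB2, chevD4, chevF4, chevE6, chevE7, chevE8]) (J : Set ℕ) :
    D.parabolicSubgroup F J ≤ D.group F := by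
  unfold ChevalleyDatum.parabolicSubgroup
  refine sup_le (borelSubgroup_le_group D hD) ?_
  rw [Subgroup.closure_le]
  rintro g ⟨j, hjJ, hj, hg⟩
  have e : g = nU (F := F) D hD ⟨j, hj⟩ := Units.ext (by rw [hg, coe_nU])
  rw [e]
  exact nU_mem_group D hD ⟨j, hj⟩

/-! ### The filtration of `U` -/

theorem Ufrom_mono (D : ChevalleyDatum) (k k' : ℕ) (h : k ≤ k') :
    Ufrom D F k' ≤ Ufrom D F k := by
  unfold Ufrom
  apply Subgroup.closure_mono
  rintro g ⟨r, t, hr, hk, hg⟩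
  exact ⟨r, t, hr, by omega, hg⟩

theorem Ufrom_le_unip (D : ChevalleyDatum) (k : ℕ) : Ufrom D F k ≤ D.posUnipotent F := by
  unfold Ufrom ChevalleyDatum.posUnipotent
  apply Subgroup.closure_mono
  rintro g ⟨r, t, hr, hk, hg⟩
  exact ⟨r, t, hr, hg⟩

/-- `U_{≥ k}` is normal in `U` -/
theorem unip_le_normalizer_Ufrom (D : ChevalleyDatum)
    (hD : D ∈ [chevG2, chevB2, chevD4, chevF4, chevE6, chevE7, chevE8]) (k : ℕ) :
    D.posUnipotent F ≤ Subgroup.normalizer (Ufrom D F k : Set (GL D.Idx F)) := by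
  obtain ⟨lam, H⟩ := exists_lamH D hD
  have htab := tabOK_of_mem D hD
  unfold ChevalleyDatum.posUnipotent
  rw [Subgroup.closure_le]
  rintro x ⟨r, t, hr, hx⟩
  rw [eq_xU D hD r t x hx]
  have key : ∀ t : F, ∀ g ∈ {g : GL D.Idx F | ∃ (s : ℕ) (u : F), D.IsPosRoot s ∧ k ≤ s ∧
      (g : Matrix D.Idx D.Idx F) = D.x F s u},
      xU D hD r t * g * (xU D hD r t)⁻¹ ∈ Ufrom D F k := by
    rintro t g ⟨s, u, hs, hks, hg⟩
    rw [eq_xU D hD s u g hg]
    by_cases hsr : s = r
    · subst hsr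
      have e : xU D hD s t * xU D hD s u * (xU D hD s t)⁻¹ = xU D hD s u := by
        rw [xU_mul, add_comm, ← xU_mul]
        group
      rw [e]
      exact xU_mem_Ufrom D hD k s hs hks u
    · rw [xU_conj_comm D hD r s hr.1 hs.1 hsr (pos_ne_neg D hD r s hr hs) t u]
      refine mul_mem (xU_mem_Ufrom D hD k s hs hks u) (commWord_mem D hD _ r s (-t) u ?_)
      intro c hc v
      obtain ⟨h4, -, h5⟩ := commTerms_pos H htab r s hr hs c hc
      exact xU_mem_Ufrom D hD k c.1 h4 (by omega) v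
  show xU D hD r t ∈ Subgroup.normalizer (Subgroup.closure
    {g : GL D.Idx F | ∃ (s : ℕ) (u : F), D.IsPosRoot s ∧ k ≤ s ∧
      (g : Matrix D.Idx D.Idx F) = D.x F s u} : Set (GL D.Idx F))
  apply mem_normalizer_closure
  · exact key t
  · intro g hg
    rw [xU_inv]
    exact key (-t) g hg

/-- conjugation by `U` fixes `x_r(t)` modulo `U_{> r}` -/
theorem conj_xU_leading (D : ChevalleyDatum)
    (hD : D ∈ [chevG2, chevB2, chevD4, chevF4, chevE6, chevE7, chevE8]) (r : ℕ)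
    (hr : D.IsPosRoot r) (u : GL D.Idx F) (hu : u ∈ D.posUnipotent F) :
    ∀ t : F, ∃ g' ∈ Ufrom D F (r + 1), u * xU D hD r t * u⁻¹ = xU D hD r t * g' := by
  obtain ⟨lam, H⟩ := exists_lamH D hD
  have htab := tabOK_of_mem D hD
  have hN := unip_le_normalizer_Ufrom (F := F) D hD (r + 1)
  have hN' : ∀ x ∈ Subgroup.closure {g : GL D.Idx F | ∃ (r : ℕ) (t : F), D.IsPosRoot r ∧
      (g : Matrix D.Idx D.Idx F) = D.x F r t},
      x ∈ Subgroup.normalizer (Ufrom D F (r + 1) : Set (GL D.Idx F)) := fun x hx => hN hx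
  unfold ChevalleyDatum.posUnipotent at hu
  induction hu using Subgroup.closure_induction with
  | mem x hx =>
    obtain ⟨s, a, hs, hxs⟩ := hx
    rw [eq_xU D hD s a x hxs]
    intro t
    by_cases hsr : r = s
    · subst hsr
      refine ⟨1, one_mem _, ?_⟩
      rw [mul_one, xU_mul, add_comm, ← xU_mul]
      group
    · rw [xU_conj_comm D hD s r hs.1 hr.1 hsr (pos_ne_neg D hD s r hs hr) a t]
      refine ⟨_, commWord_mem D hD _ s r (-a) t ?_, rfl⟩
      intro c hc v
      obtain ⟨h4, -, h5⟩ := commTerms_pos H htab s r hs hr c hc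
      exact xU_mem_Ufrom D hD (r + 1) c.1 h4 (by omega) v
  | one =>
    intro t
    exact ⟨1, one_mem _, by group⟩
  | mul x y hx hy ihx ihy =>
    intro t
    obtain ⟨g1, hg1, e1⟩ := ihx t
    obtain ⟨g2, hg2, e2⟩ := ihy t
    refine ⟨g1 * (x * g2 * x⁻¹),
      mul_mem hg1 (conj_mem_of_mem_normalizer _ (hN' x hx) hg2), ?_⟩
    generalize xU D hD r t = X at e1 e2 ⊢
    calc x * y * X * (x * y)⁻¹ = x * (y * X * y⁻¹) * x⁻¹ := by group
      _ = x * (X * g2) * x⁻¹ := by rw [e2]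
      _ = (x * X * x⁻¹) * (x * g2 * x⁻¹) := by group
      _ = X * g1 * (x * g2 * x⁻¹) := by rw [e1]
      _ = X * (g1 * (x * g2 * x⁻¹)) := by group
  | inv x hx ih =>
    intro t
    obtain ⟨g1, hg1, e1⟩ := ih t
    refine ⟨x⁻¹ * g1⁻¹ * x⁻¹⁻¹,
      conj_mem_of_mem_normalizer _ (inv_mem (hN' x hx)) (inv_mem hg1), ?_⟩
    generalize xU D hD r t = X at e1 ⊢
    have e2 : X = x⁻¹ * (X * g1) * x := by
      rw [← e1]
      group
    calc x⁻¹ * X * x⁻¹⁻¹ = (x⁻¹ * (X * g1) * x) * (x⁻¹ * g1⁻¹ * x⁻¹⁻¹) := by group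
      _ = X * (x⁻¹ * g1⁻¹ * x⁻¹⁻¹) := by rw [← e2]

/-- a root element with leading term `x_r(a)`, `a ≠ 0`, is a root element of `r` -/
theorem root_eq_of_leading (D : ChevalleyDatum)
    (hD : D ∈ [chevG2, chevB2, chevD4, chevF4, chevE6, chevE7, chevE8]) (q r : ℕ)
    (hq : q < D.nroots) (hr : D.IsPosRoot r) (e a : F) (he : e ≠ 0) (ha : a ≠ 0)
    (g' : GL D.Idx F) (hg' : g' ∈ Ufrom D F (r + 1))
    (h : xU D hD q e = xU D hD r a * g') : q = r := by
  have hS := sgnOK_all D hD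
  obtain ⟨lam, H⟩ := exists_lamH D hD
  rcases hS.pos_or_neg q hq with hqp | hqn
  · rcases Nat.lt_trichotomy q r with hlt | heq | hgt
    · exfalso
      have h1 : xU D hD r a * g' ∈ Ufrom D F (q + 1) :=
        mul_mem (xU_mem_Ufrom D hD (q + 1) r hr (by omega) a)
          (Ufrom_mono D (q + 1) (r + 1) (by omega) hg')
      exact he (xU_mul_Ufrom_eq D hD H q hqp e 1 _ (one_mem _) h1 (by rw [mul_one]; exact h))
    · exact heq
    · exfalso
      have h1 : xU D hD q e ∈ Ufrom D F (r + 1) := xU_mem_Ufrom D hD (r + 1) q hqp (by omega) e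
      exact ha (xU_mul_Ufrom_eq D hD H r hr a g' _ hg' h1 h.symm)
  · exfalso
    have hV : xU D hD q e ∈ D.negUnipotent F :=
      Subgroup.subset_closure ⟨q, e, hqn, coe_xU D hD q e⟩
    have hB : xU D hD q e ∈ D.borelSubgroup F := by
      rw [h]
      exact (le_sup_left : D.posUnipotent F ≤ D.borelSubgroup F)
        (mul_mem (Ufrom_le_unip D r (xU_mem_Ufrom D hD r r hr le_rfl a))
          (Ufrom_le_unip D (r + 1) hg'))
    have h3 : xU D hD q e ∈ D.borelSubgroup F ⊓ D.negUnipotent F := ⟨hB, hV⟩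
    rw [(Cfsg.Agent.S1037.result (F := F) D hD).1, Subgroup.mem_bot] at h3
    exact he (xU_eq_one D hD q hq e h3)

end Cfsg.Agent.Lib.Helper36
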