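import Cfsg.Agent.Lib.Helper36.ParFitE
import Cfsg.Agent.Lib.Helper31.EvenChar

set_option autoImplicit false

/-!
# The generalized Fitting subgroup of a parabolic subgroup

An element of the Chevalley group centralising the unipotent radical `U_J` of a proper standard
parabolic subgroup lies in `U`: its Bruhat word fixes the roots of `U_J`, hence (linearity of the
Weyl group on Cartan integers) maps the fundamental roots to positive roots and is trivial; its
torus part acts trivially on all root subgroups.  Hence `F*(P_J) = O_p(P_J)`.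
-/

namespace Cfsg.Agent.Lib.Helper36

open Cfsg Cfsg.Lie Cfsg.Agent.Lib.Helper18
open Cfsg.Agent.Lib.Helper17 (Ufrom xU_mem_Ufrom LamH exists_lamH)

universe u

variable {F : Type u} [Field F]

/-! ### The Weyl group acts linearly on the Cartan integers -/

/-- the action of a fundamental reflection on vectors of Cartan integers -/
def pfReflV (D : ChevalleyDatum) (i : ℕ) (v : ℕ → ℤ) : ℕ → ℤ :=
  fun k => v k - D.cartan k (D.simple i) * v i

/-- the action of a word on vectors of Cartan integers -/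
def pfWordV (D : ChevalleyDatum) (l : List (Fin D.rank)) (v : ℕ → ℤ) : ℕ → ℤ :=
  l.foldr (fun i v => pfReflV D i.val v) v

theorem cartan_reflect (D : ChevalleyDatum)
    (hD : D ∈ [chevG2, chevB2, chevD4, chevF4, chevE6, chevE7, chevE8]) (i : Fin D.rank) (s : ℕ)
    (hs : s < D.nroots) (k : ℕ) (hk : k < D.rank) :
    D.cartan k (D.reflectRoot i.val s) =
      D.cartan k s - D.cartan k (D.simple i.val) * D.cartan i.val s := by
  obtain ⟨wt, et, hnd⟩ := exists_ndata D hD i.val i.isLt
  have hlt : D.reflectRoot i.val s < D.nroots := by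
    rw [← hnd.w_eq s hs]
    exact (hnd.root s hs).lt
  have h1 := (hnd.root _ hlt).cartan k hk
  rw [hnd.w_eq _ hlt, reflectRoot_invol D hD i s hs] at h1
  exact h1

theorem cartan_wordF (D : ChevalleyDatum)
    (hD : D ∈ [chevG2, chevB2, chevD4, chevF4, chevE6, chevE7, chevE8]) (l : List (Fin D.rank))
    (s : ℕ) (hs : s < D.nroots) :
    ∀ k < D.rank, D.cartan k (wordF D l s) = pfWordV D l (fun k => D.cartan k s) k := by
  induction l with
  | nil =>
    intro k hk
    rfl
  | cons a l ih =>
    intro k hk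
    have hlt := wordF_lt D hD l s hs
    show D.cartan k (D.reflectRoot a.val (wordF D l s)) =
      pfReflV D a.val (pfWordV D l (fun k => D.cartan k s)) k
    rw [cartan_reflect D hD a _ hlt k hk, ih k hk, ih a.val a.isLt]
    rfl

theorem pfWordV_add (D : ChevalleyDatum) (l : List (Fin D.rank)) (v v' : ℕ → ℤ) :
    ∀ k, pfWordV D l (fun k => v k + v' k) k = pfWordV D l v k + pfWordV D l v' k := by
  induction l with
  | nil =>
    intro k
    rfl
  | cons a l ih =>
    intro k
    show pfReflV D a.val (pfWordV D l (fun k => v k + v' k)) k =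
      pfReflV D a.val (pfWordV D l v) k + pfReflV D a.val (pfWordV D l v') k
    unfold pfReflV
    rw [ih k, ih a.val]
    ring

theorem pfWordV_congr (D : ChevalleyDatum) (l : List (Fin D.rank)) (v v' : ℕ → ℤ)
    (h : ∀ k < D.rank, v k = v' k) : ∀ k < D.rank, pfWordV D l v k = pfWordV D l v' k := by
  induction l with
  | nil => exact h
  | cons a l ih =>
    intro k hk
    show pfReflV D a.val (pfWordV D l v) k = pfReflV D a.val (pfWordV D l v') k
    unfold pfReflV
    rw [ih k hk, ih a.val a.isLt]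

/-- a word fixing the roots of the radical of a proper parabolic subgroup maps the fundamental
roots to positive roots -/
theorem word_simple_pos (D : ChevalleyDatum)
    (hD : D ∈ [chevG2, chevB2, chevD4, chevF4, chevE6, chevE7, chevE8]) (J : Set ℕ)
    (hJ : ∃ i, i < D.rank ∧ i ∉ J) (l : List (Fin D.rank))
    (hfix : ∀ r, RadRoot D J r → wordF D l r = r) (j : Fin D.rank) :
    D.IsPosRoot (wordF D l (D.simple j.val)) := by
  have hO := pfOK_all D hD
  have hS := sgnOK_all D hD
  obtain ⟨i, hi, hiJ⟩ := hJ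
  by_cases hij : i = j.val
  · have hrad : RadRoot D J (D.simple j.val) :=
      radRoot_of_cor D J _ i (hS.pos_simple j.val j.isLt) hi hiJ
        (by rw [hij]; exact hO.simp_self j.val j.isLt)
    rw [hfix _ hrad]
    exact hS.pos_simple j.val j.isLt
  · obtain ⟨r, t, hr, hri, ht, hti, hsum⟩ := hO.sum i hi j.val j.isLt hij
    have hr' := hfix r (radRoot_of_cor D J r i hr hi hiJ hri)
    have ht' := hfix t (radRoot_of_cor D J t i ht hi hiJ hti)
    have hsl := simple_lt D hD j.val j.isLt
    apply hO.pos j.val j.isLt _ (wordF_lt D hD l _ hsl)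
    intro k hk
    have e1 := cartan_wordF D hD l t ht.1 k hk
    have e2 := cartan_wordF D hD l r hr.1 k hk
    have e3 := cartan_wordF D hD l (D.simple j.val) hsl k hk
    rw [ht'] at e1
    rw [hr'] at e2
    have e4 := pfWordV_congr D l (fun k => D.cartan k t)
      (fun k => D.cartan k r + D.cartan k (D.simple j.val)) hsum k hk
    have e5 := pfWordV_add D l (fun k => D.cartan k r) (fun k => D.cartan k (D.simple j.val)) k
    have e6 := hsum k hk
    rw [e3]
    linarith

/-! ### The centraliser of `U_J` -/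

/-- an element of the group centralising `U_J`, `J` proper, lies in `B` -/
theorem mem_borel_of_cent_rad (D : ChevalleyDatum)
    (hD : D ∈ [chevG2, chevB2, chevD4, chevF4, chevE6, chevE7, chevE8]) (J : Set ℕ)
    (hJ : ∃ i, i < D.rank ∧ i ∉ J) (g : GL D.Idx F) (hg : g ∈ D.group F)
    (hc : ∀ y ∈ rootCl D F (RadRoot D J), g * y = y * g) : g ∈ D.borelSubgroup F := by
  have hS := sgnOK_all D hD
  have hHB : D.diagonalSubgroup F ≤ D.borelSubgroup F := le_sup_right
  have hBN := borel_le_normalizer_rad (F := F) D hD J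
  obtain ⟨b₁, hb₁, l, b₂, hb₂, rfl⟩ := bruhat_word D hD g hg
  obtain ⟨ε, hε⟩ := word_smap (F := F) D hD l
  have hfix : ∀ r, RadRoot D J r → wordF D l r = r := by
    intro r hr
    have hy : b₂⁻¹ * xU D hD r 1 * b₂⁻¹⁻¹ ∈ rootCl D F (RadRoot D J) :=
      conj_mem_of_mem_normalizer _ (hBN (inv_mem hb₂)) (xU_mem_rootCl D hD _ r hr 1)
    have e1 := hc _ hy
    have e3 : (l.map (nU (F := F) D hD)).prod * xU D hD r 1 *
        ((l.map (nU (F := F) D hD)).prod)⁻¹ = xU D hD (wordF D l r) (ε r * 1) := by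
      rw [hε.conjU hD r hr.1.1 1]
      group
    have e2 : (l.map (nU (F := F) D hD)).prod * xU D hD r 1 *
        ((l.map (nU (F := F) D hD)).prod)⁻¹ =
        (b₂ * b₁)⁻¹ * xU D hD r 1 * (b₂ * b₁)⁻¹⁻¹ := by
      generalize xU D hD r (1 : F) = X at e1 ⊢
      generalize (l.map (nU (F := F) D hD)).prod = n at e1 ⊢
      have e0 : b₁ * n * X = b₂⁻¹ * X * b₂ * b₁ * n := by
        calc b₁ * n * X = (b₁ * n * b₂ * (b₂⁻¹ * X * b₂⁻¹⁻¹)) * b₂⁻¹ := by group
          _ = (b₂⁻¹ * X * b₂⁻¹⁻¹ * (b₁ * n * b₂)) * b₂⁻¹ := by rw [e1]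
          _ = b₂⁻¹ * X * b₂ * b₁ * n := by group
      calc n * X * n⁻¹ = b₁⁻¹ * (b₁ * n * X) * n⁻¹ := by group
        _ = b₁⁻¹ * (b₂⁻¹ * X * b₂ * b₁ * n) * n⁻¹ := by rw [e0]
        _ = (b₂ * b₁)⁻¹ * X * (b₂ * b₁)⁻¹⁻¹ := by group
    obtain ⟨u, hu, h, hh, e4⟩ := exists_mul_of_mem_sup (D.posUnipotent F) (D.diagonalSubgroup F)
      (diagonalSubgroup_le_normalizer_posUnipotent D hD) ((b₂ * b₁)⁻¹)
      (inv_mem (mul_mem hb₂ hb₁))
    obtain ⟨a, e5⟩ := diag_conjU D hD h hh r hr.1.1 1
    have ha : a ≠ 0 := conj_param_ne_zero D hD r hr.1.1 h a (by rw [e5]; group)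
    obtain ⟨g', hg', e6⟩ := conj_xU_leading D hD r hr.1 u hu a
    have e7 : xU D hD (wordF D l r) (ε r * 1) = xU D hD r a * g' := by
      rw [← e3, e2, e4, ← e6]
      generalize xU D hD r (1 : F) = X at e5 ⊢
      generalize xU D hD r a = X' at e5 ⊢
      calc u * h * X * (u * h)⁻¹ = u * (h * X) * h⁻¹ * u⁻¹ := by group
        _ = u * (X' * h) * h⁻¹ * u⁻¹ := by rw [e5]
        _ = u * X' * u⁻¹ := by group
    have hε0 : ε r * 1 ≠ 0 := by
      rcases hε.sign r hr.1.1 with h1 | h1 <;> rw [h1] <;> simp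
    exact root_eq_of_leading D hD _ r (wordF_lt D hD l r hr.1.1) hr.1 _ a hε0 ha g' hg' e7
  have hP : ∀ i : Fin D.rank, D.IsPosRoot (wordF D l (D.simple i.val)) :=
    fun i => word_simple_pos D hD J hJ l hfix i
  have hn := word_mem_diag_of_simple_pos (F := F) D hD hS l.length l rfl hP
  exact mul_mem (mul_mem hb₁ (hHB hn)) hb₂

/-- an element of `B` centralising `U_J`, `J` proper, lies in `U` -/
theorem mem_unip_of_cent_rad (D : ChevalleyDatum)
    (hD : D ∈ [chevG2, chevB2, chevD4, chevF4, chevE6, chevE7, chevE8]) (J : Set ℕ)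
    (hJ : ∃ i, i < D.rank ∧ i ∉ J) (g : GL D.Idx F) (hg : g ∈ D.borelSubgroup F)
    (hc : ∀ y ∈ rootCl D F (RadRoot D J), g * y = y * g) : g ∈ D.posUnipotent F := by
  have hO := pfOK_all D hD
  have hS := sgnOK_all D hD
  obtain ⟨lam, H⟩ := exists_lamH D hD
  obtain ⟨u, hu, h, hh, rfl⟩ := exists_mul_of_mem_sup (D.posUnipotent F) (D.diagonalSubgroup F)
    (diagonalSubgroup_le_normalizer_posUnipotent D hD) g hg
  obtain ⟨c, hc0, hd⟩ := diagonalSubgroup_eq_dvecL D hD h hh
  have hl : ∀ i ∈ List.range D.rank, i < D.rank ∧ c i ≠ 0 :=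
    fun i hi => ⟨List.mem_range.mp hi, hc0 i⟩
  have hconj : ∀ s < D.nroots, ∀ t : F,
      h * xU D hD s t = xU D hD s (chiL D c (List.range D.rank) s * t) * h := by
    intro s hs t
    apply Units.ext
    rw [Units.val_mul, Units.val_mul, coe_xU, coe_xU, hd]
    exact dvecL_mul_x D hD c _ hl s hs t
  have hrad : ∀ r, RadRoot D J r → chiL D c (List.range D.rank) r = 1 := by
    intro r hr
    have e1 := hc _ (xU_mem_rootCl D hD _ r hr 1)
    have e2 := hconj r hr.1.1 1
    rw [mul_one] at e2
    obtain ⟨g', hg', e3⟩ := conj_xU_leading D hD r hr.1 u hu (chiL D c (List.range D.rank) r)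
    have e4 : xU D hD r (chiL D c (List.range D.rank) r) * g' = xU D hD r 1 := by
      rw [← e3]
      generalize xU D hD r (1 : F) = X at e1 e2 ⊢
      generalize xU D hD r (chiL D c (List.range D.rank) r) = X' at e2 ⊢
      calc u * X' * u⁻¹ = u * (X' * h) * h⁻¹ * u⁻¹ := by group
        _ = u * (h * X) * h⁻¹ * u⁻¹ := by rw [e2]
        _ = (u * h * X) * (u * h)⁻¹ := by group
        _ = (X * (u * h)) * (u * h)⁻¹ := by rw [e1]
        _ = X := by group
    have e5 : xU D hD r (chiL D c (List.range D.rank) r - 1) * g' = 1 := by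
      have e : xU D hD r (chiL D c (List.range D.rank) r - 1) =
          (xU D hD r 1)⁻¹ * xU D hD r (chiL D c (List.range D.rank) r) := by
        rw [xU_inv, xU_mul]
        congr 1
        ring
      rw [e, mul_assoc, e4, inv_mul_cancel]
    have e6 := xU_mul_Ufrom_eq D hD H r hr.1 _ g' 1 hg' (one_mem _) e5
    exact sub_eq_zero.mp e6
  have hsimp : ∀ k < D.rank, chiL D c (List.range D.rank) (D.simple k) = 1 := by
    intro k hk
    obtain ⟨i, hi, hiJ⟩ := hJ
    by_cases hik : i = k
    · exact hrad _ (radRoot_of_cor D J _ i (hS.pos_simple k hk) hi hiJ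
        (by rw [hik]; exact hO.simp_self k hk))
    · obtain ⟨r, t, hr, hri, ht, hti, hsum⟩ := hO.sum i hi k hk hik
      have e1 := chiL_of_add D c (List.range D.rank) (fun k _ => hc0 k) t r (D.simple k)
        (fun k hk => hsum k (List.mem_range.mp hk))
      rw [hrad r (radRoot_of_cor D J r i hr hi hiJ hri),
        hrad t (radRoot_of_cor D J t i ht hi hiJ hti), one_mul] at e1
      exact e1.symm
  have hcent : D.group F ≤ Subgroup.centralizer {h} := by
    apply group_le_of_simple D hD
    intro i hi t x hx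
    rw [Subgroup.mem_centralizer_iff]
    intro y hy
    rw [Set.mem_singleton_iff.mp hy]
    have hlt := simple_lt D hD i hi
    rcases hx with hx | hx
    · rw [eq_xU D hD _ t x hx]
      have e := hconj (D.simple i) hlt t
      rw [hsimp i hi, one_mul] at e
      exact e
    · rw [eq_xU D hD _ t x hx]
      have e := hconj (D.neg (D.simple i)) (neg_lt D hD _ hlt).1 t
      rw [chiL_neg D hD c _ (fun i hi => List.mem_range.mp hi) _ hlt, hsimp i hi, inv_one,
        one_mul] at e
      exact e
  have h1 : h = 1 := by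
    apply eq_one_of_comm_root D hD h (diagonal_le_group D hD hh)
    intro s hs
    have e := hcent (xU_mem_group D hD s 1)
    rw [Subgroup.mem_centralizer_iff] at e
    exact e h rfl
  rw [h1, mul_one]
  exact hu

/-! ### The generalized Fitting subgroup -/

/-- the generalized Fitting subgroup of a proper standard parabolic subgroup is a `p`-group -/
theorem parabolic_fit [Fintype F] (p : ℕ) [Fact p.Prime] [CharP F p] (D : ChevalleyDatum)
    (hD : D ∈ [chevG2, chevB2, chevD4, chevF4, chevE6, chevE7, chevE8]) (J : Set ℕ)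
    (hJ : ∃ i, i < D.rank ∧ i ∉ J) :
    IsPGroup p ↥(Cfsg.generalizedFittingSubgroup ↥(D.parabolicSubgroup F J)) := by
  have hUp : IsPGroup p ↥(D.posUnipotent F) := by
    obtain ⟨n, -, hn⟩ := FiniteField.card F p
    have h1 : Nat.card ↥(D.posUnipotent F) = p ^ ((n : ℕ) * (D.nroots / 2)) := by
      rw [Cfsg.Agent.Lib.Helper17.card_posUnipotent D hD, hn, pow_mul]
    exact IsPGroup.of_card h1
  have hRU : D.unipotentRadical F J ≤ D.posUnipotent F := by
    rw [unipotentRadical_eq_rootCl]
    exact rootCl_le D hD _ _ (fun s hs t => Subgroup.subset_closure ⟨s, t, hs.1, coe_xU D hD s t⟩)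
  have hUP : D.posUnipotent F ≤ D.parabolicSubgroup F J :=
    le_trans (le_sup_left : D.posUnipotent F ≤ D.borelSubgroup F) le_sup_left
  have hN := parabolic_le_normalizer_rad (F := F) D hD J
  have hQn : ((D.unipotentRadical F J).subgroupOf (D.parabolicSubgroup F J)).Normal := by
    constructor
    intro q hq x
    rw [Subgroup.mem_subgroupOf] at hq ⊢
    exact conj_mem_of_mem_normalizer _ (hN x.prop) hq
  have hQp : IsPGroup p ↥((D.unipotentRadical F J).subgroupOf (D.parabolicSubgroup F J)) :=
    (hUp.to_le hRU).comap_subtype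
  have hCU : Subgroup.centralizer
      (((D.unipotentRadical F J).subgroupOf (D.parabolicSubgroup F J) :
        Subgroup ↥(D.parabolicSubgroup F J)) : Set ↥(D.parabolicSubgroup F J)) ≤
      (D.posUnipotent F).subgroupOf (D.parabolicSubgroup F J) := by
    intro x hx
    rw [Subgroup.mem_subgroupOf]
    have hc : ∀ y ∈ rootCl D F (RadRoot D J), (x : GL D.Idx F) * y = y * x := by
      intro y hy
      rw [← unipotentRadical_eq_rootCl] at hy
      have hyP : y ∈ D.parabolicSubgroup F J := hUP (hRU hy)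
      have e := (Subgroup.mem_centralizer_iff.mp hx) ⟨y, hyP⟩ (Subgroup.mem_subgroupOf.mpr hy)
      exact (congrArg Subtype.val e).symm
    have hxB := mem_borel_of_cent_rad D hD J hJ x.val (parabolic_le_group D hD J x.prop) hc
    exact mem_unip_of_cent_rad D hD J hJ x.val hxB hc
  have hCp : IsPGroup p ↥(Subgroup.centralizer
      (((D.unipotentRadical F J).subgroupOf (D.parabolicSubgroup F J) :
        Subgroup ↥(D.parabolicSubgroup F J)) : Set ↥(D.parabolicSubgroup F J))) :=
    (hUp.comap_subtype).to_le hCU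
  haveI := hQn
  have hCn : (Subgroup.centralizer
      (((D.unipotentRadical F J).subgroupOf (D.parabolicSubgroup F J) :
        Subgroup ↥(D.parabolicSubgroup F J)) : Set ↥(D.parabolicSubgroup F J))).Normal :=
    inferInstance
  have hle : Subgroup.centralizer (pCore p ↥(D.parabolicSubgroup F J) :
      Set ↥(D.parabolicSubgroup F J)) ≤ pCore p ↥(D.parabolicSubgroup F J) := by
    refine le_trans (Subgroup.centralizer_le ?_) (Cfsg.Agent.Lib.Helper49.le_pCore hCn hCp)
    exact SetLike.coe_subset_coe.mpr (Cfsg.Agent.Lib.Helper49.le_pCore hQn hQp)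
  rw [Cfsg.Agent.Lib.Helper31.generalizedFittingSubgroup_eq_pCore hle]
  exact Cfsg.Agent.Lib.Helper49.pCore_isPGroup p _

end Cfsg.Agent.Lib.Helper36
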