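import Cfsg.Agent.Lib.Helper36.ParFitF
import Cfsg.Agent.Lib.Helper36.FoldN2

/-!
# Coroots under the Weyl group: linearity, positivity transfer (for the Steinberg character)
-/

set_option autoImplicit false

namespace Cfsg.Agent.Lib.Helper36

open Cfsg Cfsg.Lie Cfsg.Agent.Lib.Helper18

/-- table facts on coroots: coroot of a fundamental root, sizes, negatives -/
def stCorChk (D : ChevalleyDatum) : Bool :=
  ((List.range D.rank).all fun j => decide (pfCor D (D.simple j) j = 1)) &&
  ((List.range D.nroots).all fun r => decide ((D.coroot.getD r #[]).size = D.rank) &&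
    (List.range D.rank).all fun k => decide (pfCor D (D.neg r) k = - pfCor D r k))

structure StCorOK (D : ChevalleyDatum) : Prop where
  simp_one : ∀ j < D.rank, pfCor D (D.simple j) j = 1
  size : ∀ r < D.nroots, (D.coroot.getD r #[]).size = D.rank
  neg : ∀ r < D.nroots, ∀ k < D.rank, pfCor D (D.neg r) k = - pfCor D r k

theorem stCorOK_of_chk (D : ChevalleyDatum) (h : stCorChk D = true) : StCorOK D := by
  simp only [stCorChk, Bool.and_eq_true, List.all_eq_true, List.mem_range,
    decide_eq_true_eq] at h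
  exact ⟨h.1, fun r hr => (h.2 r hr).1, fun r hr => (h.2 r hr).2⟩

theorem g2_stCor : stCorChk chevG2 = true := by decide +kernel
theorem b2_stCor : stCorChk chevB2 = true := by decide +kernel
theorem d4_stCor : stCorChk chevD4 = true := by decide +kernel
theorem f4_stCor : stCorChk chevF4 = true := by decide +kernel
theorem e6_stCor : stCorChk chevE6 = true := by decide +kernel
theorem e7_stCor : stCorChk chevE7 = true := by decide +kernel
theorem e8_stCor : stCorChk chevE8 = true := by decide +kernel

theorem stCorOK_all (D : ChevalleyDatum)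
    (hD : D ∈ [chevG2, chevB2, chevD4, chevF4, chevE6, chevE7, chevE8]) : StCorOK D := by
  simp only [List.mem_cons, List.not_mem_nil, or_false] at hD
  rcases hD with rfl | rfl | rfl | rfl | rfl | rfl | rfl
  · exact stCorOK_of_chk _ g2_stCor
  · exact stCorOK_of_chk _ b2_stCor
  · exact stCorOK_of_chk _ d4_stCor
  · exact stCorOK_of_chk _ f4_stCor
  · exact stCorOK_of_chk _ e6_stCor
  · exact stCorOK_of_chk _ e7_stCor
  · exact stCorOK_of_chk _ e8_stCor

theorem array_forall_iff (a : Array ℤ) (n : ℕ) (hn : a.size = n) (P : ℤ → Prop) :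
    (∀ c ∈ a.toList, P c) ↔ ∀ k < n, P (a.getD k 0) := by
  constructor
  · intro h k hk
    have hk' : k < a.size := by rw [hn]; exact hk
    have e : a.getD k 0 = a[k] := by simp [Array.getD, hk']
    rw [e]
    exact h _ (by simp)
  · intro h c hc
    rw [Array.mem_toList_iff, Array.mem_iff_getElem] at hc
    obtain ⟨k, hk, rfl⟩ := hc
    have e : a.getD k 0 = a[k] := by simp [Array.getD, hk]
    rw [← e]
    exact h k (by rw [← hn]; exact hk)

theorem isPosRoot_iff_cor (D : ChevalleyDatum) (hO : StCorOK D) (r : ℕ) (hr : r < D.nroots) :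
    D.IsPosRoot r ↔ ∀ k < D.rank, 0 ≤ pfCor D r k := by
  unfold ChevalleyDatum.IsPosRoot pfCor
  rw [array_forall_iff _ _ (hO.size r hr)]
  exact ⟨fun h => h.2, fun h => ⟨hr, h⟩⟩

theorem isNegRoot_iff_cor (D : ChevalleyDatum) (hO : StCorOK D) (r : ℕ) (hr : r < D.nroots) :
    D.IsNegRoot r ↔ ∀ k < D.rank, pfCor D r k ≤ 0 := by
  unfold ChevalleyDatum.IsNegRoot pfCor
  rw [array_forall_iff _ _ (hO.size r hr)]
  exact ⟨fun h => h.2, fun h => ⟨hr, h⟩⟩

theorem list_range_sum (f : ℕ → ℤ) (n : ℕ) :
    ((List.range n).map f).sum = ∑ j ∈ Finset.range n, f j := by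
  induction n with
  | zero => simp
  | succ n ih => rw [List.range_succ, List.map_append, List.sum_append, ih, Finset.sum_range_succ]; simp

/-- the coroot of a reflected root -/
theorem cor_reflect (D : ChevalleyDatum)
    (hD : D ∈ [chevG2, chevB2, chevD4, chevF4, chevE6, chevE7, chevE8]) (i : Fin D.rank) (s : ℕ)
    (hs : s < D.nroots) (j : ℕ) (hj : j < D.rank) :
    pfCor D (D.reflectRoot i.val s) j = pfCor D s j +
      (if j = i.val then ∑ j' ∈ Finset.range D.rank, pfCor D s j' * (- D.cartan j' (D.simple i.val))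
        else 0) := by
  obtain ⟨wt, et, hnd⟩ := exists_ndata D hD i.val i.isLt
  have h6 := (hnd.root s hs).coroot j hj
  rw [hnd.w_eq s hs, list_range_sum] at h6
  unfold pfCor
  rw [h6]
  congr 1
  split_ifs
  · apply Finset.sum_congr rfl
    intro j' _
    ring
  · rfl

/-- linearity of the Weyl group action on coroots -/
theorem cor_wordF_lin (D : ChevalleyDatum)
    (hD : D ∈ [chevG2, chevB2, chevD4, chevF4, chevE6, chevE7, chevE8]) (l : List (Fin D.rank))
    (r : ℕ) (hr : r < D.nroots) :
    ∀ k < D.rank, pfCor D (wordF D l r) k =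
      ∑ j ∈ Finset.range D.rank, pfCor D r j * pfCor D (wordF D l (D.simple j)) k := by
  have hO := pfOK_all D hD
  have hC := stCorOK_all D hD
  induction l with
  | nil =>
    intro k hk
    show pfCor D r k = ∑ j ∈ Finset.range D.rank, pfCor D r j * pfCor D (D.simple j) k
    rw [Finset.sum_eq_single k]
    · rw [hC.simp_one k hk, mul_one]
    · intro j hj hjk
      rw [hO.simp_other j (Finset.mem_range.mp hj) k hk (fun e => hjk e.symm), mul_zero]
    · intro h
      exact absurd (Finset.mem_range.mpr hk) h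
  | cons a l ih =>
    intro k hk
    have hlt := wordF_lt D hD l r hr
    show pfCor D (D.reflectRoot a.val (wordF D l r)) k =
      ∑ j ∈ Finset.range D.rank, pfCor D r j *
        pfCor D (D.reflectRoot a.val (wordF D l (D.simple j))) k
    rw [cor_reflect D hD a _ hlt k hk, ih k hk]
    have e1 : ∀ j ∈ Finset.range D.rank, pfCor D r j *
        pfCor D (D.reflectRoot a.val (wordF D l (D.simple j))) k =
        pfCor D r j * pfCor D (wordF D l (D.simple j)) k +
        (if k = a.val then ∑ j' ∈ Finset.range D.rank,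
          (pfCor D r j * pfCor D (wordF D l (D.simple j)) j') * (- D.cartan j' (D.simple a.val))
          else 0) := by
      intro j hj
      rw [cor_reflect D hD a _ (wordF_lt D hD l _ (simple_lt D hD j (Finset.mem_range.mp hj))) k hk,
        mul_add]
      congr 1
      split_ifs
      · rw [Finset.mul_sum]
        apply Finset.sum_congr rfl
        intro j' _
        ring
      · rw [mul_zero]
    rw [Finset.sum_congr rfl e1, Finset.sum_add_distrib]
    congr 1
    split_ifs
    · rw [Finset.sum_comm]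
      apply Finset.sum_congr rfl
      intro j' hj'
      rw [ih j' (Finset.mem_range.mp hj'), Finset.sum_mul]
    · rw [Finset.sum_const_zero]

/-- positivity transfer: a word mapping the fundamental roots of `J` to positive roots maps the
positive roots of `Φ_J` to positive roots -/
theorem word_pos_of_sub (D : ChevalleyDatum)
    (hD : D ∈ [chevG2, chevB2, chevD4, chevF4, chevE6, chevE7, chevE8]) (J : Set ℕ)
    (l : List (Fin D.rank))
    (hl : ∀ j ∈ J, j < D.rank → D.IsPosRoot (wordF D l (D.simple j)))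
    (r : ℕ) (hr : D.IsPosRoot r) (hrJ : D.InRootSub J r) : D.IsPosRoot (wordF D l r) := by
  have hC := stCorOK_all D hD
  rw [isPosRoot_iff_cor D hC _ (wordF_lt D hD l r hr.1)]
  intro k hk
  rw [cor_wordF_lin D hD l r hr.1 k hk]
  apply Finset.sum_nonneg
  intro j hj
  have hj' := Finset.mem_range.mp hj
  by_cases hjJ : j ∈ J
  · exact mul_nonneg ((isPosRoot_iff_cor D hC r hr.1).mp hr j hj')
      ((isPosRoot_iff_cor D hC _ (wordF_lt D hD l _ (simple_lt D hD j hj'))).mp (hl j hjJ hj') k hk)
  · have : pfCor D r j = 0 := hrJ.2 j hj' hjJ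
    rw [this, zero_mul]

/-- negativity transfer: a word mapping all fundamental roots to negative roots maps all positive
roots to negative roots -/
theorem word_neg_of_simple (D : ChevalleyDatum)
    (hD : D ∈ [chevG2, chevB2, chevD4, chevF4, chevE6, chevE7, chevE8])
    (l : List (Fin D.rank))
    (hl : ∀ j : Fin D.rank, D.IsNegRoot (wordF D l (D.simple j.val)))
    (r : ℕ) (hr : D.IsPosRoot r) : D.IsNegRoot (wordF D l r) := by
  have hC := stCorOK_all D hD
  rw [isNegRoot_iff_cor D hC _ (wordF_lt D hD l r hr.1)]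
  intro k hk
  rw [cor_wordF_lin D hD l r hr.1 k hk]
  apply Finset.sum_nonpos
  intro j hj
  have hj' := Finset.mem_range.mp hj
  exact mul_nonpos_of_nonneg_of_nonpos ((isPosRoot_iff_cor D hC r hr.1).mp hr j hj')
    ((isNegRoot_iff_cor D hC _ (wordF_lt D hD l _ (simple_lt D hD j hj'))).mp (hl ⟨j, hj'⟩) k hk)

/-- reflections in `J` preserve the roots of the radical -/
theorem radRoot_reflect (D : ChevalleyDatum)
    (hD : D ∈ [chevG2, chevB2, chevD4, chevF4, chevE6, chevE7, chevE8]) (J : Set ℕ)
    (j : Fin D.rank) (hj : j.val ∈ J) (s : ℕ) (hs : RadRoot D J s) :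
    RadRoot D J (D.reflectRoot j.val s) := by
  have hO := pfOK_all D hD
  obtain ⟨i, hi, hiJ, hci⟩ := exists_cor_of_radRoot D J s hs
  have hij : ¬ i = j.val := fun e => hiJ (e ▸ hj)
  have hne : s ≠ D.simple j.val := by
    rintro rfl
    exact hci (hO.simp_other j.val j.isLt i hi hij)
  have hpos := reflect_pos D hD j s hs.1 hne
  refine radRoot_of_cor D J _ i hpos hi hiJ ?_
  rw [cor_reflect D hD j s hs.1.1 i hi, if_neg hij, add_zero]
  exact hci

theorem radRoot_wordF (D : ChevalleyDatum)
    (hD : D ∈ [chevG2, chevB2, chevD4, chevF4, chevE6, chevE7, chevE8]) (J : Set ℕ)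
    (v : List (Fin D.rank)) (hv : ∀ a ∈ v, a.val ∈ J) (s : ℕ) (hs : RadRoot D J s) :
    RadRoot D J (wordF D v s) := by
  induction v with
  | nil => exact hs
  | cons a v ih =>
    exact radRoot_reflect D hD J a (hv a (List.mem_cons_self ..)) _
      (ih (fun b hb => hv b (List.mem_cons_of_mem _ hb)))

/-- reflections in `J` preserve `Φ_J` -/
theorem inRootSub_reflect (D : ChevalleyDatum)
    (hD : D ∈ [chevG2, chevB2, chevD4, chevF4, chevE6, chevE7, chevE8]) (J : Set ℕ)
    (j : Fin D.rank) (hj : j.val ∈ J) (s : ℕ) (hs : D.InRootSub J s) :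
    D.InRootSub J (D.reflectRoot j.val s) := by
  refine ⟨wordF_lt D hD [j] s hs.1, ?_⟩
  intro i hi hiJ
  have hij : ¬ i = j.val := fun e => hiJ (e ▸ hj)
  have h := cor_reflect D hD j s hs.1 i hi
  rw [if_neg hij, add_zero] at h
  exact h.trans (hs.2 i hi hiJ)

theorem inRootSub_wordF (D : ChevalleyDatum)
    (hD : D ∈ [chevG2, chevB2, chevD4, chevF4, chevE6, chevE7, chevE8]) (J : Set ℕ)
    (v : List (Fin D.rank)) (hv : ∀ a ∈ v, a.val ∈ J) (s : ℕ) (hs : D.InRootSub J s) :
    D.InRootSub J (wordF D v s) := by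
  induction v with
  | nil => exact hs
  | cons a v ih =>
    exact inRootSub_reflect D hD J a (hv a (List.mem_cons_self ..)) _
      (ih (fun b hb => hv b (List.mem_cons_of_mem _ hb)))

theorem inRootSub_neg (D : ChevalleyDatum)
    (hD : D ∈ [chevG2, chevB2, chevD4, chevF4, chevE6, chevE7, chevE8]) (J : Set ℕ)
    (s : ℕ) (hs : D.InRootSub J s) : D.InRootSub J (D.neg s) := by
  have hC := stCorOK_all D hD
  refine ⟨(neg_lt D hD s hs.1).1, ?_⟩
  intro i hi hiJ
  have h := hC.neg s hs.1 i hi
  unfold pfCor at h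
  rw [h, hs.2 i hi hiJ, neg_zero]

theorem inRootSub_simple (D : ChevalleyDatum)
    (hD : D ∈ [chevG2, chevB2, chevD4, chevF4, chevE6, chevE7, chevE8]) (J : Set ℕ)
    (j : ℕ) (hj : j < D.rank) (hjJ : j ∈ J) : D.InRootSub J (D.simple j) := by
  have hO := pfOK_all D hD
  refine ⟨simple_lt D hD j hj, ?_⟩
  intro i hi hiJ
  exact hO.simp_other j hj i hi (fun e => hiJ (e ▸ hjJ))

end Cfsg.Agent.Lib.Helper36
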