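import Cfsg.Agent.Lib.Helper36.StbB

/-!
# Distinguished coset representatives: existence, uniqueness, stabilisers, the longest element
-/

set_option autoImplicit false

namespace Cfsg.Agent.Lib.Helper36

open Cfsg Cfsg.Lie Cfsg.Agent.Lib.Helper18

universe u

variable {F : Type u} [Field F]

/-- `P_J = B ⟨n_j : j ∈ J⟩ B` -/
theorem par_decomp (D : ChevalleyDatum)
    (hD : D ∈ [chevG2, chevB2, chevD4, chevF4, chevE6, chevE7, chevE8]) (J : Set ℕ)
    (k : GL D.Idx F) (hk : k ∈ D.parabolicSubgroup F J) :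
    ∃ y ∈ D.borelSubgroup F, ∃ m ∈ Subgroup.closure (jGen D F J), ∃ y' ∈ D.borelSubgroup F,
      k = y * m * y' := by
  obtain ⟨P, hPB, hPN, hPS⟩ := exists_bnpair (F := F) D hD
  have hBG : D.borelSubgroup F ≤ D.group F := borelSubgroup_le_group D hD
  have hJS : {s : ↥(D.group F) | (s : GL D.Idx F) ∈ jGen D F J} ⊆ P.S := by
    rintro s ⟨j, hjJ, hj, e⟩
    rw [hPS]
    exact ⟨j, hj, e⟩
  have hjG : jGen D F J ⊆ (D.group F : Set (GL D.Idx F)) := by
    intro g hg
    obtain ⟨a, -, rfl⟩ := jGen_eq_nU D hD J g hg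
    exact nU_mem_group D hD a
  have hmap : D.parabolicSubgroup F J ≤
      (P.B ⊔ Subgroup.closure {s : ↥(D.group F) | (s : GL D.Idx F) ∈ jGen D F J}).map
        (D.group F).subtype := by
    rw [parabolic_eq_jGen, Subgroup.map_sup]
    apply sup_le_sup
    · rw [hPB]
      intro x hx
      exact ⟨⟨x, hBG hx⟩, Subgroup.mem_subgroupOf.mpr hx, rfl⟩
    · rw [MonoidHom.map_closure, Subgroup.closure_le]
      intro g hg
      exact Subgroup.subset_closure ⟨⟨g, hjG hg⟩, hg, rfl⟩
  obtain ⟨g', hg', rfl⟩ := hmap hk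
  obtain ⟨n, hn, hC⟩ := Cfsg.Agent.Lib.Helper6.BN.exists_mem_C_of_mem_parabolic P hJS hg'
  obtain ⟨x, hx, y, hy, e⟩ := (Cfsg.Agent.Lib.Helper6.BN.mem_C P).1 hC
  rw [hPB] at hx hy
  refine ⟨x.val, Subgroup.mem_subgroupOf.mp hx, n.val, ?_, y.val,
    Subgroup.mem_subgroupOf.mp hy, ?_⟩
  · have hle : (Subgroup.closure {s : ↥(D.group F) | (s : GL D.Idx F) ∈ jGen D F J}).map
        (D.group F).subtype ≤ Subgroup.closure (jGen D F J) := by
      rw [MonoidHom.map_closure, Subgroup.closure_le]
      rintro _ ⟨s, hs, rfl⟩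
      exact Subgroup.subset_closure hs
    exact hle ⟨n, hn, rfl⟩
  · rw [e]
    rfl

/-- every `(B, P_J)`-double coset contains `n_l` with `l ∈ D_J` -/
theorem dj_exists (D : ChevalleyDatum)
    (hD : D ∈ [chevG2, chevB2, chevD4, chevF4, chevE6, chevE7, chevE8]) (J : Set ℕ) :
    ∀ (k : ℕ) (l : List (Fin D.rank)), l.length = k → ∀ g : GL D.Idx F,
      (∃ x ∈ D.borelSubgroup F, ∃ p ∈ D.parabolicSubgroup F J, g = x * nW D hD l * p) →
      ∃ l' : List (Fin D.rank), DJ D J l' ∧
        ∃ x ∈ D.borelSubgroup F, ∃ p ∈ D.parabolicSubgroup F J, g = x * nW D hD l' * p := by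
  intro k
  induction k using Nat.strong_induction_on with
  | _ k ih =>
    intro l hl g hg
    by_cases hdj : DJ D J l
    · exact ⟨l, hdj, hg⟩
    · unfold DJ at hdj
      push_neg at hdj
      obtain ⟨j, hjJ, hj, hnp⟩ := hdj
      have hS := sgnOK_all D hD
      have hsl := simple_lt D hD j hj
      have hneg : D.IsNegRoot (wordF D l (D.simple j)) := by
        rcases hS.pos_or_neg _ (wordF_lt D hD l _ hsl) with h | h
        · exact absurd h hnp
        · exact h
      obtain ⟨ε, hε⟩ := word_smap (F := F) D hD l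
      have hrefl : D.reflectRoot j (D.simple j) = D.neg (D.simple j) := by
        simp [ChevalleyDatum.reflectRoot]
      have hpos : D.IsPosRoot (wordF D (l ++ [(⟨j, hj⟩ : Fin D.rank)]) (D.simple j)) := by
        rw [wordF_append]
        have hone : wordF D [(⟨j, hj⟩ : Fin D.rank)] (D.simple j) = D.neg (D.simple j) := hrefl
        rw [hone, hε.f_neg _ hsl]
        exact pos_neg_of_neg D hD _ hneg
      obtain ⟨l', h, hh, hlen, e⟩ := word_reduce_sharp (F := F) D hD hS l ⟨j, hj⟩ hpos
      obtain ⟨x, hx, p, hp, rfl⟩ := hg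
      have e' : nW (F := F) D hD l = h * nW D hD l' * (nU D hD ⟨j, hj⟩)⁻¹ := by
        have e2 : nW (F := F) D hD (l ++ [(⟨j, hj⟩ : Fin D.rank)]) =
            nW D hD l * nU D hD ⟨j, hj⟩ := by
          rw [nW_append]
          simp [nW]
        have e3 : nW (F := F) D hD (l ++ [(⟨j, hj⟩ : Fin D.rank)]) = h * nW D hD l' := e
        rw [e2] at e3
        rw [← e3]
        group
      have hnP : nU (F := F) D hD ⟨j, hj⟩ ∈ D.parabolicSubgroup F J := by
        rw [parabolic_eq_jGen]
        exact (le_sup_right : Subgroup.closure (jGen D F J) ≤ _)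
          (Subgroup.subset_closure (nU_mem_jGen D hD J ⟨j, hj⟩ hjJ))
      have hlen' : l'.length < k := by
        rw [List.length_append, List.length_singleton] at hlen
        omega
      apply ih _ hlen' l' rfl
      refine ⟨x * h, Subgroup.mul_mem _ hx
        ((le_sup_right : D.diagonalSubgroup F ≤ D.borelSubgroup F) hh),
        (nU D hD ⟨j, hj⟩)⁻¹ * p, Subgroup.mul_mem _ (Subgroup.inv_mem _ hnP) hp, ?_⟩
      rw [e']
      group

/-- a `J`-word mapping the fundamental roots of `J` to positive roots lies in `H` -/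
theorem jword_diag (D : ChevalleyDatum)
    (hD : D ∈ [chevG2, chevB2, chevD4, chevF4, chevE6, chevE7, chevE8]) (J : Set ℕ)
    (v : List (Fin D.rank)) (hv : ∀ a ∈ v, a.val ∈ J) (hp : DJ D J v) :
    nW (F := F) D hD v ∈ D.diagonalSubgroup F := by
  have hS := sgnOK_all D hD
  have hO := pfOK_all D hD
  apply word_mem_diag_of_simple_pos D hD hS v.length v rfl
  intro i
  by_cases hi : i.val ∈ J
  · exact hp i.val hi i.isLt
  · have hrad : RadRoot D J (D.simple i.val) :=
      radRoot_of_cor D J _ i.val (hS.pos_simple i.val i.isLt) i.isLt hi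
        (hO.simp_self i.val i.isLt)
    exact (radRoot_wordF D hD J v hv _ hrad).1

/-- distinct elements of `D_J` lie in distinct `(B, P_J)`-double cosets -/
theorem dj_unique (D : ChevalleyDatum)
    (hD : D ∈ [chevG2, chevB2, chevD4, chevF4, chevE6, chevE7, chevE8]) (J : Set ℕ)
    (l l' : List (Fin D.rank)) (hl : DJ D J l) (hl' : DJ D J l')
    (x p : GL D.Idx F) (hx : x ∈ D.borelSubgroup F) (hp : p ∈ D.parabolicSubgroup F J)
    (e : nW D hD l' = x * nW D hD l * p) :
    (nW (F := F) D hD l)⁻¹ * nW D hD l' ∈ D.diagonalSubgroup F := by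
  have hS := sgnOK_all D hD
  have hHB : D.diagonalSubgroup F ≤ D.borelSubgroup F := le_sup_right
  obtain ⟨y, hy, m, hm, y', hy', rfl⟩ := par_decomp D hD J p hp
  obtain ⟨z, hz, z', hz', e2⟩ := dj_mul D hD J l hl m hm y hy
  obtain ⟨h, hh, v, hv, rfl⟩ := jclosure_word D hD J m hm
  have hN := nW_mem_normalizer (F := F) D hD l
  have h' : nW (F := F) D hD l * h * (nW (F := F) D hD l)⁻¹ ∈ D.diagonalSubgroup F :=
    conj_mem_of_mem_normalizer _ hN hh
  have e3 : nW (F := F) D hD l' = (x * z * (nW (F := F) D hD l * h * (nW (F := F) D hD l)⁻¹)) *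
      nW D hD (l ++ v) * (z' * y') := by
    rw [nW_append, e]
    calc x * nW D hD l * (y * (h * nW D hD v) * y')
        = x * (nW D hD l * y * (h * nW D hD v)) * y' := by group
      _ = x * (z * (nW D hD l * (h * nW D hD v)) * z') * y' := by rw [e2]
      _ = _ := by group
  have h4 := bruhat_word_unique D hD (l ++ v) l' _ _
    (Subgroup.mul_mem _ (Subgroup.mul_mem _ hx hz) (hHB h')) (Subgroup.mul_mem _ hz' hy') e3
  have h4' : (nW (F := F) D hD l')⁻¹ * nW D hD (l ++ v) ∈ D.diagonalSubgroup F := by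
    have := Subgroup.inv_mem _ h4
    rwa [mul_inv_rev, inv_inv] at this
  have hvp : DJ D J v := by
    intro j hjJ hj
    have hsl := simple_lt D hD j hj
    have h5 := wd_pos D hD l' (l ++ v) h4' _ hsl (hl' j hjJ hj)
    rw [wordF_append] at h5
    rcases hS.pos_or_neg _ (wordF_lt D hD v _ hsl) with h6 | h6
    · exact h6
    · exfalso
      have hsub : D.InRootSub J (wordF D v (D.simple j)) :=
        inRootSub_wordF D hD J v hv _ (inRootSub_simple D hD J j hj hjJ)
      have h7 := word_pos_of_sub D hD J l hl _ (pos_neg_of_neg D hD _ h6)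
        (inRootSub_neg D hD J _ hsub)
      obtain ⟨ε, hε⟩ := word_smap (F := F) D hD l
      rw [hε.f_neg _ h6.1] at h7
      exact pos_ne_neg D hD _ _ h5 h7 rfl
  have hvH := jword_diag (F := F) D hD J v hv hvp
  have e5 : (nW (F := F) D hD l)⁻¹ * nW D hD l' =
      nW D hD v * ((nW (F := F) D hD (l ++ v))⁻¹ * nW D hD l') := by
    rw [nW_append]
    group
  rw [e5]
  exact Subgroup.mul_mem _ hvH h4

/-- the stabiliser in `B` of `n_l P_J`, `l ∈ D_J`, is `B ∩ n_l B n_l⁻¹` -/
theorem dj_stab (D : ChevalleyDatum)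
    (hD : D ∈ [chevG2, chevB2, chevD4, chevF4, chevE6, chevE7, chevE8]) (J : Set ℕ)
    (l : List (Fin D.rank)) (hl : DJ D J l) (x : GL D.Idx F) (hx : x ∈ D.borelSubgroup F)
    (hp : (nW (F := F) D hD l)⁻¹ * x * nW D hD l ∈ D.parabolicSubgroup F J) :
    (nW (F := F) D hD l)⁻¹ * x * nW D hD l ∈ D.borelSubgroup F := by
  have hHB : D.diagonalSubgroup F ≤ D.borelSubgroup F := le_sup_right
  obtain ⟨y, hy, m, hm, y', hy', e⟩ := par_decomp D hD J _ hp
  obtain ⟨z, hz, z', hz', e2⟩ := dj_mul D hD J l hl m hm y hy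
  obtain ⟨h, hh, v, hv, rfl⟩ := jclosure_word D hD J m hm
  have hN := nW_mem_normalizer (F := F) D hD l
  have h' : nW (F := F) D hD l * h * (nW (F := F) D hD l)⁻¹ ∈ D.diagonalSubgroup F :=
    conj_mem_of_mem_normalizer _ hN hh
  have e4 : x * nW (F := F) D hD l = z * (nW D hD l * (h * nW D hD v)) * z' * y' := by
    calc x * nW (F := F) D hD l
        = nW D hD l * ((nW (F := F) D hD l)⁻¹ * x * nW D hD l) := by group
      _ = nW D hD l * (y * (h * nW D hD v) * y') := by rw [e]
      _ = (nW D hD l * y * (h * nW D hD v)) * y' := by group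
      _ = _ := by rw [e2]
  have e3 : nW (F := F) D hD (l ++ v) =
      ((z * (nW (F := F) D hD l * h * (nW (F := F) D hD l)⁻¹))⁻¹ * x) * nW D hD l *
        (z' * y')⁻¹ := by
    rw [nW_append]
    calc nW (F := F) D hD l * nW D hD v
        = (z * (nW (F := F) D hD l * h * (nW (F := F) D hD l)⁻¹))⁻¹ *
          (z * (nW D hD l * (h * nW D hD v)) * z' * y') * (z' * y')⁻¹ := by group
      _ = _ := by
        rw [← e4]
        group
  have h4 := bruhat_word_unique D hD l (l ++ v) _ _
    (Subgroup.mul_mem _ (Subgroup.inv_mem _ (Subgroup.mul_mem _ hz (hHB h'))) hx)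
    (Subgroup.inv_mem _ (Subgroup.mul_mem _ hz' hy')) e3
  have hvH : nW (F := F) D hD v ∈ D.diagonalSubgroup F := by
    have e5 : (nW (F := F) D hD l)⁻¹ * nW D hD (l ++ v) = nW D hD v := by
      rw [nW_append]
      group
    rwa [e5] at h4
  rw [e]
  exact Subgroup.mul_mem _ (Subgroup.mul_mem _ hy (hHB (Subgroup.mul_mem _ hh hvH))) hy'

/-! ### The longest element -/

theorem neg_neg_of_pos (D : ChevalleyDatum)
    (hD : D ∈ [chevG2, chevB2, chevD4, chevF4, chevE6, chevE7, chevE8]) (q : ℕ)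
    (hq : D.IsPosRoot q) : D.IsNegRoot (D.neg q) := by
  have hS := sgnOK_all D hD
  rcases hS.pos_or_neg _ (neg_lt D hD q hq.1).1 with h | h
  · exact absurd rfl (pos_ne_neg D hD q _ hq h)
  · exact h

/-- the number of positive roots made negative by a word -/
def invCount (D : ChevalleyDatum) (l : List (Fin D.rank)) : ℕ :=
  ((Finset.range D.nroots).filter (fun r => D.IsPosRoot r ∧ D.IsNegRoot (wordF D l r))).card

theorem invCount_step (D : ChevalleyDatum)
    (hD : D ∈ [chevG2, chevB2, chevD4, chevF4, chevE6, chevE7, chevE8]) (l : List (Fin D.rank))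
    (a : Fin D.rank) (hpos : D.IsPosRoot (wordF D l (D.simple a.val))) :
    invCount D l < invCount D (l ++ [a]) := by
  have hS := sgnOK_all D hD
  have hsl := simple_lt D hD a.val a.isLt
  obtain ⟨ε, hε⟩ := word_smap (F := ℚ) D hD l
  have hrefl : D.reflectRoot a.val (D.simple a.val) = D.neg (D.simple a.val) := by
    simp [ChevalleyDatum.reflectRoot]
  have hw : ∀ r, wordF D (l ++ [a]) r = wordF D l (D.reflectRoot a.val r) := fun r => by
    rw [wordF_append]
    rfl
  have hmemB : D.simple a.val ∈ (Finset.range D.nroots).filter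
      (fun r => D.IsPosRoot r ∧ D.IsNegRoot (wordF D (l ++ [a]) r)) := by
    rw [Finset.mem_filter, Finset.mem_range]
    refine ⟨hsl, hS.pos_simple a.val a.isLt, ?_⟩
    rw [hw, hrefl, hε.f_neg _ hsl]
    exact neg_neg_of_pos D hD _ hpos
  have hsub : ((Finset.range D.nroots).filter
      (fun r => D.IsPosRoot r ∧ D.IsNegRoot (wordF D l r))).image (D.reflectRoot a.val) ⊆
      ((Finset.range D.nroots).filter
        (fun r => D.IsPosRoot r ∧ D.IsNegRoot (wordF D (l ++ [a]) r))).erase (D.simple a.val) := by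
    intro s hs
    obtain ⟨r, hr, rfl⟩ := Finset.mem_image.mp hs
    rw [Finset.mem_filter, Finset.mem_range] at hr
    obtain ⟨hrlt, hrpos, hrneg⟩ := hr
    have hne : r ≠ D.simple a.val := by
      rintro rfl
      exact hS.not_both _ ⟨hpos, hrneg⟩
    have hp := reflect_pos D hD a r hrpos hne
    rw [Finset.mem_erase, Finset.mem_filter, Finset.mem_range]
    refine ⟨?_, hp.1, hp, ?_⟩
    · intro e
      have e2 := congrArg (D.reflectRoot a.val) e
      rw [reflectRoot_invol D hD a r hrlt, hrefl] at e2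
      rw [e2] at hrpos
      exact hS.not_both _ ⟨hrpos, hS.neg_simple a.val a.isLt⟩
    · rw [hw, reflectRoot_invol D hD a r hrlt]
      exact hrneg
  have hinj : Set.InjOn (D.reflectRoot a.val) (((Finset.range D.nroots).filter
      (fun r => D.IsPosRoot r ∧ D.IsNegRoot (wordF D l r)) : Finset ℕ) : Set ℕ) := by
    intro r hr s hs e
    have hr' := Finset.mem_filter.mp (Finset.mem_coe.mp hr)
    have hs' := Finset.mem_filter.mp (Finset.mem_coe.mp hs)
    have := congrArg (D.reflectRoot a.val) e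
    rwa [reflectRoot_invol D hD a r (Finset.mem_range.mp hr'.1),
      reflectRoot_invol D hD a s (Finset.mem_range.mp hs'.1)] at this
  have h1 := Finset.card_le_card hsub
  rw [Finset.card_image_of_injOn hinj, Finset.card_erase_of_mem hmemB] at h1
  have h2 := Finset.card_pos.mpr ⟨_, hmemB⟩
  unfold invCount
  omega

/-- there is a word mapping all fundamental roots to negative roots -/
theorem exists_long (D : ChevalleyDatum)
    (hD : D ∈ [chevG2, chevB2, chevD4, chevF4, chevE6, chevE7, chevE8]) :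
    ∃ l0 : List (Fin D.rank), ∀ i : Fin D.rank, D.IsNegRoot (wordF D l0 (D.simple i.val)) := by
  classical
  have hS := sgnOK_all D hD
  have hbd : ∀ l, invCount D l ≤ D.nroots := by
    intro l
    unfold invCount
    exact (Finset.card_filter_le _ _).trans (by simp)
  have h0 : (fun k => ∃ l : List (Fin D.rank), invCount D l = k) (invCount D []) := ⟨[], rfl⟩
  obtain ⟨l0, hl0⟩ := Nat.findGreatest_spec
    (P := fun k => ∃ l : List (Fin D.rank), invCount D l = k) (hbd []) h0
  refine ⟨l0, fun i => ?_⟩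
  rcases hS.pos_or_neg _ (wordF_lt D hD l0 _ (simple_lt D hD i.val i.isLt)) with h | h
  · exfalso
    have h1 := invCount_step D hD l0 i h
    have h2 := Nat.le_findGreatest
      (P := fun k => ∃ l : List (Fin D.rank), invCount D l = k) (hbd (l0 ++ [i])) ⟨_, rfl⟩
    omega
  · exact h

theorem rev_mul_mem_diag (D : ChevalleyDatum)
    (hD : D ∈ [chevG2, chevB2, chevD4, chevF4, chevE6, chevE7, chevE8]) (l : List (Fin D.rank)) :
    nW (F := F) D hD l.reverse * nW D hD l ∈ D.diagonalSubgroup F := by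
  have hS := sgnOK_all D hD
  rw [← nW_append]
  apply word_mem_diag_of_simple_pos D hD hS _ _ rfl
  intro i
  rw [wordF_append, wordF_reverse_cancel D hD l _ (simple_lt D hD i.val i.isLt)]
  exact hS.pos_simple i.val i.isLt

/-- two longest words agree modulo `H` -/
theorem long_unique (D : ChevalleyDatum)
    (hD : D ∈ [chevG2, chevB2, chevD4, chevF4, chevE6, chevE7, chevE8]) (l l' : List (Fin D.rank))
    (hl : ∀ i : Fin D.rank, D.IsNegRoot (wordF D l (D.simple i.val)))
    (hl' : ∀ i : Fin D.rank, D.IsNegRoot (wordF D l' (D.simple i.val))) :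
    (nW (F := F) D hD l)⁻¹ * nW D hD l' ∈ D.diagonalSubgroup F := by
  have hS := sgnOK_all D hD
  have h1 : nW (F := F) D hD (l.reverse ++ l') ∈ D.diagonalSubgroup F := by
    apply word_mem_diag_of_simple_pos D hD hS _ _ rfl
    intro i
    rw [wordF_append]
    have hs' := hl' i
    rcases hS.pos_or_neg _ (wordF_lt D hD l.reverse _ hs'.1) with h | h
    · exact h
    · exfalso
      have h2 := word_neg_of_simple D hD l hl _ (pos_neg_of_neg D hD _ h)
      obtain ⟨ε, hε⟩ := word_smap (F := F) D hD l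
      rw [hε.f_neg _ h.1] at h2
      have h3 : wordF D l (wordF D l.reverse (wordF D l' (D.simple i.val))) =
          wordF D l' (D.simple i.val) := by
        have := wordF_reverse_cancel D hD l.reverse _ hs'.1
        rwa [List.reverse_reverse] at this
      rw [h3] at h2
      exact hS.not_both _ ⟨pos_neg_of_neg D hD _ hs', h2⟩
  have h2 := rev_mul_mem_diag (F := F) D hD l
  rw [nW_append] at h1
  have e : (nW (F := F) D hD l)⁻¹ * nW D hD l' =
      (nW (F := F) D hD l.reverse * nW D hD l)⁻¹ *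
        (nW (F := F) D hD l.reverse * nW D hD l') := by group
  rw [e]
  exact Subgroup.mul_mem _ (Subgroup.inv_mem _ h2) h1

/-- `B ∩ n₀ B n₀⁻¹ = H` for the longest element -/
theorem long_stab (D : ChevalleyDatum)
    (hD : D ∈ [chevG2, chevB2, chevD4, chevF4, chevE6, chevE7, chevE8]) (l : List (Fin D.rank))
    (hl : ∀ i : Fin D.rank, D.IsNegRoot (wordF D l (D.simple i.val))) (x : GL D.Idx F)
    (hx : x ∈ D.borelSubgroup F) :
    (nW (F := F) D hD l)⁻¹ * x * nW D hD l ∈ D.borelSubgroup F ↔ x ∈ D.diagonalSubgroup F := by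
  have hS := sgnOK_all D hD
  have hHB : D.diagonalSubgroup F ≤ D.borelSubgroup F := le_sup_right
  have hN := nW_mem_normalizer (F := F) D hD l
  have hNi : (nW (F := F) D hD l)⁻¹ ∈
      Subgroup.normalizer (D.diagonalSubgroup F : Set (GL D.Idx F)) := Subgroup.inv_mem _ hN
  constructor
  · intro hb
    obtain ⟨y, hy, h, hh, rfl⟩ := exists_mul_of_mem_sup _ _
      (diagonalSubgroup_le_normalizer_posUnipotent (F := F) D hD) x hx
    have h1 : (nW (F := F) D hD l)⁻¹ * h⁻¹ * (nW (F := F) D hD l)⁻¹⁻¹ ∈ D.diagonalSubgroup F :=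
      conj_mem_of_mem_normalizer _ hNi (Subgroup.inv_mem _ hh)
    have h2 : (nW (F := F) D hD l)⁻¹ * y * (nW (F := F) D hD l)⁻¹⁻¹ ∈ D.borelSubgroup F := by
      have e : (nW (F := F) D hD l)⁻¹ * y * (nW (F := F) D hD l)⁻¹⁻¹ =
          ((nW (F := F) D hD l)⁻¹ * (y * h) * nW D hD l) *
            ((nW (F := F) D hD l)⁻¹ * h⁻¹ * (nW (F := F) D hD l)⁻¹⁻¹) := by group
      rw [e]
      exact Subgroup.mul_mem _ hb (hHB h1)
    have h3 := rev_mul_mem_diag (F := F) D hD l
    have h4 : ∀ v ∈ D.posUnipotent F,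
        (nW (F := F) D hD l)⁻¹ * v * (nW (F := F) D hD l)⁻¹⁻¹ ∈ D.negUnipotent F := by
      refine conj_mem_closure _ _ _ ?_
      rintro w ⟨r, t, hr, hw⟩
      rw [eq_xU D hD r t w hw]
      obtain ⟨t', e1⟩ := nW_conj_xU D hD l.reverse r hr.1 t
      have hlt := wordF_lt D hD l.reverse r hr.1
      obtain ⟨t'', e2⟩ := diag_conjU D hD _ (Subgroup.inv_mem _ h3) (wordF D l.reverse r) hlt t'
      have hneg : D.IsNegRoot (wordF D l.reverse r) := by
        rcases hS.pos_or_neg _ hlt with h5 | h5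
        · exfalso
          have h6 := word_neg_of_simple D hD l hl _ h5
          have h7 := wordF_reverse_cancel D hD l.reverse r hr.1
          rw [List.reverse_reverse] at h7
          rw [h7] at h6
          exact hS.not_both _ ⟨hr, h6⟩
        · exact h5
      have e3 : (nW (F := F) D hD l)⁻¹ * xU D hD r t * (nW (F := F) D hD l)⁻¹⁻¹ =
          xU D hD (wordF D l.reverse r) t'' := by
        calc (nW (F := F) D hD l)⁻¹ * xU D hD r t * (nW (F := F) D hD l)⁻¹⁻¹
            = (nW (F := F) D hD l.reverse * nW D hD l)⁻¹ *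
              (nW (F := F) D hD l.reverse * xU D hD r t * (nW (F := F) D hD l.reverse)⁻¹) *
              (nW (F := F) D hD l.reverse * nW D hD l) := by group
          _ = ((nW (F := F) D hD l.reverse * nW D hD l)⁻¹ * xU D hD (wordF D l.reverse r) t') *
              (nW (F := F) D hD l.reverse * nW D hD l) := by rw [e1, mul_assoc]
          _ = xU D hD (wordF D l.reverse r) t'' := by
            rw [e2]
            group
      rw [e3]
      exact Subgroup.subset_closure ⟨_, t'', hneg, coe_xU D hD _ _⟩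
    have h5 : (nW (F := F) D hD l)⁻¹ * y * (nW (F := F) D hD l)⁻¹⁻¹ ∈
        D.borelSubgroup F ⊓ D.negUnipotent F := ⟨h2, h4 y hy⟩
    rw [(Cfsg.Agent.S1037.result (F := F) D hD).1, Subgroup.mem_bot] at h5
    have h6 : y = 1 := by
      have e : y = nW (F := F) D hD l *
          ((nW (F := F) D hD l)⁻¹ * y * (nW (F := F) D hD l)⁻¹⁻¹) * (nW (F := F) D hD l)⁻¹ := by
        group
      rw [e, h5]
      group
    rw [h6, one_mul]
    exact hh
  · intro hh
    have := conj_mem_of_mem_normalizer _ hNi hh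
    rw [inv_inv] at this
    exact hHB this

end Cfsg.Agent.Lib.Helper36
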