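import Cfsg.Agent.Lib.Helper36.StbC
import Cfsg.Agent.Lib.Helper25.Stb.Orb
import Cfsg.Agent.Lib.Helper25.Stb.Alt
import Cfsg.Prelude.Def_ParabolicCharacters

/-!
# The Steinberg character restricted to `B`
-/

set_option autoImplicit false

namespace Cfsg.Agent.Lib.Helper36

open Cfsg Cfsg.Lie Cfsg.Agent.Lib.Helper18

universe u

variable {F : Type u} [Field F]

/-- the `(B, B)`-double coset of `g` -/
def dcs (D : ChevalleyDatum) (F : Type u) [Field F] (g : GL D.Idx F) : Set (GL D.Idx F) :=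
  {y | ∃ b₁ ∈ D.borelSubgroup F, ∃ b₂ ∈ D.borelSubgroup F, y = b₁ * g * b₂}

theorem dcs_eq (D : ChevalleyDatum) (g g' : GL D.Idx F) (h : g' ∈ dcs D F g) :
    dcs D F g' = dcs D F g := by
  obtain ⟨c₁, hc₁, c₂, hc₂, rfl⟩ := h
  ext y
  constructor
  · rintro ⟨b₁, hb₁, b₂, hb₂, rfl⟩
    exact ⟨b₁ * c₁, Subgroup.mul_mem _ hb₁ hc₁, c₂ * b₂, Subgroup.mul_mem _ hc₂ hb₂, by group⟩
  · rintro ⟨b₁, hb₁, b₂, hb₂, rfl⟩
    exact ⟨b₁ * c₁⁻¹, Subgroup.mul_mem _ hb₁ (Subgroup.inv_mem _ hc₁), c₂⁻¹ * b₂,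
      Subgroup.mul_mem _ (Subgroup.inv_mem _ hc₂) hb₂, by group⟩

open Classical in
/-- a representative word of a `(B, B)`-double coset -/
noncomputable def repW (D : ChevalleyDatum)
    (hD : D ∈ [chevG2, chevB2, chevD4, chevF4, chevE6, chevE7, chevE8]) (C : Set (GL D.Idx F)) :
    List (Fin D.rank) :=
  if h : ∃ l : List (Fin D.rank), nW (F := F) D hD l ∈ C then Classical.choose h else []

theorem repW_spec (D : ChevalleyDatum)
    (hD : D ∈ [chevG2, chevB2, chevD4, chevF4, chevE6, chevE7, chevE8]) (g : GL D.Idx F)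
    (hg : g ∈ D.group F) : nW (F := F) D hD (repW D hD (dcs D F g)) ∈ dcs D F g := by
  have h : ∃ l : List (Fin D.rank), nW (F := F) D hD l ∈ dcs D F g := by
    obtain ⟨b₁, hb₁, l, b₂, hb₂, e⟩ := bruhat_word D hD g hg
    refine ⟨l, b₁⁻¹, Subgroup.inv_mem _ hb₁, b₂⁻¹, Subgroup.inv_mem _ hb₂, ?_⟩
    rw [e]
    group
  unfold repW
  rw [dif_pos h]
  exact Classical.choose_spec h

/-- the set of representative words -/
def wSet (D : ChevalleyDatum)
    (hD : D ∈ [chevG2, chevB2, chevD4, chevF4, chevE6, chevE7, chevE8]) (F : Type u) [Field F] :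
    Set (List (Fin D.rank)) :=
  Set.range (fun g : ↥(D.group F) => repW (F := F) D hD (dcs D F (g : GL D.Idx F)))

theorem wSet_exists (D : ChevalleyDatum)
    (hD : D ∈ [chevG2, chevB2, chevD4, chevF4, chevE6, chevE7, chevE8]) (g : GL D.Idx F)
    (hg : g ∈ D.group F) : ∃ l ∈ wSet D hD F, nW (F := F) D hD l ∈ dcs D F g :=
  ⟨_, ⟨⟨g, hg⟩, rfl⟩, repW_spec D hD g hg⟩

theorem wSet_unique (D : ChevalleyDatum)
    (hD : D ∈ [chevG2, chevB2, chevD4, chevF4, chevE6, chevE7, chevE8]) (l l' : List (Fin D.rank))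
    (hl : l ∈ wSet D hD F) (hl' : l' ∈ wSet D hD F)
    (h : (nW (F := F) D hD l)⁻¹ * nW D hD l' ∈ D.diagonalSubgroup F) : l = l' := by
  obtain ⟨g, rfl⟩ := hl
  obtain ⟨g', rfl⟩ := hl'
  have e1 := dcs_eq D _ _ (repW_spec D hD g.1 g.2)
  have e2 := dcs_eq D _ _ (repW_spec D hD g'.1 g'.2)
  have h3 : nW (F := F) D hD (repW D hD (dcs D F g'.1)) ∈
      dcs D F (nW (F := F) D hD (repW D hD (dcs D F g.1))) :=
    ⟨1, Subgroup.one_mem _, _, (le_sup_right : D.diagonalSubgroup F ≤ D.borelSubgroup F) h,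
      by group⟩
  have e3 := dcs_eq D _ _ h3
  have e4 : dcs D F g.1 = dcs D F g'.1 := e1.symm.trans (e3.symm.trans e2)
  show repW D hD (dcs D F g.1) = repW D hD (dcs D F g'.1)
  rw [e4]

/-- the Steinberg character restricted to `B` is the permutation character on `B / H` -/
theorem steinberg_restrict [Fintype F] (D : ChevalleyDatum)
    (hD : D ∈ [chevG2, chevB2, chevD4, chevF4, chevE6, chevE7, chevE8])
    (b : ↥((D.borelSubgroup F).subgroupOf (D.group F))) :
    D.steinbergCharacter F ((((D.borelSubgroup F).subgroupOf (D.group F)).subtype) b) =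
      Cfsg.fixedPointCharacter (((D.diagonalSubgroup F).subgroupOf (D.group F)).subgroupOf
        ((D.borelSubgroup F).subgroupOf (D.group F))) b := by
  have hS := sgnOK_all D hD
  have hBG : D.borelSubgroup F ≤ D.group F := borelSubgroup_le_group D hD
  have hHB : D.diagonalSubgroup F ≤ D.borelSubgroup F := le_sup_right
  haveI : Finite ↥(D.group F) := inferInstance
  obtain ⟨W, hW⟩ : ∃ W : Finset (List (Fin D.rank)), ∀ l, l ∈ W ↔ l ∈ wSet D hD F :=
    ⟨(Set.finite_range (fun g : ↥(D.group F) =>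
      repW (F := F) D hD (dcs D F (g : GL D.Idx F)))).toFinset, fun l => Set.Finite.mem_toFinset _⟩
  let n : List (Fin D.rank) → ↥(D.group F) := fun l => ⟨nW D hD l, nW_mem_group D hD l⟩
  let asc : List (Fin D.rank) → Finset ℕ := fun l =>
    (Finset.range D.rank).filter (fun j => D.IsPosRoot (wordF D l (D.simple j)))
  let S : List (Fin D.rank) → Subgroup ↥(D.group F) := fun l =>
    ((D.borelSubgroup F).subgroupOf (D.group F)).comap (MulAut.conj (n l)⁻¹).toMonoidHom
  have hSmem : ∀ l (x : ↥(D.group F)), x ∈ S l ↔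
      (nW (F := F) D hD l)⁻¹ * (x : GL D.Idx F) * nW D hD l ∈ D.borelSubgroup F := by
    intro l x
    show (n l)⁻¹ * x * (n l)⁻¹⁻¹ ∈ (D.borelSubgroup F).subgroupOf (D.group F) ↔ _
    rw [inv_inv, Subgroup.mem_subgroupOf]
    rfl
  have hasc : ∀ (J : Finset ℕ), J ⊆ Finset.range D.rank → ∀ l,
      (J ⊆ asc l ↔ DJ D (↑J : Set ℕ) l) := by
    intro J hJ l
    constructor
    · intro h j hj _
      exact (Finset.mem_filter.mp (h hj)).2
    · intro h j hj
      exact Finset.mem_filter.mpr ⟨hJ hj, h j hj (Finset.mem_range.mp (hJ hj))⟩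
  have horb : ∀ J ∈ (Finset.range D.rank).powerset,
      (Nat.card ↥(MulAction.fixedBy (↥(D.group F) ⧸ D.parabolicIn F J) (b : ↥(D.group F)))) =
        ∑ l ∈ W.filter (fun l => J ⊆ asc l),
          Nat.card ↥(MulAction.fixedBy (↥((D.borelSubgroup F).subgroupOf (D.group F)) ⧸
            (S l).subgroupOf ((D.borelSubgroup F).subgroupOf (D.group F))) b) := by
    intro J hJ
    have hJ' := Finset.mem_powerset.mp hJ
    have hBP : D.borelSubgroup F ≤ D.parabolicSubgroup F (↑J : Set ℕ) := le_sup_left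
    apply Cfsg.Agent.Lib.Helper25.Stb.pkgOrb ((D.borelSubgroup F).subgroupOf (D.group F))
      (D.parabolicIn F J) (W.filter (fun l => J ⊆ asc l)) n S
    · intro g
      obtain ⟨b₁, hb₁, l₁, b₂, hb₂, e⟩ := bruhat_word D hD g.1 g.2
      obtain ⟨l', hl', x, hx, p, hp, e'⟩ := dj_exists D hD (↑J : Set ℕ) _ l₁ rfl g.1
        ⟨b₁, hb₁, b₂, hBP hb₂, e⟩
      obtain ⟨ls, hls, c₁, hc₁, c₂, hc₂, e''⟩ := wSet_exists D hD (nW (F := F) D hD l')
        (nW_mem_group D hD l')
      have hH := bruhat_word_unique D hD l' ls c₁ c₂ hc₁ hc₂ e''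
      have hdj : DJ D (↑J : Set ℕ) ls := fun j hj hjr =>
        wd_pos D hD l' ls hH _ (simple_lt D hD j hjr) (hl' j hj hjr)
      have hkP : ((nW (F := F) D hD l')⁻¹ * nW D hD ls)⁻¹ * p ∈
          D.parabolicSubgroup F (↑J : Set ℕ) :=
        Subgroup.mul_mem _ (Subgroup.inv_mem _ (hBP (hHB hH))) hp
      refine ⟨ls, Finset.mem_filter.mpr ⟨(hW ls).mpr hls, (hasc J hJ' ls).mpr hdj⟩,
        ⟨x, hBG hx⟩, Subgroup.mem_subgroupOf.mpr hx,
        ⟨((nW (F := F) D hD l')⁻¹ * nW D hD ls)⁻¹ * p, parabolic_le_group D hD _ hkP⟩, ?_, ?_⟩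
      · show _ ∈ (D.parabolicSubgroup F (↑J : Set ℕ)).subgroupOf (D.group F)
        rw [Subgroup.mem_subgroupOf]
        exact hkP
      · apply Subtype.ext
        show (g : GL D.Idx F) = x * nW D hD ls * (((nW (F := F) D hD l')⁻¹ * nW D hD ls)⁻¹ * p)
        rw [e']
        group
    · rintro l hl l' hl' ⟨x, hx, k, hk, e⟩
      rw [Finset.mem_filter] at hl hl'
      have hk' : (k : GL D.Idx F) ∈ D.parabolicSubgroup F (↑J : Set ℕ) :=
        Subgroup.mem_subgroupOf.mp hk
      have h1 := dj_unique D hD (↑J : Set ℕ) l l' ((hasc J hJ' l).mp hl.2)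
        ((hasc J hJ' l').mp hl'.2) x.1 k.1 (Subgroup.mem_subgroupOf.mp hx) hk'
        (congrArg Subtype.val e)
      exact wSet_unique D hD l l' ((hW l).mp hl.1) ((hW l').mp hl'.1) h1
    · intro l hl x hx
      rw [Finset.mem_filter] at hl
      rw [hSmem]
      constructor
      · intro h
        have h' : (nW (F := F) D hD l)⁻¹ * (x : GL D.Idx F) * nW D hD l ∈
            D.parabolicSubgroup F (↑J : Set ℕ) := Subgroup.mem_subgroupOf.mp h
        exact dj_stab D hD (↑J : Set ℕ) l ((hasc J hJ' l).mp hl.2) x.1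
          (Subgroup.mem_subgroupOf.mp hx) h'
      · intro h
        show _ ∈ (D.parabolicSubgroup F (↑J : Set ℕ)).subgroupOf (D.group F)
        rw [Subgroup.mem_subgroupOf]
        exact hBP h
  obtain ⟨l0, hl0⟩ := exists_long D hD
  obtain ⟨w0, hw0, c₁, hc₁, c₂, hc₂, e0⟩ := wSet_exists D hD (nW (F := F) D hD l0)
    (nW_mem_group D hD l0)
  have hH0 := bruhat_word_unique D hD l0 w0 c₁ c₂ hc₁ hc₂ e0
  have hw0neg : ∀ i : Fin D.rank, D.IsNegRoot (wordF D w0 (D.simple i.val)) := fun i =>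
    wd_neg D hD l0 w0 hH0 _ (simple_lt D hD i.val i.isLt) (hl0 i)
  have halt := Cfsg.Agent.Lib.Helper25.Stb.pkgAlt W (Finset.range D.rank) asc
    (fun l => (Nat.card ↥(MulAction.fixedBy (↥((D.borelSubgroup F).subgroupOf (D.group F)) ⧸
      (S l).subgroupOf ((D.borelSubgroup F).subgroupOf (D.group F))) b) : ℂ)) w0
    ((hW w0).mpr hw0) (fun w _ => Finset.filter_subset _ _)
    (by
      intro w hw hasc0
      have hneg : ∀ i : Fin D.rank, D.IsNegRoot (wordF D w (D.simple i.val)) := by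
        intro i
        rcases hS.pos_or_neg _ (wordF_lt D hD w _ (simple_lt D hD i.val i.isLt)) with h | h
        · exfalso
          have hmem : i.val ∈ asc w := Finset.mem_filter.mpr ⟨Finset.mem_range.mpr i.isLt, h⟩
          rw [hasc0] at hmem
          exact absurd hmem (Finset.notMem_empty _)
        · exact h
      exact wSet_unique D hD w w0 ((hW w).mp hw) hw0 (long_unique D hD w w0 hneg hw0neg))
    (by
      apply Finset.filter_eq_empty_iff.mpr
      intro j hj hpos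
      exact hS.not_both _ ⟨hpos, hw0neg ⟨j, Finset.mem_range.mp hj⟩⟩)
  have hSw0 : (S w0).subgroupOf ((D.borelSubgroup F).subgroupOf (D.group F)) =
      ((D.diagonalSubgroup F).subgroupOf (D.group F)).subgroupOf
        ((D.borelSubgroup F).subgroupOf (D.group F)) := by
    ext x
    rw [Subgroup.mem_subgroupOf, Subgroup.mem_subgroupOf, hSmem, Subgroup.mem_subgroupOf]
    exact long_stab D hD w0 hw0neg _ (Subgroup.mem_subgroupOf.mp x.2)
  unfold ChevalleyDatum.steinbergCharacter Cfsg.fixedPointCharacter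
  rw [← hSw0, ← halt]
  apply Finset.sum_congr rfl
  intro J hJ
  congr 1
  have hb : (((D.borelSubgroup F).subgroupOf (D.group F)).subtype) b = (b : ↥(D.group F)) := rfl
  rw [hb, horb J hJ]
  push_cast
  rfl

end Cfsg.Agent.Lib.Helper36
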