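import Cfsg.Agent.Lib.Helper36.StbD
import Cfsg.Agent.S1040

/-!
# The degree of the Steinberg character
-/

set_option autoImplicit false

namespace Cfsg.Agent.Lib.Helper36

open Cfsg Cfsg.Lie Cfsg.Agent.Lib.Helper18

universe u

variable {F : Type u} [Field F]

/-- `|B : H| = |U|` -/
theorem card_borel_quot (D : ChevalleyDatum)
    (hD : D ∈ [chevG2, chevB2, chevD4, chevF4, chevE6, chevE7, chevE8]) :
    Nat.card (↥((D.borelSubgroup F).subgroupOf (D.group F)) ⧸
      ((D.diagonalSubgroup F).subgroupOf (D.group F)).subgroupOf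
        ((D.borelSubgroup F).subgroupOf (D.group F))) = Nat.card ↥(D.posUnipotent F) := by
  have hBG : D.borelSubgroup F ≤ D.group F := borelSubgroup_le_group D hD
  have hUB : D.posUnipotent F ≤ D.borelSubgroup F := le_sup_left
  have hHN : D.diagonalSubgroup F ≤ D.monomialSubgroup F := le_sup_left
  have hbot := (Cfsg.Agent.S1040.result (F := F) D hD).1
  symm
  apply Nat.card_congr
  refine Equiv.ofBijective (fun x : ↥(D.posUnipotent F) =>
    (QuotientGroup.mk (⟨⟨x.1, hBG (hUB x.2)⟩, Subgroup.mem_subgroupOf.mpr (hUB x.2)⟩ :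
      ↥((D.borelSubgroup F).subgroupOf (D.group F))) :
      ↥((D.borelSubgroup F).subgroupOf (D.group F)) ⧸
      ((D.diagonalSubgroup F).subgroupOf (D.group F)).subgroupOf
        ((D.borelSubgroup F).subgroupOf (D.group F)))) ⟨?_, ?_⟩
  · intro x y hxy
    have h1 := QuotientGroup.eq.mp hxy
    rw [Subgroup.mem_subgroupOf, Subgroup.mem_subgroupOf] at h1
    have h2 : (x.1)⁻¹ * y.1 ∈ D.diagonalSubgroup F := h1
    have h3 : (x.1)⁻¹ * y.1 ∈ D.posUnipotent F ⊓ D.monomialSubgroup F :=
      ⟨Subgroup.mul_mem _ (Subgroup.inv_mem _ x.2) y.2, hHN h2⟩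
    rw [hbot, Subgroup.mem_bot] at h3
    apply Subtype.ext
    exact inv_mul_eq_one.mp h3
  · intro q
    induction q using QuotientGroup.induction_on with
    | H z =>
      have hz : (z.1.1 : GL D.Idx F) ∈ D.borelSubgroup F := Subgroup.mem_subgroupOf.mp z.2
      obtain ⟨y, hy, h, hh, e⟩ := exists_mul_of_mem_sup _ _
        (diagonalSubgroup_le_normalizer_posUnipotent (F := F) D hD) _ hz
      refine ⟨⟨y, hy⟩, ?_⟩
      apply QuotientGroup.eq.mpr
      rw [Subgroup.mem_subgroupOf, Subgroup.mem_subgroupOf]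
      show y⁻¹ * z.1.1 ∈ D.diagonalSubgroup F
      rw [e]
      have : y⁻¹ * (y * h) = h := by group
      rw [this]
      exact hh

/-- the degree of the Steinberg character -/
theorem steinberg_degree [Fintype F] (D : ChevalleyDatum)
    (hD : D ∈ [chevG2, chevB2, chevD4, chevF4, chevE6, chevE7, chevE8]) :
    D.steinbergCharacter F 1 = (Fintype.card F : ℂ) ^ (D.nroots / 2) := by
  have h := steinberg_restrict D hD (1 : ↥((D.borelSubgroup F).subgroupOf (D.group F)))
  rw [map_one] at h
  rw [h]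
  unfold Cfsg.fixedPointCharacter
  rw [MulAction.fixedBy_one_eq_univ, Nat.card_congr (Equiv.Set.univ _), card_borel_quot D hD,
    Cfsg.Agent.Lib.Helper17.card_posUnipotent D hD]
  push_cast
  rfl

end Cfsg.Agent.Lib.Helper36
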