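import Cfsg.Agent.Lib.Helper36.StbC

/-!
# Double coset representatives for pairs of standard parabolic subgroups
-/

set_option autoImplicit false

namespace Cfsg.Agent.Lib.Helper36

open Cfsg Cfsg.Lie Cfsg.Agent.Lib.Helper18

universe u

variable {F : Type u} [Field F]

theorem nW_cons (D : ChevalleyDatum)
    (hD : D ∈ [chevG2, chevB2, chevD4, chevF4, chevE6, chevE7, chevE8]) (a : Fin D.rank)
    (l : List (Fin D.rank)) : nW (F := F) D hD (a :: l) = nU D hD a * nW D hD l := by
  simp [nW]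

theorem wordF_cons (D : ChevalleyDatum) (a : Fin D.rank) (l : List (Fin D.rank)) (s : ℕ) :
    wordF D (a :: l) s = D.reflectRoot a.val (wordF D l s) := rfl

theorem reflect_simple (D : ChevalleyDatum) (j : ℕ) :
    D.reflectRoot j (D.simple j) = D.neg (D.simple j) := by
  simp [ChevalleyDatum.reflectRoot]

/-- the axiom `n_a B n ⊆ B n_a n B ∪ B n B` for words -/
theorem t3_word (D : ChevalleyDatum)
    (hD : D ∈ [chevG2, chevB2, chevD4, chevF4, chevE6, chevE7, chevE8]) (a : Fin D.rank)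
    (l : List (Fin D.rank)) (b : GL D.Idx F) (hb : b ∈ D.borelSubgroup F) :
    (∃ x ∈ D.borelSubgroup F, ∃ y ∈ D.borelSubgroup F,
      nU D hD a * b * nW D hD l = x * nW D hD (a :: l) * y) ∨
    (∃ x ∈ D.borelSubgroup F, ∃ y ∈ D.borelSubgroup F,
      nU D hD a * b * nW D hD l = x * nW D hD l * y) := by
  obtain ⟨P, hPB, hPN, hPS⟩ := exists_bnpair (F := F) D hD
  have hBG : D.borelSubgroup F ≤ D.group F := borelSubgroup_le_group D hD
  have hs : (⟨nU D hD a, nU_mem_group D hD a⟩ : ↥(D.group F)) ∈ P.S := by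
    rw [hPS]
    exact ⟨a.val, a.isLt, coe_nU D hD a⟩
  have hn : (⟨nW D hD l, nW_mem_group D hD l⟩ : ↥(D.group F)) ∈ P.N := by
    rw [hPN, Subgroup.mem_subgroupOf]
    exact nW_mem_monomial D hD l
  have hb' : (⟨b, hBG hb⟩ : ↥(D.group F)) ∈ P.B := by
    rw [hPB, Subgroup.mem_subgroupOf]
    exact hb
  rcases P.mul_mem_union _ hs _ hn _ hb' with h | h
  · left
    obtain ⟨x, hx, y, hy, e⟩ := DoubleCoset.mem_doubleCoset.mp h
    have hx' : x ∈ P.B := hx
    have hy' : y ∈ P.B := hy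
    rw [hPB, Subgroup.mem_subgroupOf] at hx' hy'
    refine ⟨x.val, hx', y.val, hy', ?_⟩
    rw [nW_cons]
    exact congrArg Subtype.val e
  · right
    obtain ⟨x, hx, y, hy, e⟩ := DoubleCoset.mem_doubleCoset.mp h
    have hx' : x ∈ P.B := hx
    have hy' : y ∈ P.B := hy
    rw [hPB, Subgroup.mem_subgroupOf] at hx' hy'
    exact ⟨x.val, hx', y.val, hy', congrArg Subtype.val e⟩

theorem nU_mem_par (D : ChevalleyDatum)
    (hD : D ∈ [chevG2, chevB2, chevD4, chevF4, chevE6, chevE7, chevE8]) (J : Set ℕ)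
    (a : Fin D.rank) (ha : a.val ∈ J) : nU (F := F) D hD a ∈ D.parabolicSubgroup F J := by
  rw [parabolic_eq_jGen]
  exact (le_sup_right : Subgroup.closure (jGen D F J) ≤ _)
    (Subgroup.subset_closure (nU_mem_jGen D hD J a ha))

/-- a `J`-word lies in `P_J` -/
theorem jword_mem_par (D : ChevalleyDatum)
    (hD : D ∈ [chevG2, chevB2, chevD4, chevF4, chevE6, chevE7, chevE8]) (J : Set ℕ)
    (v : List (Fin D.rank)) (hv : ∀ a ∈ v, a.val ∈ J) :
    nW (F := F) D hD v ∈ D.parabolicSubgroup F J := by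
  induction v with
  | nil => simp [nW]
  | cons a v ih =>
    rw [nW_cons]
    exact Subgroup.mul_mem _ (nU_mem_par D hD J a (hv a List.mem_cons_self))
      (ih (fun b hb => hv b (List.mem_cons_of_mem _ hb)))

/-- the root subgroups of `±α_k`, `k ∈ K`, lie in `P_K` -/
theorem xU_simple_mem_par (D : ChevalleyDatum)
    (hD : D ∈ [chevG2, chevB2, chevD4, chevF4, chevE6, chevE7, chevE8]) (K : Set ℕ)
    (k : Fin D.rank) (t : F) : xU D hD (D.simple k.val) t ∈ D.parabolicSubgroup F K :=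
  (le_sup_left : D.borelSubgroup F ≤ D.parabolicSubgroup F K)
    (xU_mem_borel D hD _ ((sgnOK_all D hD).pos_simple k.val k.isLt) t)

theorem xU_neg_simple_mem_par (D : ChevalleyDatum)
    (hD : D ∈ [chevG2, chevB2, chevD4, chevF4, chevE6, chevE7, chevE8]) (K : Set ℕ)
    (k : Fin D.rank) (hk : k.val ∈ K) (t : F) :
    xU D hD (D.neg (D.simple k.val)) t ∈ D.parabolicSubgroup F K := by
  have hsl := simple_lt D hD k.val k.isLt
  obtain ⟨t', e⟩ := nU_inv_conj D hD k (D.neg (D.simple k.val)) (neg_lt D hD _ hsl).1 t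
  have h3 : D.reflectRoot k.val (D.neg (D.simple k.val)) = D.simple k.val := by
    rw [← reflect_simple, reflectRoot_invol D hD k _ hsl]
  rw [h3] at e
  have hn := nU_mem_par (F := F) D hD K k hk
  have e2 : xU D hD (D.neg (D.simple k.val)) t =
      nU D hD k * ((nU D hD k)⁻¹ * xU D hD (D.neg (D.simple k.val)) t * (nU D hD k)⁻¹⁻¹) *
        (nU D hD k)⁻¹ := by group
  rw [e2, e]
  exact Subgroup.mul_mem _ (Subgroup.mul_mem _ hn (xU_simple_mem_par D hD K k t'))
    (Subgroup.inv_mem _ hn)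

/-- conjugation of a root element by the inverse of a word -/
theorem nW_inv_conj_xU (D : ChevalleyDatum)
    (hD : D ∈ [chevG2, chevB2, chevD4, chevF4, chevE6, chevE7, chevE8]) (l : List (Fin D.rank))
    (r : ℕ) (hr : r < D.nroots) (t : F) :
    ∃ t' : F, (nW D hD l)⁻¹ * xU D hD r t * nW D hD l = xU D hD (wordF D l.reverse r) t' := by
  have h3 := rev_mul_mem_diag (F := F) D hD l
  obtain ⟨t', e1⟩ := nW_conj_xU D hD l.reverse r hr t
  have hlt := wordF_lt D hD l.reverse r hr
  obtain ⟨t'', e2⟩ := diag_conjU D hD _ (Subgroup.inv_mem _ h3) (wordF D l.reverse r) hlt t'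
  refine ⟨t'', ?_⟩
  calc (nW (F := F) D hD l)⁻¹ * xU D hD r t * nW D hD l
      = (nW (F := F) D hD l.reverse * nW D hD l)⁻¹ *
        (nW (F := F) D hD l.reverse * xU D hD r t * (nW (F := F) D hD l.reverse)⁻¹) *
        (nW (F := F) D hD l.reverse * nW D hD l) := by group
    _ = ((nW (F := F) D hD l.reverse * nW D hD l)⁻¹ * xU D hD (wordF D l.reverse r) t') *
        (nW (F := F) D hD l.reverse * nW D hD l) := by rw [e1, mul_assoc]
    _ = xU D hD (wordF D l.reverse r) t'' := by
      rw [e2]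
      group

/-- Deodhar's lemma, first half: `n_a x` stays in `D_K` unless `x α_k = α_a` for some `k ∈ K` -/
theorem deodhar (D : ChevalleyDatum)
    (hD : D ∈ [chevG2, chevB2, chevD4, chevF4, chevE6, chevE7, chevE8]) (K : Set ℕ)
    (x : List (Fin D.rank)) (hx : DJ D K x) (a : Fin D.rank) :
    DJ D K (a :: x) ∨ ∃ k : Fin D.rank, k.val ∈ K ∧ wordF D x (D.simple k.val) = D.simple a.val := by
  by_cases h : ∃ k : Fin D.rank, k.val ∈ K ∧ wordF D x (D.simple k.val) = D.simple a.val
  · exact Or.inr h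
  · left
    push_neg at h
    intro k hk hkr
    rw [wordF_cons]
    exact reflect_pos D hD a _ (hx k hk hkr) (h ⟨k, hkr⟩ hk)

/-- Deodhar's lemma, second half: if `x α_k = α_a`, `k ∈ K`, then `n_a n_x ∈ n_x P_K` -/
theorem deodhar_par (D : ChevalleyDatum)
    (hD : D ∈ [chevG2, chevB2, chevD4, chevF4, chevE6, chevE7, chevE8]) (K : Set ℕ)
    (x : List (Fin D.rank)) (a k : Fin D.rank) (hk : k.val ∈ K)
    (e : wordF D x (D.simple k.val) = D.simple a.val) :
    ∃ p ∈ D.parabolicSubgroup F K, nU D hD a * nW D hD x = nW D hD x * p := by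
  have hsk := simple_lt D hD k.val k.isLt
  have hsa := simple_lt D hD a.val a.isLt
  have e1 : wordF D x.reverse (D.simple a.val) = D.simple k.val := by
    rw [← e, wordF_reverse_cancel D hD x _ hsk]
  obtain ⟨ε, hε⟩ := word_smap (F := F) D hD x.reverse
  have e2 : wordF D x.reverse (D.neg (D.simple a.val)) = D.neg (D.simple k.val) := by
    rw [hε.f_neg _ hsa, e1]
  obtain ⟨t₁, c₁⟩ := nW_inv_conj_xU D hD x (D.simple a.val) hsa (1 : F)
  obtain ⟨t₂, c₂⟩ := nW_inv_conj_xU D hD x (D.neg (D.simple a.val)) (neg_lt D hD _ hsa).1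
    (-1⁻¹ : F)
  rw [e1] at c₁
  rw [e2] at c₂
  refine ⟨(nW D hD x)⁻¹ * nU D hD a * nW D hD x, ?_, by group⟩
  have e3 : (nW (F := F) D hD x)⁻¹ * nU D hD a * nW D hD x =
      ((nW (F := F) D hD x)⁻¹ * xU D hD (D.simple a.val) 1 * nW D hD x) *
      ((nW (F := F) D hD x)⁻¹ * xU D hD (D.neg (D.simple a.val)) (-1⁻¹) * nW D hD x) *
      ((nW (F := F) D hD x)⁻¹ * xU D hD (D.simple a.val) 1 * nW D hD x) := by
    rw [nU_eq_xU]
    group
  rw [e3, c₁, c₂]
  exact Subgroup.mul_mem _ (Subgroup.mul_mem _ (xU_simple_mem_par D hD K k t₁)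
    (xU_neg_simple_mem_par D hD K k hk t₂)) (xU_simple_mem_par D hD K k t₁)

/-- the `W_J`-orbit of an element of `D_K`, computed inside `D_K` -/
theorem jpath (D : ChevalleyDatum)
    (hD : D ∈ [chevG2, chevB2, chevD4, chevF4, chevE6, chevE7, chevE8]) (J K : Set ℕ)
    (x : List (Fin D.rank)) (hx : DJ D K x) (u : List (Fin D.rank)) (hu : ∀ a ∈ u, a.val ∈ J) :
    ∃ u' : List (Fin D.rank), (∀ a ∈ u', a.val ∈ J) ∧ DJ D K (u' ++ x) ∧
      ∃ p ∈ D.parabolicSubgroup F K, nW D hD u * nW D hD x = nW D hD (u' ++ x) * p := by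
  induction u with
  | nil =>
    exact ⟨[], fun a ha => absurd ha (List.not_mem_nil), hx, 1, Subgroup.one_mem _, by simp [nW]⟩
  | cons a u ih =>
    obtain ⟨u', hu', hdj, p, hp, e⟩ := ih (fun b hb => hu b (List.mem_cons_of_mem _ hb))
    rcases deodhar D hD K (u' ++ x) hdj a with h | ⟨k, hk, ek⟩
    · refine ⟨a :: u', ?_, h, p, hp, ?_⟩
      · intro b hb
        rcases List.mem_cons.mp hb with rfl | hb
        · exact hu _ List.mem_cons_self
        · exact hu' b hb
      · rw [nW_cons, mul_assoc, e, List.cons_append, nW_cons, mul_assoc]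
    · obtain ⟨q, hq, e2⟩ := deodhar_par (F := F) D hD K (u' ++ x) a k hk ek
      refine ⟨u', hu', hdj, q * p, Subgroup.mul_mem _ hq hp, ?_⟩
      rw [nW_cons, mul_assoc, e, ← mul_assoc, e2, mul_assoc]

/-- `n_v B n_d ⊆ ⋃ B n_u n_d B` over the `J`-words `u`, for a `J`-word `v` -/
theorem jsweep (D : ChevalleyDatum)
    (hD : D ∈ [chevG2, chevB2, chevD4, chevF4, chevE6, chevE7, chevE8]) (J : Set ℕ)
    (d : List (Fin D.rank)) (v : List (Fin D.rank)) (hv : ∀ a ∈ v, a.val ∈ J) :
    ∀ y ∈ D.borelSubgroup F, ∃ u : List (Fin D.rank), (∀ a ∈ u, a.val ∈ J) ∧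
      ∃ b₁ ∈ D.borelSubgroup F, ∃ b₂ ∈ D.borelSubgroup F,
        nW D hD v * y * nW D hD d = b₁ * nW D hD (u ++ d) * b₂ := by
  induction v with
  | nil =>
    intro y hy
    exact ⟨[], fun a ha => absurd ha (List.not_mem_nil), y, hy, 1, Subgroup.one_mem _,
      by simp [nW]⟩
  | cons a v ih =>
    intro y hy
    obtain ⟨u, hu, b₁, hb₁, b₂, hb₂, e⟩ := ih (fun b hb => hv b (List.mem_cons_of_mem _ hb)) y hy
    have e0 : nW (F := F) D hD (a :: v) * y * nW D hD d =
        (nU D hD a * b₁ * nW D hD (u ++ d)) * b₂ := by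
      rw [nW_cons]
      calc nU D hD a * nW D hD v * y * nW D hD d
          = nU D hD a * (nW D hD v * y * nW D hD d) := by group
        _ = nU D hD a * (b₁ * nW D hD (u ++ d) * b₂) := by rw [e]
        _ = _ := by group
    rcases t3_word D hD a (u ++ d) b₁ hb₁ with ⟨x', hx', y', hy', e1⟩ | ⟨x', hx', y', hy', e1⟩
    · refine ⟨a :: u, ?_, x', hx', y' * b₂, Subgroup.mul_mem _ hy' hb₂, ?_⟩
      · intro b hb
        rcases List.mem_cons.mp hb with rfl | hb
        · exact hv _ List.mem_cons_self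
        · exact hu b hb
      · rw [e0, e1, List.cons_append, mul_assoc]
    · exact ⟨u, hu, x', hx', y' * b₂, Subgroup.mul_mem _ hy' hb₂, by rw [e0, e1, mul_assoc]⟩

theorem invCount_congr (D : ChevalleyDatum) (l l' : List (Fin D.rank))
    (h : ∀ r < D.nroots, wordF D l r = wordF D l' r) : invCount D l = invCount D l' := by
  unfold invCount
  congr 1
  apply Finset.filter_congr
  intro r hr
  rw [h r (Finset.mem_range.mp hr)]

/-- descent on the left inside `D_K` -/
theorem dd_descent (D : ChevalleyDatum)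
    (hD : D ∈ [chevG2, chevB2, chevD4, chevF4, chevE6, chevE7, chevE8]) (J K : Set ℕ) :
    ∀ (k : ℕ) (x : List (Fin D.rank)), invCount D x.reverse = k → DJ D K x →
      ∃ u' : List (Fin D.rank), (∀ a ∈ u', a.val ∈ J) ∧ DJ D K (u' ++ x) ∧
        DJ D J (u' ++ x).reverse := by
  intro k
  induction k using Nat.strong_induction_on with
  | _ k ih =>
    intro x hk hx
    by_cases hdj : DJ D J x.reverse
    · exact ⟨[], fun a ha => absurd ha (List.not_mem_nil), hx, hdj⟩
    · unfold DJ at hdj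
      push_neg at hdj
      obtain ⟨j, hjJ, hj, hnp⟩ := hdj
      have hS := sgnOK_all D hD
      have hsl := simple_lt D hD j hj
      have hneg : D.IsNegRoot (wordF D x.reverse (D.simple j)) := by
        rcases hS.pos_or_neg _ (wordF_lt D hD x.reverse _ hsl) with h | h
        · exact absurd h hnp
        · exact h
      rcases deodhar D hD K x hx ⟨j, hj⟩ with h | ⟨k', hk', ek⟩
      · have hlt : invCount D ((⟨j, hj⟩ : Fin D.rank) :: x).reverse < k := by
          rw [← hk, List.reverse_cons]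
          obtain ⟨ε, hε⟩ := word_smap (F := ℚ) D hD x.reverse
          have hpos : D.IsPosRoot (wordF D (x.reverse ++ [(⟨j, hj⟩ : Fin D.rank)])
              (D.simple j)) := by
            rw [wordF_append]
            have hone : wordF D [(⟨j, hj⟩ : Fin D.rank)] (D.simple j) = D.neg (D.simple j) :=
              reflect_simple D j
            rw [hone, hε.f_neg _ hsl]
            exact pos_neg_of_neg D hD _ hneg
          have h1 := invCount_step D hD (x.reverse ++ [(⟨j, hj⟩ : Fin D.rank)]) ⟨j, hj⟩ hpos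
          have h2 : invCount D (x.reverse ++ [(⟨j, hj⟩ : Fin D.rank)] ++ [(⟨j, hj⟩ : Fin D.rank)]) =
              invCount D x.reverse := by
            apply invCount_congr
            intro r hr
            rw [wordF_append, wordF_append]
            show wordF D x.reverse (D.reflectRoot j (D.reflectRoot j r)) = _
            rw [reflectRoot_invol D hD ⟨j, hj⟩ r hr]
          omega
        obtain ⟨u', hu', h1, h2⟩ := ih _ hlt ((⟨j, hj⟩ : Fin D.rank) :: x) rfl h
        refine ⟨u' ++ [(⟨j, hj⟩ : Fin D.rank)], ?_, ?_, ?_⟩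
        · intro b hb
          rcases List.mem_append.mp hb with hb | hb
          · exact hu' b hb
          · rw [List.mem_singleton] at hb
            rw [hb]
            exact hjJ
        · have e : u' ++ [(⟨j, hj⟩ : Fin D.rank)] ++ x = u' ++ (⟨j, hj⟩ : Fin D.rank) :: x := by
            simp
          rw [e]
          exact h1
        · have e : u' ++ [(⟨j, hj⟩ : Fin D.rank)] ++ x = u' ++ (⟨j, hj⟩ : Fin D.rank) :: x := by
            simp
          rw [e]
          exact h2
      · exfalso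
        have e1 : wordF D x.reverse (D.simple j) = D.simple k'.val := by
          have := wordF_reverse_cancel D hD x _ (simple_lt D hD k'.val k'.isLt)
          rw [ek] at this
          exact this
        rw [e1] at hneg
        exact hS.not_both _ ⟨hS.pos_simple k'.val k'.isLt, hneg⟩

/-- every `(P_J, P_K)`-double coset contains `n_d` with `d ∈ D_K`, `d⁻¹ ∈ D_J` -/
theorem dd_exists (D : ChevalleyDatum)
    (hD : D ∈ [chevG2, chevB2, chevD4, chevF4, chevE6, chevE7, chevE8]) (J K : Set ℕ)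
    (g : GL D.Idx F) (hg : g ∈ D.group F) :
    ∃ d : List (Fin D.rank), DJ D K d ∧ DJ D J d.reverse ∧
      ∃ p ∈ D.parabolicSubgroup F J, ∃ p' ∈ D.parabolicSubgroup F K, g = p * nW D hD d * p' := by
  have hBJ : D.borelSubgroup F ≤ D.parabolicSubgroup F J := le_sup_left
  have hBK : D.borelSubgroup F ≤ D.parabolicSubgroup F K := le_sup_left
  obtain ⟨b₁, hb₁, l, b₂, hb₂, e⟩ := bruhat_word D hD g hg
  obtain ⟨l', hl', x, hx, p, hp, e'⟩ := dj_exists D hD K _ l rfl g ⟨b₁, hb₁, b₂, hBK hb₂, e⟩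
  obtain ⟨u', hu', h1, h2⟩ := dd_descent D hD J K _ l' rfl hl'
  refine ⟨u' ++ l', h1, h2, x * (nW D hD u')⁻¹,
    Subgroup.mul_mem _ (hBJ hx) (Subgroup.inv_mem _ (jword_mem_par D hD J u' hu')), p, hp, ?_⟩
  rw [e', nW_append]
  group

/-- `H`-equivalence of words passes to the reversed words -/
theorem rev_diag (D : ChevalleyDatum)
    (hD : D ∈ [chevG2, chevB2, chevD4, chevF4, chevE6, chevE7, chevE8]) (l l' : List (Fin D.rank))
    (h : (nW (F := F) D hD l)⁻¹ * nW D hD l' ∈ D.diagonalSubgroup F) :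
    (nW (F := F) D hD l.reverse)⁻¹ * nW D hD l'.reverse ∈ D.diagonalSubgroup F := by
  have hr := rev_mul_mem_diag (F := F) D hD l
  have hr' := rev_mul_mem_diag (F := F) D hD l'
  have hN := nW_mem_normalizer (F := F) D hD l
  have h1 : (nW (F := F) D hD l.reverse * nW D hD l)⁻¹ *
      (nW (F := F) D hD l'.reverse * nW D hD l') *
      ((nW (F := F) D hD l)⁻¹ * nW D hD l')⁻¹ ∈ D.diagonalSubgroup F :=
    Subgroup.mul_mem _ (Subgroup.mul_mem _ (Subgroup.inv_mem _ hr) hr') (Subgroup.inv_mem _ h)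
  have h2 := conj_mem_of_mem_normalizer _ hN h1
  have e : (nW (F := F) D hD l.reverse)⁻¹ * nW D hD l'.reverse =
      nW (F := F) D hD l * ((nW (F := F) D hD l.reverse * nW D hD l)⁻¹ *
      (nW (F := F) D hD l'.reverse * nW D hD l') *
      ((nW (F := F) D hD l)⁻¹ * nW D hD l')⁻¹) * (nW (F := F) D hD l)⁻¹ := by group
  rw [e]
  exact h2

/-- the representative `n_d`, `d ∈ D_K`, `d⁻¹ ∈ D_J`, of a `(P_J, P_K)`-double coset is unique
modulo `H` -/
theorem dd_unique (D : ChevalleyDatum)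
    (hD : D ∈ [chevG2, chevB2, chevD4, chevF4, chevE6, chevE7, chevE8]) (J K : Set ℕ)
    (d d' : List (Fin D.rank)) (hd : DJ D K d) (hd' : DJ D K d') (hdr : DJ D J d.reverse)
    (hdr' : DJ D J d'.reverse) (p p' : GL D.Idx F) (hp : p ∈ D.parabolicSubgroup F J)
    (hp' : p' ∈ D.parabolicSubgroup F K) (e : nW D hD d' = p * nW D hD d * p') :
    (nW (F := F) D hD d)⁻¹ * nW D hD d' ∈ D.diagonalSubgroup F := by
  have hHB : D.diagonalSubgroup F ≤ D.borelSubgroup F := le_sup_right
  have hBK : D.borelSubgroup F ≤ D.parabolicSubgroup F K := le_sup_left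
  obtain ⟨y, hy, m, hm, y', hy', rfl⟩ := par_decomp D hD J p hp
  obtain ⟨h, hh, v, hv, rfl⟩ := jclosure_word D hD J m hm
  obtain ⟨u, hu, b₁, hb₁, b₂, hb₂, e1⟩ := jsweep D hD J d v hv y' hy'
  obtain ⟨u', hu', hdj, q, hq, e2⟩ := jpath (F := F) D hD J K d hd u hu
  have e3 : nW (F := F) D hD d' = (y * h * b₁) * nW D hD (u' ++ d) * (q * (b₂ * p')) := by
    rw [e]
    calc y * (h * nW D hD v) * y' * nW D hD d * p'
        = y * h * (nW D hD v * y' * nW D hD d) * p' := by group
      _ = y * h * (b₁ * nW D hD (u ++ d) * b₂) * p' := by rw [e1]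
      _ = y * h * b₁ * (nW D hD u * nW D hD d) * (b₂ * p') := by
        rw [nW_append]
        group
      _ = _ := by
        rw [e2]
        group
  have h4 := dj_unique D hD K (u' ++ d) d' hdj hd' (y * h * b₁) (q * (b₂ * p'))
    (Subgroup.mul_mem _ (Subgroup.mul_mem _ hy (hHB hh)) hb₁)
    (Subgroup.mul_mem _ hq (Subgroup.mul_mem _ (hBK hb₂) hp')) e3
  have hr := rev_mul_mem_diag (F := F) D hD d
  have hr' := rev_mul_mem_diag (F := F) D hD d'
  have e4 : nW (F := F) D hD d'.reverse =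
      ((nW (F := F) D hD d'.reverse * nW D hD d') *
        ((nW (F := F) D hD (u' ++ d))⁻¹ * nW D hD d')⁻¹ *
        (nW (F := F) D hD d.reverse * nW D hD d)⁻¹) * nW D hD d.reverse * (nW D hD u')⁻¹ := by
    rw [nW_append]
    group
  have h5 := dj_unique D hD J d.reverse d'.reverse hdr hdr' _ _
    (hHB (Subgroup.mul_mem _ (Subgroup.mul_mem _ hr' (Subgroup.inv_mem _ h4))
      (Subgroup.inv_mem _ hr)))
    (Subgroup.inv_mem _ (jword_mem_par D hD J u' hu')) e4
  have h6 := rev_diag D hD d.reverse d'.reverse h5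
  rwa [List.reverse_reverse, List.reverse_reverse] at h6

end Cfsg.Agent.Lib.Helper36
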