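import Cfsg.Agent.Lib.Helper36.StiA
import Cfsg.Agent.Lib.Helper36.StbE
import Cfsg.Agent.Lib.Helper61.Sti.Dc
import Cfsg.Agent.Lib.Helper61.Sti.Sum
import Cfsg.Agent.Lib.Helper75.Sti.IrrN

/-!
# The Steinberg character is irreducible
-/

set_option autoImplicit false

namespace Cfsg.Agent.Lib.Helper36

open Cfsg Cfsg.Lie Cfsg.Agent.Lib.Helper18

universe u

variable {F : Type u} [Field F]

/-- the Steinberg character of a Chevalley group is irreducible -/
theorem steinberg_irr [Fintype F] (D : ChevalleyDatum)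
    (hD : D ∈ [chevG2, chevB2, chevD4, chevF4, chevE6, chevE7, chevE8]) :
    Cfsg.IsIrrCharacter ↥(D.group F) (D.steinbergCharacter F) := by
  have hS := sgnOK_all D hD
  have hBG : D.borelSubgroup F ≤ D.group F := borelSubgroup_le_group D hD
  have hHB : D.diagonalSubgroup F ≤ D.borelSubgroup F := le_sup_right
  haveI : Finite ↥(D.group F) := inferInstance
  haveI : Fintype ↥(D.group F) := Fintype.ofFinite _
  obtain ⟨W, hW⟩ : ∃ W : Finset (List (Fin D.rank)), ∀ l, l ∈ W ↔ l ∈ wSet D hD F :=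
    ⟨(Set.finite_range (fun g : ↥(D.group F) =>
      repW (F := F) D hD (dcs D F (g : GL D.Idx F)))).toFinset, fun l => Set.Finite.mem_toFinset _⟩
  let n : List (Fin D.rank) → ↥(D.group F) := fun l => ⟨nW D hD l, nW_mem_group D hD l⟩
  let ascR : List (Fin D.rank) → Finset ℕ := fun l =>
    (Finset.range D.rank).filter (fun j => D.IsPosRoot (wordF D l (D.simple j)))
  let ascL : List (Fin D.rank) → Finset ℕ := fun l =>
    (Finset.range D.rank).filter (fun j => D.IsPosRoot (wordF D l.reverse (D.simple j)))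
  have hascR : ∀ (J : Finset ℕ), J ⊆ Finset.range D.rank → ∀ l,
      (J ⊆ ascR l ↔ DJ D (↑J : Set ℕ) l) := by
    intro J hJ l
    constructor
    · intro h j hj _
      exact (Finset.mem_filter.mp (h hj)).2
    · intro h j hj
      exact Finset.mem_filter.mpr ⟨hJ hj, h j hj (Finset.mem_range.mp (hJ hj))⟩
  have hascL : ∀ (J : Finset ℕ), J ⊆ Finset.range D.rank → ∀ l,
      (J ⊆ ascL l ↔ DJ D (↑J : Set ℕ) l.reverse) := by
    intro J hJ l
    constructor
    · intro h j hj _
      exact (Finset.mem_filter.mp (h hj)).2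
    · intro h j hj
      exact Finset.mem_filter.mpr ⟨hJ hj, h j hj (Finset.mem_range.mp (hJ hj))⟩
  have hc : ∀ J ∈ (Finset.range D.rank).powerset, ∀ K ∈ (Finset.range D.rank).powerset,
      (Nat.card ↥(D.group F) : ℂ)⁻¹ * ∑ x : ↥(D.group F),
        Cfsg.fixedPointCharacter (D.parabolicIn F J) x *
          Cfsg.fixedPointCharacter (D.parabolicIn F K) x =
      (((W.filter (fun w => J ⊆ ascL w ∧ K ⊆ ascR w)).card : ℕ) : ℂ) := by
    intro J hJ K hK
    have hJ' := Finset.mem_powerset.mp hJ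
    have hK' := Finset.mem_powerset.mp hK
    have hBK : D.borelSubgroup F ≤ D.parabolicSubgroup F (↑K : Set ℕ) := le_sup_left
    refine Cfsg.Agent.Lib.Helper61.Sti.pkgDc (D.parabolicIn F J) (D.parabolicIn F K)
      (W.filter (fun w => J ⊆ ascL w ∧ K ⊆ ascR w)) n ?_ ?_
    · intro g
      obtain ⟨d, hd, hdr, p, hp, p', hp', e⟩ :=
        dd_exists D hD (↑J : Set ℕ) (↑K : Set ℕ) g.1 g.2
      obtain ⟨ls, hls, c₁, hc₁, c₂, hc₂, e''⟩ := wSet_exists D hD (nW (F := F) D hD d)
        (nW_mem_group D hD d)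
      have hH := bruhat_word_unique D hD d ls c₁ c₂ hc₁ hc₂ e''
      have hdj : DJ D (↑K : Set ℕ) ls := fun j hj hjr =>
        wd_pos D hD d ls hH _ (simple_lt D hD j hjr) (hd j hj hjr)
      have hdjr : DJ D (↑J : Set ℕ) ls.reverse := fun j hj hjr =>
        wd_pos D hD d.reverse ls.reverse (rev_diag D hD d ls hH) _ (simple_lt D hD j hjr)
          (hdr j hj hjr)
      have hkP : ((nW (F := F) D hD d)⁻¹ * nW D hD ls)⁻¹ * p' ∈
          D.parabolicSubgroup F (↑K : Set ℕ) :=
        Subgroup.mul_mem _ (Subgroup.inv_mem _ (hBK (hHB hH))) hp'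
      refine ⟨ls, Finset.mem_filter.mpr ⟨(hW ls).mpr hls, (hascL J hJ' ls).mpr hdjr,
        (hascR K hK' ls).mpr hdj⟩, ⟨p, parabolic_le_group D hD _ hp⟩, ?_,
        ⟨((nW (F := F) D hD d)⁻¹ * nW D hD ls)⁻¹ * p', parabolic_le_group D hD _ hkP⟩, ?_, ?_⟩
      · show _ ∈ (D.parabolicSubgroup F (↑J : Set ℕ)).subgroupOf (D.group F)
        rw [Subgroup.mem_subgroupOf]
        exact hp
      · show _ ∈ (D.parabolicSubgroup F (↑K : Set ℕ)).subgroupOf (D.group F)
        rw [Subgroup.mem_subgroupOf]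
        exact hkP
      · apply Subtype.ext
        show (g : GL D.Idx F) = p * nW D hD ls * (((nW (F := F) D hD d)⁻¹ * nW D hD ls)⁻¹ * p')
        rw [e]
        group
    · rintro w hw w' hw' ⟨h, hh, k, hk, e⟩
      rw [Finset.mem_filter] at hw hw'
      have hh' : (h : GL D.Idx F) ∈ D.parabolicSubgroup F (↑J : Set ℕ) :=
        Subgroup.mem_subgroupOf.mp hh
      have hk' : (k : GL D.Idx F) ∈ D.parabolicSubgroup F (↑K : Set ℕ) :=
        Subgroup.mem_subgroupOf.mp hk
      have h1 := dd_unique D hD (↑J : Set ℕ) (↑K : Set ℕ) w w' ((hascR K hK' w).mp hw.2.2)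
        ((hascR K hK' w').mp hw'.2.2) ((hascL J hJ' w).mp hw.2.1) ((hascL J hJ' w').mp hw'.2.1)
        h.1 k.1 hh' hk' (congrArg Subtype.val e)
      exact wSet_unique D hD w w' ((hW w).mp hw.1) ((hW w').mp hw'.1) h1
  obtain ⟨l0, hl0⟩ := exists_long D hD
  obtain ⟨w0, hw0, c₁, hc₁, c₂, hc₂, e0⟩ := wSet_exists D hD (nW (F := F) D hD l0)
    (nW_mem_group D hD l0)
  have hH0 := bruhat_word_unique D hD l0 w0 c₁ c₂ hc₁ hc₂ e0
  have hw0neg : ∀ i : Fin D.rank, D.IsNegRoot (wordF D w0 (D.simple i.val)) := fun i =>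
    wd_neg D hD l0 w0 hH0 _ (simple_lt D hD i.val i.isLt) (hl0 i)
  have hsum := Cfsg.Agent.Lib.Helper61.Sti.pkgSum W (Finset.range D.rank) ascL ascR w0
    ((hW w0).mpr hw0) (fun w _ => Finset.filter_subset _ _) (fun w _ => Finset.filter_subset _ _)
    (by
      intro w hw hasc0
      have hneg : ∀ i : Fin D.rank, D.IsNegRoot (wordF D w (D.simple i.val)) := by
        intro i
        rcases hS.pos_or_neg _ (wordF_lt D hD w _ (simple_lt D hD i.val i.isLt)) with h | h
        · exfalso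
          have hmem : i.val ∈ ascR w := Finset.mem_filter.mpr ⟨Finset.mem_range.mpr i.isLt, h⟩
          rw [hasc0] at hmem
          exact absurd hmem (Finset.notMem_empty _)
        · exact h
      exact wSet_unique D hD w w0 ((hW w).mp hw) hw0 (long_unique D hD w w0 hneg hw0neg))
    (by
      apply Finset.filter_eq_empty_iff.mpr
      intro j hj hpos
      exact hS.not_both _ ⟨hpos, hw0neg ⟨j, Finset.mem_range.mp hj⟩⟩)
    (by
      apply Finset.filter_eq_empty_iff.mpr
      intro j hj hpos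
      have hjr := Finset.mem_range.mp hj
      have h2 := word_neg_of_simple D hD w0 hw0neg _ hpos
      have h3 : wordF D w0 (wordF D w0.reverse (D.simple j)) = D.simple j := by
        have := wordF_reverse_cancel D hD w0.reverse _ (simple_lt D hD j hjr)
        rwa [List.reverse_reverse] at this
      rw [h3] at h2
      exact hS.not_both _ ⟨hS.pos_simple j hjr, h2⟩)
  have hdeg := steinberg_degree (F := F) D hD
  have hirr := Cfsg.Agent.Lib.Helper75.Sti.pkgIrrN (Finset.range D.rank)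
    (fun J => D.parabolicIn F J)
    (fun J K => (((W.filter (fun w => J ⊆ ascL w ∧ K ⊆ ascR w)).card : ℕ) : ℂ))
    (Fintype.card F ^ (D.nroots / 2)) hc hsum
    (by
      rw [Nat.cast_pow]
      exact hdeg)
    (pow_pos Fintype.card_pos _)
  exact hirr

end Cfsg.Agent.Lib.Helper36
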